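import Cfsg.Agent.MO.D8
import Mathlib.SetTheory.Cardinal.Finite

/-!
# Moufang octagons: central root elements
-/

set_option autoImplicit false

namespace Cfsg.Lib.MO

variable {G : Type*} [Group G] [Finite G] {S : Sys G}
variable {i j k : ℤ} {a b d g r s t u v v' w x y z : G}

theorem exists_inj {A B : Subgroup G} (f : G → G) (hf : ∀ a ∈ A, a ≠ 1 → f a ∈ B ∧ f a ≠ 1)
    (inj : ∀ a ∈ A, a ≠ 1 → ∀ b ∈ A, b ≠ 1 → f a = f b → a = b) : Nat.card A ≤ Nat.card B ∧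
      (Nat.card B ≤ Nat.card A → ∀ y ∈ B, y ≠ 1 → ∃ a ∈ A, a ≠ 1 ∧ f a = y) := by
  classical
  let F : A → B := fun a => if e : (a : G) = 1 then 1 else ⟨f a, (hf a a.2 e).1⟩
  have hF : Function.Injective F := fun a b e => Subtype.ext <| by
    have e' := congrArg Subtype.val e
    by_cases ea : (a : G) = 1 <;> by_cases eb : (b : G) = 1 <;> simp only [F, ea, eb, dite_true, dite_false] at e' ⊢
    · exact absurd e'.symm (hf b b.2 eb).2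
    · exact absurd e' (hf a a.2 ea).2
    · exact inj a a.2 ea b b.2 eb e'
  refine ⟨Nat.card_le_card_of_injective F hF, fun hc y hy y1 => ?_⟩
  obtain ⟨a, ha⟩ := (hF.bijective_of_nat_card_le hc).2 ⟨y, hy⟩
  have e' := congrArg Subtype.val ha
  by_cases ea : (a : G) = 1 <;> simp only [F, ea, dite_true, dite_false] at e'
  · exact absurd e'.symm y1
  · exact ⟨a, a.2, ea, e'⟩

omit [Finite G] in
theorem comm_of_cn_eq (e : cn v x = cn v y) : v * (x * y⁻¹) = x * y⁻¹ * v := by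
  rw [← cn_eq_iff, ← cn_cn, e, cn_cn_inv]

omit [Finite G] in
theorem cn_sq_inv (e : cn x g⁻¹ = (cn x g)⁻¹) : cn x (g * g) = x⁻¹ := by
  rw [← cn_cn, ← inv_inv (cn x g), ← e, cn_inv, cn_inv_cn]

omit [Finite G] in
theorem cn_sq_inv' (e : cn (cn y g⁻¹) (g * g) = (cn y g⁻¹)⁻¹) : cn y (g * g) = y⁻¹ := by
  have := congrArg (cn · g) e
  simp only [cn_inv, cn_inv_cn] at this
  rw [← this]; unfold cn; group

omit [Finite G] in
theorem cm_inv_right (e : cm x g * g = g * cm x g) : cm x g⁻¹ = (cm x g)⁻¹ := by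
  rw [← cn_of_comm (comm_inv e), ← cn_inv]; unfold cn cm; group

omit [Finite G] in
theorem cm_inv_left (e : cm x g * x = x * cm x g) : cm x⁻¹ g = (cm x g)⁻¹ := by
  rw [← cn_of_comm (comm_inv e), ← cn_inv]; unfold cn cm; group

theorem RK.st (h : RK 8 S) (hx : x ∈ S.U i) (ha : a ∈ S.U j) (a1 : a ≠ 1) (e : x * S.ka a = S.ka a * x) (k : ℤ)
    (H : k = 2 * j - 8 - i ∧ i + 4 < j ∧ j < i + 8 := by omega) :
    ∃ d ∈ I S.U (i + 1) (k - 1), cn x a = x * d * cn x (S.mu a) := by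
  have hm := h.muU ha a1 hx k
  obtain ⟨r, hr, e2⟩ := h.cn_bot hx (mem_I ha (i := i + 1) (by omega) le_rfl) (by push_cast; omega)
  obtain ⟨s, hs, e3⟩ := h.cn_top hm (inv_mem (mem_I (h.laU ha a1 (j - 8)) le_rfl (by omega))) (by push_cast; omega)
  obtain ⟨d, hd, e4⟩ := h.both hx hm hr hs (by omega) (by omega) (by omega) (by push_cast; omega)
    (by push_cast; omega) (by push_cast; omega) (by rw [← e2, ← e3, ← RK.star' e])
  exact ⟨d, hd, by rw [e2, e4, mul_assoc]⟩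

theorem RK.cm_I (h : RK 8 S) (ht : t ∈ S.U i) (hx : x ∈ I S.U k j) (H : i < k ∧ j < i + 8 := by omega) :
    cm t x ∈ I S.U (i + 1) (j - 1) := by
  obtain ⟨r, hr, e⟩ := h.cn_bot ht (I_mono hx (by omega) le_rfl) (by push_cast; omega)
  rwa [cm_eq, e, inv_mul_cancel_left]

namespace O8

variable (h : O8 S)
include h

theorem vC (hv : v ∈ S.V 2) (ha : a ∈ S.U 8) (a1 : a ≠ 1) : ∃ d ∈ I S.U 3 5, cn v a = v * d * cn v (S.mu a) :=
  h.st (h.V_le hv) ha a1 (h.vc hv (h.kaU ha a1 0)) 6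

theorem vB0 (hv : v ∈ S.V 2) (hu : u ∈ S.U 7) (u1 : u ≠ 1) : ∃ d ∈ S.U 3, cn v u = v * d * cn v (S.mu u) := by
  obtain ⟨d, hd, e⟩ := h.st (h.V_le hv) hu u1 (h.vc hv (h.kaU hu u1 (-1))) 4
  exact ⟨d, I_self hd (by omega) (by omega), e⟩

theorem vB (hv : v ∈ S.V 2) (hu : u ∈ S.U 7) (u1 : u ≠ 1) : cm v u = cn v (S.mu u) := by
  obtain ⟨c, hc, e⟩ := h.vB0 hv hu u1
  suffices c = 1 by rw [cm_eq, e, this]; group
  by_contra c1
  obtain ⟨a, ha, a1⟩ := h.exV 8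
  have ha' := h.V_le ha
  have h4 := h.muV hu u1 hv 4
  have h1 := h.muU ha' a1 hu 1
  obtain ⟨u2, u3, u4, u5, u6, u7, q⟩ := h.exists_sq h1 (cn_ne u1 _) ha' a1
  obtain rfl : u7 = u := cn_inj (h.sq_prev q).1
  obtain ⟨d, hd, e1⟩ := h.vC hv ha' a1
  have h6 := h.muV ha' a1 hv 6
  have hz : u2 * u3 * u4 * u5 * u6 ∈ I S.U 2 6 :=
    mul_mem (mul_mem (mul_mem (mul_mem (mem_I q.m2 (by omega) (by omega)) (mem_I q.m3 (by omega) (by omega)))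
      (mem_I q.m4 (by omega) (by omega))) (mem_I q.m5 (by omega) (by omega))) (mem_I q.m6 (by omega) (by omega))
  have e2 := cn_conj v a (cn u7 (S.mu a))
  rw [cn_of_comm (h.vc hv h1), q.eq, ← cn_cn v _ a, ← cn_cn v _ u7, cn_of_comm (h.vI hv hz), e, cn_mul, cn_mul,
    cn_of_comm (h.vc h4 ha'), e1, mul_assoc v, cn_mul, cn_of_comm (h.vc hv h1), cn_eq, ← cm_inv] at e2
  have hr := inv_mem (h.cm_I h1 (mul_mem (I_mono hd le_rfl (by omega : (5 : ℤ) ≤ 6))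
    (mem_I (h.V_le h6) (by omega) le_rfl)))
  obtain ⟨c7, hc7, e3⟩ := (h.rf 10).vB0 (v := a) (u := c) ha hc c1
  have h6' := h.muV hc c1 ha 6
  have e4 : c7 * cn a (S.mu c) = cn v (S.mu u7) * cm (cn u7 (S.mu a)) (d * cn v (S.mu a)) * c := by
    have e5 : cn c a = c * (c7 * cn a (S.mu c))⁻¹ := by
      rw [cn_eq, ← cm_inv, cm_eq a c, e3]; unfold Sys.rf Sys.mu; group
    rw [e5, mul_assoc, mul_assoc, mul_assoc, mul_assoc, mul_assoc, mul_right_inj, mul_right_inj, mul_right_inj] at e2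
    rw [← inv_inj, mul_inv_rev, mul_inv_rev (_ * _), mul_inv_rev (cn v _), e2]; group
  have e6 := h.disj (x := c7 * cn a (S.mu c)) (i := 2) (j := 5) (k := 6) (l := 7) (e4 ▸ mul_mem (mul_mem
    (mem_I (h.V_le h4) (by omega) (by omega)) (by simpa using inv_mem hr)) (mem_I hc (by omega) (by omega)))
    (mul_mem (mem_I (k := 7) hc7 (by omega) (by omega)) (mem_I (h.V_le h6') (by omega) (by omega))) (by omega)
    (by omega) (by omega)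
  exact cn_ne a1 _ (h.U_disj (h.V_le h6') (j := 7) (eq_inv_of_mul_eq_one_right e6 ▸ inv_mem hc7) (by omega) (by omega))

theorem vB_mem (hv : v ∈ S.V 2) (hu : u ∈ S.U 7) : cm v u ∈ S.V 4 := by
  by_cases u1 : u = 1
  · rw [u1, cm_eq_one.2 (by simp)]; exact one_mem _
  · rw [h.vB hv hu u1]; exact h.muV hu u1 hv 4

theorem vB_inj (hv : v ∈ S.V 2) (hu : u ∈ S.U 7) (e : v * u = u * v) : v = 1 ∨ u = 1 :=
  or_iff_not_imp_right.2 fun u1 => h.lemA (h.V_le hv) (one_mem _) hu u1 (by omega) (by omega) (by simpa using e)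

theorem vQ (hv : v ∈ S.V 2) (hx : x ∈ I S.U 1 7) : cm v x ∈ S.V 4 := by
  obtain ⟨r, hr, u, hu, rfl⟩ := h.top hx (by omega)
  rw [cm_mul_right, cm_eq_one.2 (h.vI hv hr), one_cn, mul_one]
  exact h.vB_mem hv hu

theorem vB_mul (hv : v ∈ S.V 2) (hu : u ∈ S.U 7) (hx : x ∈ S.U 7) : cm v (u * x) = cm v x * cm v u := by
  rw [cm_mul_right, cn_of_comm (h.vc (h.vB_mem hv hu) hx)]

theorem vB_eq (hv : v ∈ S.V 2) (v1 : v ≠ 1) (hu : u ∈ S.U 7) (hx : x ∈ S.U 7) (e : cm v u = cm v x) : u = x :=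
  mul_inv_eq_one.1 ((h.vB_inj hv (mul_mem hu (inv_mem hx)) (comm_of_cn_eq (by rw [cn_eq, cn_eq, e]))).resolve_left v1)

theorem U_comm (hu : u ∈ S.U i) (hx : x ∈ S.U i) (e : i % 2 = 1 := by omega) : u * x = x * u := by
  have key : ∀ {S : Sys G}, O8 S → u ∈ S.U 7 → x ∈ S.U 7 → u * x = x * u := fun h hu hx => by
    obtain ⟨v, hv, v1⟩ := h.exV 2
    refine h.vB_eq hv v1 (mul_mem hu hx) (mul_mem hx hu) ?_
    rw [h.vB_mul hv hu hx, h.vB_mul hv hx hu, h.vc (h.vB_mem hv hu) (h.V_le (h.vB_mem hv hx))]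
  exact key (h.sh (i - 7)) (h.pU hu _) (h.pU hx _)

theorem vv0 (hv : v ∈ S.V 2) (v1 : v ≠ 1) (ha : a ∈ S.V 8) (a1 : a ≠ 1) :
    ∃ d ∈ S.U 5, cm v a = (cn a (S.mu v))⁻¹ * d * cn v (S.mu a) := by
  obtain ⟨d, hd, e⟩ := h.vC hv (h.V_le ha) a1
  obtain ⟨d', hd', e'⟩ := (h.rf 10).vC (v := a) (a := v) ha (h.V_le hv) v1
  have e1 : cm v a = (cn a (S.mu v))⁻¹ * d'⁻¹ := by rw [← cm_inv, cm_eq, e']; unfold Sys.rf Sys.mu; group
  have hd2 : d' ∈ I S.U (4 + 1) 7 := I_mono (I_rf.1 hd') (by omega) (by omega)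
  obtain ⟨c, hc, e2⟩ := h.both (inv_mem (h.muU (h.V_le hv) v1 (h.V_le ha) 4))
    (h.muU (h.V_le ha) a1 (h.V_le hv) 6) (inv_mem hd2) (I_mono hd le_rfl (by omega)) (by omega) (by omega) (by omega)
    (by omega) (by omega) (by omega) (by rw [← e1, cm_eq, e]; group)
  exact ⟨c, I_self hc (by omega) (by omega), by rw [e1, e2, mul_assoc]⟩

theorem vv_mem (hv : v ∈ S.V 2) (ha : a ∈ S.V 8) : cm v a ∈ I S.U 4 6 := by
  by_cases e : v = 1 ∨ a = 1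
  · rw [cm_eq_one.2 (by rcases e with rfl | rfl <;> simp)]; exact one_mem _
  push Not at e
  obtain ⟨d, hd, e1⟩ := h.vv0 hv e.1 ha e.2
  exact e1 ▸ mul_mem (mul_mem (inv_mem (mem_I (h.muU (h.V_le hv) e.1 (h.V_le ha) 4) (by omega) (by omega)))
    (mem_I hd (by omega) (by omega))) (mem_I (h.muU (h.V_le ha) e.2 (h.V_le hv) 6) (by omega) (by omega))

theorem vtop (hv : v ∈ S.V 2) (ha : a ∈ S.V 8) (a1 : a ≠ 1) : ∃ d ∈ I S.U 3 5, cm v a = d * cn v (S.mu a) := by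
  obtain ⟨d, hd, e⟩ := h.vC hv (h.V_le ha) a1
  exact ⟨d, hd, by rw [cm_eq, e]; group⟩

theorem invV (hv : v ∈ S.V 2) (ha : a ∈ S.V 8) (a1 : a ≠ 1) : cn v (S.mu a * S.mu a) = v⁻¹ := by
  obtain ⟨d, hd, e⟩ := h.vtop hv ha a1
  obtain ⟨d', hd', e'⟩ := h.vtop hv (inv_mem ha) (inv_ne_one.2 a1)
  have h6 := h.muV (h.V_le ha) a1 hv 6
  rw [cm_inv_right (h.vI ha (h.vv_mem hv ha)).symm, e, ← h.vI h6 hd, mul_inv_rev] at e'
  have := (h.top_inj (inv_mem (h.V_le h6)) (h.muU (inv_mem (h.V_le ha)) (inv_ne_one.2 a1) (h.V_le hv) 6) (inv_mem hd)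
    hd' (by omega) (by omega) e').2
  exact cn_sq_inv (by rw [this, h.mu_inv (h.V_le ha) a1])

theorem injV (hv : v ∈ S.V 2) (v1 : v ≠ 1) (ha : a ∈ S.V 8) (a1 : a ≠ 1) (hb : b ∈ S.V 8) (b1 : b ≠ 1)
    (e : cn v (S.mu a) = cn v (S.mu b)) : a = b := by
  by_contra ne
  have n1 : a * b⁻¹ ≠ 1 := fun e => ne (mul_inv_eq_one.1 e)
  obtain ⟨d, hd, e1⟩ := h.vtop hv ha a1
  obtain ⟨d', hd', e2⟩ := h.vtop hv hb b1
  obtain ⟨c, hc, e3⟩ := h.vtop hv (mul_mem ha (inv_mem hb)) n1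
  have h6 := h.muV (h.V_le hb) b1 hv 6
  rw [cm_mul_right, cn_of_comm (h.vI (inv_mem hb) (h.vv_mem hv ha)).symm,
    cm_inv_right (h.vI hb (h.vv_mem hv hb)).symm, e1, e2, e, ← h.vI h6 hd', ← h.vI h6 hd] at e3
  exact cn_ne v1 _ (h.top_inj (h.muU (h.V_le (mul_mem ha (inv_mem hb))) n1 (h.V_le hv) 6) (one_mem _) hc
    (mul_mem (inv_mem hd') hd) (by omega) (by omega) (by rw [← e3]; group)).2

theorem inv8 (ha : a ∈ S.V 8) (hx : x ∈ S.U 1) (x1 : x ≠ 1) : cn a (S.mu x * S.mu x) = a⁻¹ := by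
  by_cases a1 : a = 1
  · simp [a1]
  have ha' := h.V_le ha
  have hg := h.act2 ha' a1 ha' a1
  obtain ⟨v, hv, v1⟩ := h.exV 2
  have e2 : cn a (S.mu a * S.mu a) = a := h.injV hv v1 (hg.mV ha) (cn_ne a1 _) ha a1 (by
    rw [h.mu_cn_id hg ha' a1, cn_of_comm (x := S.mu a) (mul_assoc _ _ _).symm])
  have e3 : cn x (S.mu a * S.mu a) = x⁻¹ := by
    obtain ⟨w, hw, w1⟩ := h.exV 6
    have hx' : cn x (S.mu a * S.mu a) ∈ S.U 1 := hg.mU hx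
    have hc : cm w x ∈ S.V 4 := (h.rf 8).vB_mem hw hx
    have hc' : cm w (cn x (S.mu a * S.mu a)) ∈ S.V 4 := (h.rf 8).vB_mem hw hx'
    have e4 : cn w (S.mu a * S.mu a) = w⁻¹ := cn_sq_inv' (h.invV (by
      rw [← h.mu_inv ha' a1]; exact h.muV (inv_mem ha') (inv_ne_one.2 a1) hw 2) ha a1)
    have e5 : cn (cm w x) (S.mu a) = cm w x := h.mu_comm ha' a1 (h.vc hc ha') fun y hy => h.vc hc (h.pU hy 0)
    have e6 : cn (cm w x) (S.mu a * S.mu a) = cm w x := by rw [← cn_cn, e5, e5]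
    rw [cn_cm, e4, cm_inv_left (h.vc hc' (h.V_le hw))] at e6
    refine (h.rf 8).vB_eq (v := w) hw w1 hx' (inv_mem hx) ?_
    rw [cm_inv_right (h.vc hc hx), ← e6, inv_inv]
  refine cn_sq_inv ?_
  rw [← h.mu_inv hx x1, ← e3, h.mu_cn_id hg hx x1, ← h.invV (h.muV hx x1 ha 2) ha a1, cn_conj a (S.mu x), e2]

theorem V_sq (hv : v ∈ S.V i) (e : i % 2 = 0 := by omega) : v * v = 1 := by
  have key : ∀ {S : Sys G}, O8 S → v ∈ S.V 4 → v * v = 1 := fun {S} h hw => by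
    by_cases w1 : v = 1
    · simp [w1]
    obtain ⟨u, hu, u1⟩ := h.exV 2
    obtain ⟨x, hx, x1⟩ := h.exists_ne 1
    have hx' := inv_mem hx
    have x1' := inv_ne_one.2 x1
    have ha := h.muV (inv_mem (h.V_le hu)) (inv_ne_one.2 u1) hw 8
    obtain ⟨d, hd, e⟩ := h.vv0 hu u1 ha (cn_ne w1 _)
    have h6 := h.muU (h.V_le ha) (cn_ne w1 _) (h.V_le hu) 6
    have hD := h.vv_mem hu ha
    have hg := h.act2 hx x1 hx x1
    have e1 : cn u (S.mu x * S.mu x) = u⁻¹ :=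
      cn_sq_inv' (h.inv8 (by rw [← h.mu_inv hx x1]; exact h.muV hx' x1' hu 8) hx x1)
    have e2 : cn v (S.mu x * S.mu x) = v⁻¹ := by
      have hy : cn v (S.mu x)⁻¹ ∈ S.V 6 := by rw [← h.mu_inv hx x1]; exact h.muV hx' x1' hw 6
      refine cn_sq_inv' (cn_sq_inv ?_)
      have e3 : cm _ x = cn _ (S.mu x) := (h.rf 8).vB hy hx x1
      have e4 : cm _ x⁻¹ = cn _ (S.mu x⁻¹) := (h.rf 8).vB hy hx' x1'
      rw [← e3, ← cm_inv_right (h.vc (i := 4) ((h.rf 8).vB_mem hy hx) hx), e4, h.mu_inv hx x1]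
    have e5 := cn_cm u (cn v (S.mu u⁻¹)) (S.mu x * S.mu x)
    rw [e1, h.inv8 ha hx x1, cm_inv_left (by
      rw [cm_inv_right (h.vI ha hD).symm]; exact (h.vI hu (inv_mem hD)).symm), cm_inv_right (h.vI ha hD).symm,
      inv_inv, e, h.mu_inv (h.V_le hu) u1, cn_inv_cn, cn_mul, cn_mul, cn_inv, e2, inv_inv] at e5
    rw [h.mu_inv (h.V_le hu) u1] at h6
    exact mul_eq_one_iff_eq_inv.2 (h.inj3 (h.V_le hw) (inv_mem (h.V_le hw)) (hg.mU hd) hd (hg.mU h6) h6 e5).1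
  exact key (h.sh (i - 4)) (h.pV hv _)

theorem U_sq (hu : u ∈ S.U i) (e : i % 2 = 1 := by omega) : u * u = 1 := by
  have key : ∀ {S : Sys G}, O8 S → u ∈ S.U 7 → u * u = 1 := fun h hu => by
    obtain ⟨v, hv, v1⟩ := h.exV 2
    refine h.vB_eq hv v1 (mul_mem hu hu) (one_mem _) ?_
    rw [h.vB_mul hv hu hu, h.V_sq (h.vB_mem hv hu), cm_eq_one.2 (by simp)]
  exact key (h.sh (i - 7)) (h.pU hu _)

theorem V_inv (hv : v ∈ S.V i) (e : i % 2 = 0 := by omega) : v⁻¹ = v := inv_eq_of_mul_eq_one_right (h.V_sq hv)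

theorem U_inv (hu : u ∈ S.U i) (e : i % 2 = 1 := by omega) : u⁻¹ = u := inv_eq_of_mul_eq_one_right (h.U_sq hu)

theorem muV_inv (hv : v ∈ S.V i) (v1 : v ≠ 1) (e : i % 2 = 0 := by omega) : (S.mu v)⁻¹ = S.mu v := by
  rw [← h.mu_inv (h.V_le hv) v1, h.V_inv hv]

theorem muU_inv (hu : u ∈ S.U i) (u1 : u ≠ 1) (e : i % 2 = 1 := by omega) : (S.mu u)⁻¹ = S.mu u := by
  rw [← h.mu_inv hu u1, h.U_inv hu]

theorem muV_sq (hv : v ∈ S.V i) (v1 : v ≠ 1) (e : i % 2 = 0 := by omega) : S.mu v * S.mu v = 1 :=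
  mul_eq_one_iff_inv_eq.2 (h.muV_inv hv v1)

theorem muU_sq (hu : u ∈ S.U i) (u1 : u ≠ 1) (e : i % 2 = 1 := by omega) : S.mu u * S.mu u = 1 :=
  mul_eq_one_iff_inv_eq.2 (h.muU_inv hu u1)

theorem vv (hv : v ∈ S.V 2) (v1 : v ≠ 1) (ha : a ∈ S.V 8) (a1 : a ≠ 1) :
    ∃ d ∈ S.U 5, cm v a = cn a (S.mu v) * d * cn v (S.mu a) := by
  obtain ⟨d, hd, e⟩ := h.vv0 hv v1 ha a1
  exact ⟨d, hd, by rw [e, h.V_inv (h.muV (h.V_le hv) v1 ha 4)]⟩

theorem utop (hx : x ∈ S.U 1) (x1 : x ≠ 1) (ha : a ∈ S.V 8) (a1 : a ≠ 1) : ∃ z ∈ I S.U 2 6,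
    cn x a = x * z * cn x (S.mu a) ∧ ∀ b ∈ S.V 8, cn z b ∈ I S.U 2 6 := by
  obtain ⟨u2, u3, u4, u5, u6, u7, q⟩ := h.exists_sq hx x1 (h.V_le ha) a1
  have e := RK.sq_eq' q
  have h2 : u2 ∈ S.V 2 := (h.sq_next q).1 ▸ h.muV hx x1 ha 2
  have e7 : cn x (S.mu a) = u7 := by rw [← (h.sq_prev q).1, cn_cn, h.muV_sq ha a1, cn_one]
  have hr : u4 * u5 * u6 ∈ I S.U 4 6 := mul_mem (mul_mem (mem_I q.m4 (by omega) (by omega))
    (mem_I q.m5 (by omega) (by omega))) (mem_I q.m6 (by omega) (by omega))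
  have m2 : u2 ∈ I S.U 2 6 := mem_I q.m2 (by omega) (by omega)
  have m3 : u3 ∈ I S.U 2 6 := mem_I q.m3 (by omega) (by omega)
  refine ⟨u2 * u3 * (u4 * u5 * u6), mul_mem (mul_mem m2 m3) (I_mono hr (by omega) le_rfl), by
    rw [e7, ← h.V_inv ha, e]; group, fun b hb => ?_⟩
  rw [cn_mul, cn_mul, cn_of_comm (h.vI hb hr).symm, cn_eq, cn_eq, ← cm_inv b u3]
  exact mul_mem (mul_mem (mul_mem m2 (I_mono (h.vv_mem h2 hb) (by omega) le_rfl)) (mul_mem m3 (inv_mem (mem_I (k := 6)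
    (h.V_le ((h.rf 10).vB_mem hb q.m3)) (by omega) le_rfl)))) (I_mono hr (by omega) le_rfl)

theorem injU (hx : x ∈ S.U 1) (x1 : x ≠ 1) (ha : a ∈ S.V 8) (a1 : a ≠ 1) (hb : b ∈ S.V 8) (b1 : b ≠ 1)
    (e : cn x (S.mu a) = cn x (S.mu b)) : a = b := by
  by_contra ne
  have n1 : a * b ≠ 1 := fun e => ne ((eq_inv_of_mul_eq_one_left e).trans (h.V_inv hb))
  obtain ⟨z, -, e1, hz⟩ := h.utop hx x1 ha a1
  obtain ⟨z', hz', e2, -⟩ := h.utop hx x1 hb b1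
  obtain ⟨c, hc, e3, -⟩ := h.utop hx x1 (mul_mem ha hb) n1
  have h7 := h.muU (h.V_le hb) b1 hx 7
  rw [← cn_cn, e1, e, cn_mul, cn_mul, e2, cn_of_comm (h.vc hb h7).symm] at e3
  refine cn_ne x1 _ (h.top_inj (h.muU (h.V_le (mul_mem ha hb)) n1 hx 7) (one_mem _) hc
    (mul_mem hz' (h.cn_U h7 (hz b hb) (by omega) (by omega) (by omega) (by omega))) (by omega) (by omega)
    (mul_left_cancel (a := x) ?_)).2
  rw [← mul_assoc, ← e3, cn.eq_1 (cn z b), h.U_inv h7]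
  generalize cn x (S.mu b) = p
  group

theorem card_UV : Nat.card (S.U 1) = Nat.card (S.V 2) := by
  obtain ⟨v, hv, v1⟩ := h.exV 2
  obtain ⟨x, hx, x1⟩ := h.exists_ne 1
  have e1 := (exists_inj (A := S.U 7) (B := S.V 4) (cm v) (fun u hu u1 => ⟨h.vB_mem hv hu, fun e =>
    (h.vB_inj hv hu (cm_eq_one.1 e)).elim v1 u1⟩) fun u hu _ y hy _ => h.vB_eq hv v1 hu hy).1
  have e2 := (exists_inj (A := S.V 8) (B := S.U 7) (fun a => cn x (S.mu a)) (fun a ha a1 =>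
    ⟨h.muU (h.V_le ha) a1 hx 7, cn_ne x1 _⟩) fun a ha a1 b hb b1 => h.injU hx x1 ha a1 hb b1).1
  rw [h.card_U 1 7, h.card_V 2 4]
  exact le_antisymm e1 (h.card_V 4 8 ▸ e2)

theorem surjB (hv : v ∈ S.V 2) (v1 : v ≠ 1) (hw : w ∈ S.V 4) : ∃ u ∈ S.U 7, cm v u = w := by
  by_cases w1 : w = 1
  · exact ⟨1, one_mem _, by rw [w1, cm_eq_one]; simp⟩
  obtain ⟨u, hu, -, e⟩ := (exists_inj (A := S.U 7) (B := S.V 4) (cm v) (fun u hu u1 => ⟨h.vB_mem hv hu, fun e =>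
    (h.vB_inj hv hu (cm_eq_one.1 e)).elim v1 u1⟩) fun u hu _ y hy _ => h.vB_eq hv v1 hu hy).2
    (by rw [← h.card_U 1 7, ← h.card_V 2 4, h.card_UV]) w hw w1
  exact ⟨u, hu, e⟩

theorem trV (hv : v ∈ S.V i) (v1 : v ≠ 1) (hw : w ∈ S.V i) (w1 : w ≠ 1) (e : i % 2 = 0 := by omega) :
    ∃ g, Act S g (fun j => j) ∧ cn v g = w := by
  have h' := h.sh (i - 2)
  obtain ⟨b, hb, b1⟩ := h'.exV 8
  obtain ⟨a, ha, a1, e⟩ := (exists_inj (A := (S.sh (i - 2)).V 8) (B := (S.sh (i - 2)).V 6) (fun a => cn v (S.mu a))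
    (fun a ha a1 => ⟨h'.muV (h'.V_le ha) a1 (j := 2) (h.pV hv _) 6, cn_ne v1 _⟩) fun a ha a1 b hb b1 =>
      h'.injV (h.pV hv _) v1 ha a1 hb b1).2 (h'.card_V 6 8).le _ (h'.muV (h'.V_le hb) b1 (j := 2) (h.pV hw _) 6)
      (cn_ne w1 _)
  exact ⟨_, h.act2 (h'.V_le ha) a1 (h'.V_le hb) b1, by
    rw [← cn_cn, e, cn_cn]; exact (congrArg _ (h'.muV_sq hb b1)).trans (cn_one w)⟩

theorem trU (hv : v ∈ S.U i) (v1 : v ≠ 1) (hw : w ∈ S.U i) (w1 : w ≠ 1) (e : i % 2 = 1 := by omega) :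
    ∃ g, Act S g (fun j => j) ∧ cn v g = w := by
  have h' := h.sh (i - 1)
  obtain ⟨b, hb, b1⟩ := h'.exV 8
  obtain ⟨a, ha, a1, e⟩ := (exists_inj (A := (S.sh (i - 1)).V 8) (B := (S.sh (i - 1)).U 7) (fun a => cn v (S.mu a))
    (fun a ha a1 => ⟨h'.muU (h'.V_le ha) a1 (j := 1) (h.pU hv _) 7, cn_ne v1 _⟩) fun a ha a1 b hb b1 =>
      h'.injU (h.pU hv _) v1 ha a1 hb b1).2 (by rw [← h'.card_U 1 7, ← h'.card_V 2 8, h'.card_UV]) _
      (h'.muU (h'.V_le hb) b1 (j := 1) (h.pU hw _) 7) (cn_ne w1 _)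
  exact ⟨_, h.act2 (h'.V_le ha) a1 (h'.V_le hb) b1, by
    rw [← cn_cn, e, cn_cn]; exact (congrArg _ (h'.muV_sq hb b1)).trans (cn_one w)⟩

end O8

end Cfsg.Lib.MO
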