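import Cfsg.Agent.MO.A1

/-!
# Moufang octagons: the middle component of `[V₂, V₈]`
-/

set_option autoImplicit false

namespace Cfsg.Lib.MO

variable {G : Type*} [Group G] [Finite G] {S : Sys G}
variable {i j k : ℤ} {a b d d' g r s t u v v' w x y z : G}

theorem D5_eq_1' : type_of% @D5.eq_1 := @D5.eq_1
theorem Pos_eq_1' : type_of% @Pos.eq_1 := @Pos.eq_1

namespace O8

variable (h : O8 S)
include h

theorem d5_ex (hv : v ∈ S.V 2) (ha : a ∈ S.V 8) : ∃ d, D5 S v a d := by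
  by_cases e : v = 1 ∨ a = 1
  · exact ⟨1, one_mem _, 1, one_mem _, 1, one_mem _, by
      rw [cm_eq_one.2 (by rcases e with rfl | rfl <;> simp)]; simp⟩
  push Not at e
  obtain ⟨d, hd, e1⟩ := h.vv hv e.1 ha e.2
  exact ⟨d, hd, _, h.muV (h.V_le hv) e.1 ha 4, _, h.muV (h.V_le ha) e.2 hv 6, e1⟩

theorem d5_uniq (hd : D5 S v a d) (hd' : D5 S v a d') : d = d' := by
  obtain ⟨m, p, hp, q, hq, e⟩ := hd
  obtain ⟨m', p', hp', q', hq', e'⟩ := hd'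
  exact (h.inj3 (h.V_le hp) (h.V_le hp') m m' (h.V_le hq) (h.V_le hq') (e.symm.trans e')).2.1

omit [Finite G] in
theorem d5_mul (hv : v ∈ S.V 2) (hv' : v' ∈ S.V 2) (hd : D5 S v a d) (hd' : D5 S v' a d') :
    D5 S (v * v') a (d * d') := by
  obtain ⟨m, p, hp, q, hq, e⟩ := hd
  obtain ⟨m', p', hp', q', hq', e'⟩ := hd'
  refine ⟨mul_mem m m', p * p', mul_mem hp hp', q * q', mul_mem hq hq', ?_⟩
  rw [cm_mul_left, e, e', cn_of_comm (comm_mul (comm_mul (h.vc hv' (h.V_le hp)) (h.vc hv' m))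
    (h.vc hv' (h.V_le hq))).symm]
  calc p * d * q * (p' * d' * q') = p * d * (q * (p' * d')) * q' := by group
    _ = p * (d * p') * d' * (q * q') := by rw [comm_mul (h.vc hq (h.V_le hp')) (h.vc hq m')]; group
    _ = _ := by rw [← h.vc hp' m]; group

omit [Finite G] in
theorem d5_of (hd : D5 S v a d) (hx : x ∈ S.U k) (e : cn (cm v a) x = cm v a) (H : 2 ≤ k ∧ k ≤ 8 := by omega) :
    d * x = x * d := by
  obtain ⟨-, p, hp, q, hq, e1⟩ := hd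
  rw [e1, cn_mul, cn_mul, cn_of_comm (h.vc hp hx), cn_of_comm (h.vc hq hx)] at e
  exact cn_eq_iff.1 (mul_left_cancel (mul_right_cancel e))

theorem d5_symm (hv : v ∈ S.V 2) (ha : a ∈ S.V 8) (hd : D5 S v a d) : D5 (S.rf 10) a v d := by
  obtain ⟨m, p, hp, q, hq, e⟩ := hd
  exact ⟨m, q, hq, p, hp, by rw [← cm_inv, e, mul_inv_rev, mul_inv_rev, h.V_inv hp, h.V_inv hq, h.U_inv m, mul_assoc]⟩

theorem d5_three (hv : v ∈ S.V 2) (ha : a ∈ S.V 8) (hd : D5 S v a d) (hx : x ∈ S.U 3) : d * x = x * d := by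
  have h6 : cm a x ∈ S.V 6 := (h.rf 10).vB_mem ha hx
  refine h.d5_of hd hx ?_
  rw [cn_cm, cn_of_comm (h.vc hv hx), cn_eq, cm_mul_right, cm_eq_one.2 (h.vc hv (h.V_le h6)), one_mul,
    cn_of_comm (h.vI h6 (h.vv_mem hv ha)).symm]

theorem cm_top (hv : v ∈ S.V 2) (ha : a ∈ S.V 8) (hr : r ∈ I S.U 2 6) (hs : s ∈ S.U 7) :
    cm v (r * s * a) = cm v a * cm v s := by
  rw [cm_mul_right, cm_mul_right, cm_eq_one.2 (h.vI hv hr), one_cn, mul_one,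
    cn_of_comm (h.vc (h.vB_mem hv hs) (h.V_le ha))]

theorem d5_first (hv : v ∈ S.V 2) (ha : a ∈ S.V 8) (hd : D5 S v a d) (hx : x ∈ S.U 1) : d * x = x * d := by
  by_cases e : v = 1 ∨ a = 1
  · rw [h.d5_uniq hd ⟨one_mem _, 1, one_mem _, 1, one_mem _, by
      rw [cm_eq_one.2 (by rcases e with rfl | rfl <;> simp)]; simp⟩]
    simp
  by_cases x1 : x = 1
  · simp [x1]
  push Not at e
  obtain ⟨v1, a1⟩ := e
  have ha' := h.V_le ha
  obtain ⟨c, hc, e1⟩ := h.vv hv v1 ha a1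
  have h4 := h.muV (h.V_le hv) v1 ha 4
  have h6 := h.muV ha' a1 hv 6
  obtain rfl := h.d5_uniq hd ⟨hc, _, h4, _, h6, e1⟩
  obtain ⟨z, hz, e2, -⟩ := h.utop hx x1 ha a1
  have h7 := h.muU ha' a1 hx 7
  have e3 : cn a x = z * cn x (S.mu a) * a := by
    rw [← mul_right_inj x, ← mul_assoc, ← mul_assoc, ← e2, cn, cn, h.U_inv hx, h.V_inv ha]
    calc x * (x * a * x) = x * x * a * x := by group
      _ = a * x * (a * a) := by rw [h.U_sq hx, h.V_sq ha]; group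
      _ = _ := by group
  have e4 := cn_cm v a x
  have e5 : cm (cn v (S.mu a)) x = cn (cn v (S.mu a)) (S.mu x) := (h.rf 8).vB h6 hx x1
  have h4' := h.muV hx x1 h6 4
  have e6 : cm v (cn x (S.mu a)) = cn (cn v (S.mu a)) (S.mu x) := by
    rw [h.vB hv h7 (cn_ne x1 _), h.mu_cn_neg (h.act ha' a1 8) hx x1,
      ← h.mu_comm ha' a1 (h.vc h4' ha') fun y hy => h.vc h4' (h.pU hy 0)]
    simp only [cn, mul_inv_rev, h.muV_inv ha a1, mul_assoc]
  rw [cn_of_comm (h.vc hv hx), e3, h.cm_top hv ha hz h7, e6, e1, cn_mul, cn_mul, cn_of_comm (h.vc h4 hx),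
    cn_eq (cn v _) x, e5, ← mul_assoc] at e4
  exact cn_eq_iff.1 (mul_left_cancel (mul_right_cancel (mul_right_cancel e4)))

theorem d5_comm (hv : v ∈ S.V 2) (ha : a ∈ S.V 8) (hd : D5 S v a d) (hx : x ∈ S.U k)
    (e : k = 1 ∨ k = 3 ∨ k = 7 ∨ k = 9 := by omega) : d * x = x * d := by
  rcases e with rfl | rfl | rfl | rfl
  · exact h.d5_first hv ha hd hx
  · exact h.d5_three hv ha hd hx
  · exact (h.rf 10).d5_three ha hv (h.d5_symm hv ha hd) hx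
  · exact (h.rf 10).d5_first ha hv (h.d5_symm hv ha hd) hx

theorem d5_two (hv : v ∈ S.V 2) (ha : a ∈ S.V 8) (hd : D5 S v a d) (ht : t ∈ S.U 2) (hr : r ∈ I S.U 4 6)
    (hs : s ∈ S.U 7) (e : cm a t = r * s) : cm d t = cm v s := by
  have e1 := cn_cm v a t
  rw [cn_of_comm (h.vc hv ht), cn_eq a, e, comm_mul (h.vI ha hr) (h.vc ha hs),
    h.cm_top hv ha (I_mono hr (by omega) le_rfl) hs] at e1
  obtain ⟨m, p, hp, q, hq, e2⟩ := hd
  rw [e2, cn_mul, cn_mul, cn_of_comm (h.vc hp ht), cn_of_comm (h.vc hq ht), cn_eq, mul_assoc _ q,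
    h.vc hq (h.V_le (h.vB_mem hv hs)), ← mul_assoc, ← mul_assoc] at e1
  exact mul_left_cancel (mul_right_cancel e1)

theorem a_two (ha : a ∈ S.V 8) (ht : t ∈ S.U 2) :
    ∃ p ∈ S.V 4, ∃ q ∈ S.U 5, ∃ r ∈ S.U 6, ∃ s ∈ S.U 7, cm a t = p * q * r * s := by
  by_cases t1 : t = 1
  · exact ⟨1, one_mem _, 1, one_mem _, 1, one_mem _, 1, one_mem _, by rw [t1, cm_eq_one.2 (by simp)]; simp⟩
  obtain ⟨d, hd, e⟩ := (h.rf 10).vC (v := a) (a := t) ha ht t1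
  have hd2 : d ∈ I S.U 5 7 := I_mono (I_rf.1 hd) (by omega) (by omega)
  have h4 := h.muV ht t1 ha 4
  obtain ⟨q, hq, r, hr, s, hs, e1⟩ := h.dec3 hd2 6
  refine ⟨_, h4, q, hq, r, hr, s, hs, ?_⟩
  rw [cm_eq, e, mul_assoc, inv_mul_cancel_left, mul_assoc, mul_assoc, ← mul_assoc q, ← e1]
  exact (h.vI h4 hd2).symm

theorem zQ5 (hx : x ∈ S.U 5) (e : ∀ k, 1 ≤ k → k ≤ 7 → ∀ y ∈ S.U k, x * y = y * x) : x = 1 := by
  by_contra x1
  obtain ⟨b, hb, b1⟩ := h.exV 0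
  obtain ⟨u, hu, u1⟩ := h.exists_ne 7
  have h' := h.sh (-2)
  have h2 : cm b x ∈ S.V 2 := h'.vB_mem hb hx
  have e1 := comm_cn (I_comm (h.cn_U (inv_mem (h.V_le hb)) (mem_I hu (i := 1) (j := 7) (by omega) le_rfl)
    (by omega) (by omega) (by omega) (by omega)) e) b
  rw [cn_inv_cn, cn_eq, ← cm_inv, h.V_inv h2, mul_assoc, ← mul_assoc u, ← e 7 (by omega) le_rfl u hu, mul_assoc] at e1
  rcases h.vB_inj h2 hu (mul_left_cancel e1) with e2 | e2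
  · exact (h'.vB_inj hb hx (cm_eq_one.1 e2)).elim b1 x1
  · exact u1 e2

theorem zQ8 (hz : z ∈ S.U 4) (e : ∀ k, 1 ≤ k → k ≤ 7 → ∀ y ∈ S.U k, z * y = y * z) (hb : b ∈ S.U 8) :
    z * b = b * z := by
  have e1 : ∀ k, 1 ≤ k → k ≤ 7 → ∀ y ∈ S.U k, cm z b * y = y * cm z b := fun k k1 k2 y hy => by
    have := comm_cn (I_comm (h.cn_U (inv_mem hb) (mem_I hy k1 k2) (by omega) (by omega) (by omega) (by omega)) e) b
    rw [cn_inv_cn] at this
    rw [cm_eq]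
    exact (comm_mul (comm_inv (e k k1 k2 y hy).symm) this.symm).symm
  obtain ⟨x, hx, x1⟩ := h.exists_ne 1
  exact cm_eq_one.1 (h.zQ5 (I_self (h.top_le (l := 5) hx x1 (h.cm_mem hz hb (by omega) (by omega)) (by omega)
    (by omega) (by omega) (e1 1 le_rfl (by omega) x hx).symm) (by omega) le_rfl) e1)

theorem zQ4 (hz : z ∈ S.U 4) (e : ∀ k, 1 ≤ k → k ≤ 7 → ∀ y ∈ S.U k, z * y = y * z) : z ∈ S.V 4 :=
  h.V_of hz fun k k1 k2 y hy => by
    by_cases e0 : k = 0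
    · exact (h.rf 8).zQ8 hz (fun q q1 q2 => e (8 - q) (by omega) (by omega)) (show y ∈ S.U 0 from e0 ▸ hy)
    by_cases e8 : k = 8
    · exact h.zQ8 hz e (e8 ▸ hy)
    exact e k (by omega) (by omega) y hy

end O8

end Cfsg.Lib.MO
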