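import Cfsg.Agent.MO.A1

/-!
# Moufang octagons: base points
-/

set_option autoImplicit false

namespace Cfsg.Lib.MO.Base

variable {G : Type*} [Group G] [Finite G] {S : Sys G} {k : ℤ}
variable {e f g w : ℤ → G} (B : Base S e f g w) (h : O8 S)
include B h

theorem ww (k : ℤ) : w k * w k = 1 := by
  rcases Int.even_or_odd k with hk | hk
  · exact B.wf hk ▸ h.muV_sq (B.fV hk) (B.f1 hk) (Int.even_iff.1 hk)
  · exact B.we hk ▸ h.muU_sq (B.eU hk) (B.e1 hk) (Int.odd_iff.1 hk)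

theorem w_inv (k : ℤ) : (w k)⁻¹ = w k := inv_eq_of_mul_eq_one_right (B.ww h k)

theorem cw (j k : ℤ) : cn (w j) (w k) = w (2 * k - j) := by
  rw [B.pw (j := 2 * k - j) (k := 2 * k + 8 - j) (by omega)]
  rcases Int.even_or_odd j with hj | hj
  · rw [← B.wf hj, ← h.mu_cn_neg (B.act h.toRK k (2 * k + 8)) (h.V_le (B.fV hj)) (B.f1 hj), B.cf k hj,
      B.wf (even_sub (by omega) hj)]
  · rw [← B.we hj, ← h.mu_cn_neg (B.act h.toRK k (2 * k + 8)) (B.eU hj) (B.e1 hj), B.ce k hj,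
      B.we (odd_sub (by omega) hj)]

theorem w_eq (k : ℤ) : w k = w 0 * (w 0 * w 1) ^ k := by
  have step : ∀ k, w k * w (k + 1) = w (k + 1) * w (k + 1 + 1) := fun k => by
    rw [show k + 1 + 1 = 2 * (k + 1) - k by ring, ← B.cw h, cn, B.w_inv h, ← mul_assoc, ← mul_assoc, B.ww h, one_mul]
  have key : ∀ k : ℤ, w k * w (k + 1) = w 0 * w 1 := fun k => by
    induction k using Int.induction_on with
    | zero => rw [zero_add]
    | succ k ih => rw [← step, ih]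
    | pred k ih => rw [step, sub_add_cancel, ih]
  induction k using Int.induction_on with
  | zero => simp
  | succ k ih => rw [zpow_add_one, ← mul_assoc, ← ih, ← key k, ← mul_assoc, B.ww h, one_mul]
  | pred k ih =>
    rw [zpow_sub_one, ← mul_assoc, ← ih, ← key (-k - 1), sub_add_cancel, mul_inv_rev, ← mul_assoc, mul_inv_cancel,
      one_mul, B.w_inv h]

theorem www (i j k : ℤ) : w i * w j * w k = w (i - j + k) := by
  have e1 : ∀ a : ℤ, (w 0 * w 1) ^ a * w 0 = w 0 * (w 0 * w 1) ^ (-a) := fun a => by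
    rw [← B.w_inv h 0, ← inv_mul_eq_iff_eq_mul, inv_inv, ← mul_assoc, ← conj_zpow, B.w_inv h 0, ← mul_assoc,
      B.ww h, one_mul, zpow_neg, ← inv_zpow, mul_inv_rev, B.w_inv h, B.w_inv h]
  rw [B.w_eq h i, B.w_eq h j, B.w_eq h k, B.w_eq h (i - j + k)]
  calc w 0 * (w 0 * w 1) ^ i * (w 0 * (w 0 * w 1) ^ j) * (w 0 * (w 0 * w 1) ^ k)
      = w 0 * ((w 0 * w 1) ^ i * w 0) * ((w 0 * w 1) ^ j * w 0) * (w 0 * w 1) ^ k := by simp only [mul_assoc]
    _ = w 0 * w 0 * ((w 0 * w 1) ^ (-i) * w 0) * (w 0 * w 1) ^ (-j) * (w 0 * w 1) ^ k := by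
      rw [e1 i, e1 j]; simp only [mul_assoc]
    _ = _ := by rw [e1, B.ww h, one_mul, neg_neg, mul_assoc, mul_assoc, ← zpow_add, ← zpow_add]; congr 2; ring

omit [Finite G] h in
theorem g_eq (e : k % 2 = 0) : g k = S.la (f (k - 8)) := by
  rw [B.lf (Int.even_iff.2 (by omega)), sub_add_cancel]

theorem g1 (e : k % 2 = 0 := by omega) : g k ≠ 1 :=
  B.g_eq e ▸ h.la_ne (h.V_le (B.fV (Int.even_iff.2 (by omega)))) (B.f1 (Int.even_iff.2 (by omega)))

theorem wg (e : k % 2 = 0 := by omega) : S.mu (g k) = w k := by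
  have hk : Even (k - 8) := Int.even_iff.2 (by omega)
  rw [B.g_eq e, h.mu_la (h.V_le (B.fV hk)) (B.f1 hk), B.wf hk, B.pw (k := k) (by omega)]

theorem ke (H : k % 2 = 1 := by omega) : S.ka (e k) = e (k + 8) := by
  have hk := Int.odd_iff.2 H
  have hu := B.eU hk
  have u1 := B.e1 hk
  have hl := h.laU hu u1 (k + 8)
  have e1 := (h.ka_inv hl (h.la_ne hu u1)).2
  rw [h.U_inv hl, (h.ka_la hu u1).1, (h.ka_la hu u1).2, h.U_inv hu, B.we hk] at e1
  calc S.ka (e k) = cn (cn (S.ka (e k)) (w k)) (w k) := by rw [cn_cn, B.ww h, cn_one]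
    _ = e (k + 8) := by rw [e1, B.ce' k k (k + 8)]

theorem le (H : k % 2 = 1 := by omega) : S.la (e k) = e (k + 8) := by
  have hk := Int.odd_iff.2 H
  have e1 := (h.ka_inv (B.eU hk) (B.e1 hk)).2
  rwa [h.U_inv (B.eU hk), B.ke h, h.U_inv (B.eU (k := k + 8) (Int.odd_iff.2 (by omega)))] at e1

theorem kf (e : k % 2 = 0 := by omega) : S.ka (f k) = (g (k + 8))⁻¹ := by
  have hk := Int.even_iff.2 e
  have e1 := (h.ka_inv (h.V_le (B.fV hk)) (B.f1 hk)).1
  rwa [h.V_inv (B.fV hk), B.lf hk] at e1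

theorem kg (e : k % 2 = 0 := by omega) : S.ka (g k) = f (k + 8) := by
  have hk : Even (k - 8) := Int.even_iff.2 (by omega)
  rw [B.g_eq e, (h.ka_la (h.V_le (B.fV hk)) (B.f1 hk)).1, B.pf (k := k + 8) hk (by omega)]

theorem lg (e : k % 2 = 0 := by omega) : S.la (g k) = (g (k + 8))⁻¹ := by
  have hk : Even (k - 8) := Int.even_iff.2 (by omega)
  rw [B.g_eq e, (h.ka_la (h.V_le (B.fV hk)) (B.f1 hk)).2, B.kf h, B.wf hk, cn_inv, B.cg' _ _ (k + 8)]

theorem r9' : cn (e 1) (f 8) = e 1 * f 2 * e 3 * g 4 * e 5 * (g 6)⁻¹ * e 7 := by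
  have e1 := B.r9
  have e2 := h.V_inv (B.fV (k := 8) (by decide))
  unfold cn at e1 ⊢
  calc (f 8)⁻¹ * e 1 * f 8 = e 1 * ((e 1)⁻¹ * f 8 * e 1) * (f 8)⁻¹ := by rw [e2]; group
    _ = _ := by rw [e1]; group

end Cfsg.Lib.MO.Base
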