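import Cfsg.Agent.MO.I1

/-!
# Moufang octagons: existence of base points
-/

set_option autoImplicit false

namespace Cfsg.Lib.MO

variable {G : Type*} [Group G] {S : Sys G} {i : ℤ} {m r u v : G}

theorem dih_pow (hr : r * m = m * r⁻¹) (a : ℤ) : r ^ a * m = m * r ^ (-a) := by
  rw [← inv_mul_eq_iff_eq_mul, ← mul_assoc, ← cn, zpow_neg, ← inv_zpow, show r⁻¹ = m⁻¹ * r * m⁻¹⁻¹ by
    rw [inv_inv, mul_assoc, hr, inv_mul_cancel_left], conj_zpow, inv_inv, cn]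

theorem dih_cn (hr : r * m = m * r⁻¹) (a b c : ℤ) (e : c = 2 * b - a := by omega) :
    cn (m * r ^ a) (m * r ^ b) = m * r ^ c := by
  rw [cn, mul_inv_rev, mul_assoc _ m⁻¹, inv_mul_cancel_left, ← zpow_neg, ← zpow_add, ← mul_assoc, dih_pow hr,
    mul_assoc, ← zpow_add, e]
  congr 2
  ring

theorem Act.zpow (h : Act S r fun j => j + 2) (a : ℤ) : Act S (r ^ a) fun j => j + 2 * a := by
  induction a using Int.induction_on with
  | zero => simpa using Act.one S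
  | succ a ih => rw [zpow_add_one]; exact (ih.mul h).congr fun _ => by ring
  | pred a ih => rw [zpow_sub_one]; exact (ih.mul (h.inv (f' := fun j => j - 2) fun _ => by ring)).congr fun _ => by ring

variable [Finite G]

theorem O8.la_odd (h : O8 S) (hu : u ∈ S.U i) (u1 : u ≠ 1) (H : i % 2 = 1 := by omega) : S.la u = cn u (S.mu u) := by
  have hl := h.laU hu u1 (i + 8)
  have e1 := (h.ka_inv hl (h.la_ne hu u1)).2
  have e2 := (h.ka_inv hu u1).1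
  rw [h.U_inv hu, h.U_inv hl] at e2
  rw [h.U_inv hl, (h.ka_la hu u1).1, (h.ka_la hu u1).2, h.U_inv hu, e2] at e1
  calc S.la u = cn (cn (S.la u) (S.mu u)) (S.mu u) := by rw [cn_cn, h.muU_sq hu u1, cn_one]
    _ = _ := by rw [e1]

theorem O8.la_la (h : O8 S) (hv : v ∈ S.V i) (v1 : v ≠ 1) (H : i % 2 = 0 := by omega) :
    S.la (S.la v) = (cn (S.la v) (S.mu v))⁻¹ := by
  have e2 := (h.ka_inv (h.V_le hv) v1).1
  rw [h.V_inv hv] at e2
  rw [(h.ka_la (h.V_le hv) v1).2, e2, cn_inv]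

theorem RK.sq_mu (h : RK 8 S) {u1 u2 u3 u4 u5 u6 u7 u8 : G} (q : Sq S i u1 u2 u3 u4 u5 u6 u7 u8) :
    S.mu u2 = cn (S.mu u8) (S.mu u1) := by
  rw [(h.sq_next q).1, h.mu_cn_neg (h.act q.m1 q.n1 (2 * i + 8)) q.m8 q.n8]

theorem O1.exists_base (h : O1 S) : ∃ e f g w, Base S e f g w := by
  obtain ⟨e1, he, n1⟩ := h.exists_ne 1
  obtain ⟨f8, hf, n8⟩ := h.exV 8
  obtain ⟨u2, u3, u4, u5, u6, u7, q1⟩ := h.exists_sq he n1 (h.V_le hf) n8
  have q2 := (h.sq_next q1).2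
  have q3 := (h.sq_next q2).2
  have q4 := (h.sq_next q3).2
  have q5 := (h.sq_next q4).2
  have q6 := (h.sq_next q5).2
  have q7 := (h.sq_next q6).2
  obtain ⟨m, hm⟩ : ∃ m, S.mu e1 = m := ⟨_, rfl⟩
  obtain ⟨r, hn⟩ : ∃ r, S.mu f8 = m * r⁻¹ := ⟨(m⁻¹ * S.mu f8)⁻¹, by simp⟩
  have mm : m * m = 1 := hm ▸ h.muU_sq he n1
  have hr : r * m = m * r⁻¹ := by
    rw [← hn, ← h.muV_inv hf n8, hn, mul_inv_rev, inv_inv, inv_eq_of_mul_eq_one_right mm]
  have am : Act S m fun j => 10 - j := hm ▸ h.act he n1 10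
  have ar : Act S r fun j => j + 2 := by
    have := (h.act (h.V_le hf) n8 8).mul am
    rw [hn, ← hr, mul_assoc, mm, mul_one] at this
    exact this.congr fun _ => by ring
  have r8 : r ^ (8 : ℤ) = 1 := by
    have a1 : S.mu e1 = m * r ^ (0 : ℤ) := by simp [hm]
    have a8 : S.mu f8 = m * r ^ (-1 : ℤ) := by simp [hn]
    have a2 := h.sq_mu q1
    rw [a1, a8, dih_cn hr _ _ 1] at a2
    have a3 := h.sq_mu q2
    rw [h.mu_la q1.m1 q1.n1, a1, a2, dih_cn hr _ _ 2] at a3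
    have a4 := h.sq_mu q3
    rw [h.mu_la q2.m1 q2.n1, a2, a3, dih_cn hr _ _ 3] at a4
    have a5 := h.sq_mu q4
    rw [h.mu_la q3.m1 q3.n1, a3, a4, dih_cn hr _ _ 4] at a5
    have a6 := h.sq_mu q5
    rw [h.mu_la q4.m1 q4.n1, a4, a5, dih_cn hr _ _ 5] at a6
    have a7 := h.sq_mu q6
    rw [h.mu_la q5.m1 q5.n1, a5, a6, dih_cn hr _ _ 6] at a7
    have a9 := h.sq_mu q7
    rw [h.mu_la q6.m1 q6.n1, a6, a7, dih_cn hr _ _ 7, a8, mul_right_inj] at a9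
    rw [show (8 : ℤ) = 7 + 1 from rfl, zpow_add_one, ← a9]
    simp
  have rz : ∀ a b : ℤ, (b - a) % 8 = 0 → r ^ a = r ^ b := fun a b H => by
    rw [show b = a + 8 * ((b - a) / 8) by omega, zpow_add, zpow_mul, r8, one_zpow, mul_one]
  set e : ℤ → G := fun k => cn e1 (r ^ ((k - 1) / 2)) with ed
  set f : ℤ → G := fun k => cn f8 (r ^ ((k - 8) / 2)) with fd
  set g : ℤ → G := fun k => S.la (f (k - 8)) with gd
  set w : ℤ → G := fun k => m * r ^ (k - 1) with wd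
  have eU : ∀ k, k % 2 = 1 → e k ∈ S.U k := fun k hk => h.pU ((ar.zpow _).mU he) k
  have fV : ∀ k, k % 2 = 0 → f k ∈ S.V k := fun k hk => h.pV ((ar.zpow _).mV hf) k
  have e0 : ∀ k, e k ≠ 1 := fun k => cn_ne n1 _
  have f0 : ∀ k, f k ≠ 1 := fun k => cn_ne n8 _
  have pw : ∀ j k, (k - j) % 8 = 0 → w j = w k := fun j k H => congrArg (m * ·) (rz _ _ (by omega))
  have pe : ∀ j k, j % 2 = 1 → (k - j) % 16 = 0 → e j = e k := fun j k _ H => congrArg (cn e1) (rz _ _ (by omega))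
  have pf : ∀ j k, j % 2 = 0 → (k - j) % 16 = 0 → f j = f k := fun j k _ H => congrArg (cn f8) (rz _ _ (by omega))
  have we : ∀ k, k % 2 = 1 → S.mu (e k) = w k := fun k hk => by
    rw [ed, h.mu_cn_add (ar.zpow _) he n1, hm, cn, ← zpow_neg, dih_pow hr, mul_assoc, ← zpow_add]
    exact congrArg (m * ·) (rz _ _ (by omega))
  have wf : ∀ k, k % 2 = 0 → S.mu (f k) = w k := fun k hk => by
    rw [fd, h.mu_cn_add (ar.zpow _) (h.V_le hf) n8, hn, cn, ← zpow_neg, ← mul_assoc, dih_pow hr, mul_assoc, mul_assoc,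
      ← zpow_neg_one, ← zpow_add, ← zpow_add]
    exact congrArg (m * ·) (rz _ _ (by omega))
  have cw : ∀ (x : G) a k b c, cn x (w b) = x → (c - (k - b - a)) % 8 = 0 → cn (cn x (r ^ a)) (w k) = cn x (r ^ c) :=
    fun x a k b c H H' => by
      rw [← rz _ _ H', cn_cn, wd, ← mul_assoc, dih_pow hr, mul_assoc, ← zpow_add,
        show -a + (k - 1) = b - 1 + (k - b - a) by ring, zpow_add, ← mul_assoc, ← cn_cn]
      exact congrArg (cn · _) H
  have c5 : cn e1 (w 5) = e1 := we 5 rfl ▸ h.mu_comm (eU 5 rfl) (e0 5) (h.oo he (eU 5 rfl))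
    fun y hy => (h.oo (h.pU hy (-3)) he).symm
  have c4 : cn f8 (w 4) = f8 := wf 4 rfl ▸ h.mu_comm (h.V_le (fV 4 rfl)) (f0 4) (h.vc hf (h.V_le (fV 4 rfl)))
    fun y hy => h.vc hf hy
  have ce : ∀ j k l, j % 2 = 1 → (l + j - 2 * k - 8) % 16 = 0 → cn (e j) (w k) = e l := fun j k l _ _ =>
    cw e1 _ k 5 _ c5 (by omega)
  have cf : ∀ j k l, j % 2 = 0 → (l + j - 2 * k - 8) % 16 = 0 → cn (f j) (w k) = f l := fun j k l _ _ =>
    cw f8 _ k 4 _ c4 (by omega)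
  have cg : ∀ j k l, j % 2 = 0 → (l + j - 2 * k - 8) % 16 = 0 → cn (g j) (w k) = g l := fun j k l _ _ => by
    rw [gd, ← (h.ka_cn (c := 2 * k + 8) (Or.inr rfl) (fun _ => by ring) (am.mul (ar.zpow (k - 1)))
      (h.V_le (fV _ (by omega))) (f0 _)).2]
    exact congrArg S.la (cf _ _ _ (by omega) (by omega))
  have le : ∀ k l, k % 2 = 1 → l = k + 8 → S.la (e k) = e l := fun k l hk _ => by
    rw [h.la_odd (eU k hk) (e0 k), we k hk, ce k k l hk (by omega)]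
  have wg : ∀ k, k % 2 = 0 → S.mu (g k) = w k := fun k hk => by
    rw [gd, h.mu_la (h.V_le (fV _ (by omega))) (f0 _), wf _ (by omega), pw _ k (by omega)]
  have E1 : e1 = e 1 := by simp [ed]
  have F8 : f8 = f 8 := by simp [fd]
  have b2 : u2 = f 2 := by rw [(h.sq_next q1).1, E1, F8, we 1 rfl, cf 8 1 2 rfl rfl]
  have b9 : S.la e1 = e 9 := by rw [E1, le 1 9 rfl rfl]
  have b3 : u3 = e 3 := by rw [(h.sq_next q2).1, b9, b2, wf 2 rfl, ce 9 2 3 rfl rfl]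
  have b10 : S.la u2 = g 10 := by rw [b2]; rfl
  have b4 : u4 = g 4 := by rw [(h.sq_next q3).1, b10, b3, we 3 rfl, cg 10 3 4 rfl rfl]
  have b5 : u5 = e 5 := by rw [(h.sq_next q4).1, b3, b4, le 3 11 rfl rfl, wg 4 rfl, ce 11 4 5 rfl rfl]
  have b12 : S.la (g 4) = (g 12)⁻¹ := by
    rw [← cg 4 (4 - 8) 12 rfl rfl, ← wf _ rfl]
    exact h.la_la (fV (4 - 8) rfl) (f0 _)
  have b6 : u6 = (g 6)⁻¹ := by rw [(h.sq_next q5).1, b4, b5, b12, we 5 rfl, cn_inv, cg 12 5 6 rfl rfl]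
  have g6 : g 6 ∈ S.U 6 := by simpa [b6] using q6.m1
  have b7 : u7 = e 7 := by
    rw [(h.sq_next q6).1, b5, b6, le 5 13 rfl rfl, h.mu_inv g6 (by simpa [b6] using q6.n1), wg 6 rfl, ← wf 6 rfl,
      h.muV_inv (fV 6 rfl) (f0 6), wf 6 rfl, ce 13 6 7 rfl rfl]
  have o : ∀ {k : ℤ}, Odd k → k % 2 = 1 := Int.odd_iff.1
  have v : ∀ {k : ℤ}, Even k → k % 2 = 0 := Int.even_iff.1
  refine ⟨e, f, g, w, fun hk => eU _ (o hk), fun _ => e0 _, fun hk => fV _ (v hk), fun _ => f0 _,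
    fun hk => h.laU (h.V_le (fV _ (by have := v hk; omega))) (f0 _) _, fun hk => we _ (o hk), fun hk => wf _ (v hk),
    fun _ => by simp [gd], fun hk => pe _ _ (o hk), fun hk => pf _ _ (v hk),
    fun hk _ => congrArg S.la (pf _ _ (by have := v hk; omega) (by omega)), pw _ _,
    fun _ hk => ce _ _ _ (o hk) (by omega), fun _ hk => cf _ _ _ (v hk) (by omega),
    fun _ hk => cg _ _ _ (v hk) (by omega), ?_, ?_⟩
  · rw [← b2, ← b3, ← b4, ← b5, ← b6, ← b7, ← E1, ← F8]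
    exact q1.eq
  · have e3 := congrArg (fun x => cn (cn x (w 1)) (w 0)) q3.eq
    simp only [b10, b9, b3, b4, b5, b6, b7, cn_mul, cn_inv, cn_conj _ (e 3), cn_conj _ (cn (e 3) _)] at e3
    rwa [F8, cg 10 1 0 rfl rfl, cg 0 0 8 rfl rfl, ce 3 1 7 rfl rfl, ce 7 0 1 rfl rfl, cg 4 1 6 rfl rfl, cg 6 0 2 rfl rfl,
      ce 5 1 5 rfl rfl, ce 5 0 3 rfl rfl, cg 6 1 4 rfl rfl, cg 4 0 4 rfl rfl, ce 7 1 3 rfl rfl, ce 3 0 5 rfl rfl,
      cf 8 1 2 rfl rfl, cf 2 0 6 rfl rfl, ce 9 1 1 rfl rfl, ce 1 0 7 rfl rfl] at e3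

end Cfsg.Lib.MO
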