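import Cfsg.Agent.MO.I3
import Cfsg.Agent.MO.B0

/-!
# Moufang octagons: the commutator relations between base points
-/

set_option autoImplicit false
set_option linter.unusedSimpArgs false

namespace Cfsg.Lib.MO

variable {G : Type*} [Group G] [Finite G] {S : Sys G} {e f g w : ℤ → G} {i j k : ℤ} {x y z : G}

namespace B2

omit [Finite G] in
theorem sw (h : x * y = y * x) (r : G) : x * (y * r) = y * (x * r) := by rw [← mul_assoc, h, mul_assoc]

omit [Finite G] in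
theorem col (h : cn x y = z) (r : G) : x * (y * r) = y * (z * r) := by rw [← h]; unfold cn; group

omit [Finite G] in
theorem col' (h : cn x y = x * z) (r : G) : y * (x * r) = x * (y * (z⁻¹ * r)) := by
  rw [col h]; group

omit [Finite G] in
theorem fin (h : ∀ r, x * r = y * r) : x = y := by simpa using h 1

omit [Finite G] in
theorem sh (B : Base S e f g w) (c : ℤ) (H : c % 2 = 0 := by omega) :
    Base (S.sh c) (fun k => e (k + c)) (fun k => f (k + c)) (fun k => g (k + c)) fun k => w (k + c) := by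
  have := (B.rf c H).rf 0
  rw [rf_rf', sub_zero] at this
  simpa only [zero_sub, sub_neg_eq_add, add_comm c] using this

omit [Finite G] in
theorem eU (B : Base S e f g w) (i : ℤ) (H : i % 2 = 1 := by omega) : e i ∈ S.U i := B.eU (Int.odd_iff.2 H)
omit [Finite G] in
theorem fV (B : Base S e f g w) (i : ℤ) (H : i % 2 = 0 := by omega) : f i ∈ S.V i := B.fV (Int.even_iff.2 H)
omit [Finite G] in
theorem gU (B : Base S e f g w) (i : ℤ) (H : i % 2 = 0 := by omega) : g i ∈ S.U i := B.gU (Int.even_iff.2 H)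
omit [Finite G] in
theorem e1 (B : Base S e f g w) (i : ℤ) (H : i % 2 = 1 := by omega) : e i ≠ 1 := B.e1 (Int.odd_iff.2 H)
omit [Finite G] in
theorem f1 (B : Base S e f g w) (i : ℤ) (H : i % 2 = 0 := by omega) : f i ≠ 1 := B.f1 (Int.even_iff.2 H)
omit [Finite G] in
theorem we (B : Base S e f g w) (i : ℤ) (H : i % 2 = 1 := by omega) : S.mu (e i) = w i := B.we (Int.odd_iff.2 H)
omit [Finite G] in
theorem wf (B : Base S e f g w) (i : ℤ) (H : i % 2 = 0 := by omega) : S.mu (f i) = w i := B.wf (Int.even_iff.2 H)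

variable (h : O1 S) (B : Base S e f g w)
include h B

omit [Finite G] in
theorem fU (i : ℤ) (H : i % 2 = 0 := by omega) : f i ∈ S.U i := h.V_le (fV B i H)

omit [Finite G] h in
theorem eI (i k l : ℤ) (H : i % 2 = 1 ∧ k ≤ i ∧ i ≤ l) : e i ∈ I S.U k l := mem_I (eU B i H.1) H.2.1 H.2.2
omit [Finite G] in
theorem fI (i k l : ℤ) (H : i % 2 = 0 ∧ k ≤ i ∧ i ≤ l) : f i ∈ I S.U k l := mem_I (fU h B i H.1) H.2.1 H.2.2
omit [Finite G] h in
theorem gI (i k l : ℤ) (H : i % 2 = 0 ∧ k ≤ i ∧ i ≤ l) : g i ∈ I S.U k l := mem_I (gU B i H.1) H.2.1 H.2.2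

theorem ee (i : ℤ) (H : i % 2 = 1) : e i * e i = 1 := h.U_sq (eU B i)
theorem ff (i : ℤ) (H : i % 2 = 0) : f i * f i = 1 := h.V_sq (fV B i)
theorem iE (i : ℤ) (H : i % 2 = 1) : (e i)⁻¹ = e i := inv_eq_of_mul_eq_one_left (ee h B i H)
theorem iF (i : ℤ) (H : i % 2 = 0) : (f i)⁻¹ = f i := inv_eq_of_mul_eq_one_left (ff h B i H)
theorem sE (i : ℤ) (H : i % 2 = 1) (r : G) : e i * (e i * r) = r := by rw [← mul_assoc, ee h B i H, one_mul]
theorem sF (i : ℤ) (H : i % 2 = 0) (r : G) : f i * (f i * r) = r := by rw [← mul_assoc, ff h B i H, one_mul]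

theorem cEE (i j : ℤ) (H : j % 2 = 1 ∧ (i = j + 2 ∨ i = j + 4)) (r : G) : e i * (e j * r) = e j * (e i * r) :=
  sw (h.oo (eU B j) (eU B i) H).symm r
omit [Finite G] in
theorem cEF (i j : ℤ) (H : i % 2 = 1 ∧ j % 2 = 0 ∧ j < i ∧ i ≤ j + 4) (r : G) :
    e i * (f j * r) = f j * (e i * r) := sw (h.vc (fV B j) (eU B i)).symm r
omit [Finite G] in
theorem cFE (i j : ℤ) (H : i % 2 = 0 ∧ j % 2 = 1 ∧ j < i ∧ i ≤ j + 4) (r : G) :
    f i * (e j * r) = e j * (f i * r) := sw (h.vc (fV B i) (eU B j)) r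
omit [Finite G] in
theorem cFF (i j : ℤ) (H : i % 2 = 0 ∧ j % 2 = 0 ∧ j < i ∧ i ≤ j + 4) (r : G) :
    f i * (f j * r) = f j * (f i * r) := sw (h.vc (fV B i) (fU h B j)) r
omit [Finite G] in
theorem cFG (i j : ℤ) (H : i % 2 = 0 ∧ j % 2 = 0 ∧ j ≤ i ∧ i ≤ j + 4) (r : G) :
    f i * (g j * r) = g j * (f i * r) := sw (h.vc (fV B i) (gU B j)) r
omit [Finite G] in
theorem cGF (i j : ℤ) (H : i % 2 = 0 ∧ j % 2 = 0 ∧ j < i ∧ i ≤ j + 4) (r : G) :
    g i * (f j * r) = f j * (g i * r) := sw (h.vc (fV B j) (gU B i)).symm r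
omit [Finite G] in
theorem cEG (i j : ℤ) (H : j % 2 = 0 ∧ i = j + 1) (r : G) : e i * (g j * r) = g j * (e i * r) :=
  sw (h.adj (gU B j) (eU B i) H.2).symm r
omit [Finite G] in
theorem cGE (i j : ℤ) (H : i % 2 = 0 ∧ i = j + 1) (r : G) : g i * (e j * r) = e j * (g i * r) :=
  sw (h.adj (eU B j) (gU B i) H.2).symm r
theorem cGG (i j : ℤ) (H : j % 2 = 0 ∧ i = j + 4) (r : G) : g i * (g j * r) = g j * (g i * r) :=
  sw (h.c4 (gU B j) (gU B i) H.2).symm r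

theorem r1 : cn (e 7) (e 1) = e 7 * e 3 * e 5 := by
  rw [cn_eq, ← cm_inv, h.s17 (eU B 1) (e1 B 1) (eU B 7) (e1 B 7), we B 1, we B 7, B.ce' 7 1 3, B.ce' 1 7 5]
  refine fin fun r => ?_
  simp (disch := omega) only [mul_assoc, mul_inv_rev, iE h B, cEE h B]

theorem r2 : cn (f 2) (e 7) = f 2 * f 4 := by
  rw [cn_eq, h.vB (fV B 2) (eU B 7) (e1 B 7), we B 7, B.cf' 2 7 4]

theorem r3' : cn (g 6) (e 3) = g 6 * f 4 := by
  have a1 : cn (f 8) (e 3) = f 8 * f 6 := r2 (h.rf 10) (B.rf 10)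
  have a2 : cn (f 6) (e 1) = f 6 * f 4 := r2 (h.rf 8) (B.rf 8)
  have a3 : cn (e 3) (f 8) = e 3 * f 6 := fin fun r => by
    simp (disch := omega) only [cn, mul_assoc, iF h B, col a1, cFF h B, sF h B]
  have a4 := cn_of_comm (comm_cn (h.oo (eU B 1) (eU B 3)) (f 8))
  rw [a3, B.r9' h.toO8, ← cn_cn] at a4
  have a5 := congrArg (cn · (f 6)⁻¹) a4
  simp only [cn_cn_inv] at a5
  simp only [cn_mul, cn_inv, iF h B 6 rfl, cn_of_comm (h.vc (fV B 6) (gU B 6)).symm] at a5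
  generalize cn (g 6) (e 3) = y at a5 ⊢
  have a6 : ∀ r, e 5 * (y⁻¹ * (e 7 * r)) = f 4 * (e 5 * ((g 6)⁻¹ * (e 7 * r))) := fun r => by
    have := congrArg (· * r) a5
    simpa (disch := omega) only [cn, mul_assoc, iE h B, iF h B, sE h B, sF h B, cEE h B, cEF h B, cFE h B,
      cFF h B, cFG h B, cGF h B, cEG h B, cGE h B, col a2, mul_right_inj] using this
  have a7 := a6 1
  rw [← cEF h B 5 4 (by omega), mul_right_inj, ← mul_assoc (f 4), mul_left_inj] at a7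
  rw [← inv_inv y, a7, mul_inv_rev, inv_inv, iF h B 4 rfl]

theorem r3 : cn (g 4) (e 1) = g 4 * f 2 := r3' (h.sh (-2)) (sh B (-2))

theorem r0 : g 2 * g 2 = f 2 := by
  have a2 : cn (f 6) (e 1) = f 6 * f 4 := r2 (h.rf 8) (B.rf 8)
  have a1 := congrArg (cn · (e 1)) B.r10
  simp only [cn_cn, ee h B 1 rfl, cn_one] at a1
  rw [cn_mul, B.r10, ← mul_assoc, eq_comm, mul_eq_right] at a1
  simp only [cn_mul, cn_inv, r3 h B, r1 h B, a2, cn_of_comm (h.adj (eU B 1) (gU B 2) rfl).symm,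
    cn_of_comm (h.oo (eU B 1) (eU B 3)).symm, cn_of_comm (h.oo (eU B 1) (eU B 5)).symm] at a1
  have hA : e 3 * (g 4)⁻¹ * e 5 * (f 6 * f 4) * (e 7 * e 3 * e 5) ∈ I S.U 3 7 := by
    repeat' first | apply mul_mem | apply inv_mem | exact eI B _ _ _ (by omega) | exact fI h B _ _ _ (by omega) | exact gI B _ _ _ (by omega)
  have hB : e 3 * (g 4)⁻¹ * e 5 * f 6 * e 7 ∈ I S.U 3 7 := by
    repeat' first | apply mul_mem | apply inv_mem | exact eI B _ _ _ (by omega) | exact fI h B _ _ _ (by omega) | exact gI B _ _ _ (by omega)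
  have a3 := (h.bot_inj (mul_mem (mul_mem (gU B 2) (fU h B 2)) (gU B 2)) (one_mem _)
    (mul_mem (h.cn_U (gU B 2) hA (by omega) (by omega) (by omega) (by omega)) hB) (one_mem _) (by omega)
    (by omega) (by
      rw [one_mul, ← a1]
      simp (disch := omega) only [cn, mul_assoc, mul_inv_rev, iF h B, cEF h B, mul_inv_cancel_left])).1
  rw [← (h.vc (fV B 2) (gU B 2)), mul_assoc] at a3
  rw [← iF h B 2 rfl]
  exact eq_inv_of_mul_eq_one_right a3

theorem gg (i : ℤ) (H : i % 2 = 0) : g i * g i = f i := by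
  simpa only [add_sub_cancel] using r0 (h.sh (i - 2)) (sh B (i - 2))

theorem sG (i : ℤ) (H : i % 2 = 0) (r : G) : g i * (g i * r) = f i * r := by rw [← mul_assoc, gg h B i H]

theorem iG (i : ℤ) (H : i % 2 = 0) : (g i)⁻¹ = g i * f i :=
  inv_eq_of_mul_eq_one_right (by rw [sG h B i H, ff h B i H])

omit [Finite G] h in
theorem g16 : g (8 + 8) = g 0 := B.pg (by decide) (by omega)

theorem st8 (x : G) : cn (cn x (g 0)⁻¹) (f 8) = cn (cn x (w 8)) (g 0)⁻¹ := by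
  have := RK.star (S := S) x (f 8)
  rwa [B.kf h.toO8, wf B 8, B.lf (by decide), g16 B] at this

theorem r6' : cn (f 2) (f 8) = f 2 * e 5 * f 6 * f 4 ∧ cn (e 5) (g 0)⁻¹ = f 2 * e 3 * f 4 * e 5 := by
  obtain ⟨d, hd, a1⟩ := h.vv (fV B 2) (f1 B 2) (fV B 8) (f1 B 8)
  rw [wf B 2, wf B 8, B.cf' 8 2 4, B.cf' 2 8 6] at a1
  have a2 : cn (g 0) (e 3) = g 0 * f 2 := r3 (h.rf 4) (B.rf 4)
  have a3 : cn (f 8) (e 3) = f 8 * f 6 := r2 (h.rf 10) (B.rf 10)
  have a4 : cn (e 3) (g 0)⁻¹ = e 3 * f 2 := by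
    rw [cn, inv_inv, mul_assoc, col a2, mul_assoc, ← sw (h.vc (fV B 2) (gU B 0)), mul_inv_cancel, mul_one]
  have a5 : cn (e 3) (f 8) = e 3 * f 6 := fin fun r => by
    simp (disch := omega) only [cn, mul_assoc, iF h B, col a3, cFF h B, sF h B]
  have a6 := st8 h B (e 3)
  rw [a4, cn_mul, a5, cn_eq (f 2), a1, B.ce' 3 8 5] at a6
  have a7 : cn (e 5) (g 0)⁻¹ = f 2 * e 3 * f 4 * d := by
    rw [← a6]
    refine fin fun r => ?_
    simp (disch := omega) only [mul_assoc, sw (h.vc (fV B 6) hd), cFF h B, cEF h B, sF h B]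
  obtain ⟨r, hr, a8⟩ := h.cn_top (i := 0) (eU B 5) (inv_mem (gI B 0 _ _ (by omega))) (by omega)
  obtain rfl : d = e 5 := (h.top_inj hd (eU B 5) (mul_mem (mul_mem (fI h B 2 _ _ (by omega))
    (eI B 3 _ _ (by omega))) (fI h B 4 _ _ (by omega))) hr (by omega) (by omega) (a7.symm.trans a8)).2
  refine ⟨?_, a7⟩
  rw [cn_eq, a1]
  refine fin fun r => ?_
  simp (disch := omega) only [mul_assoc, cFF h B, cEF h B]

theorem r5 : cn (g 6) (e 1) = g 6 * f 2 * e 3 := by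
  have a1 : cn (e 1) (g 6)⁻¹ = f 4 * e 3 * f 2 * e 1 := (r6' (h.rf 6) (B.rf 6)).2
  have a2 : ∀ r, g 6 * (e 1 * r) = f 4 * e 3 * f 2 * e 1 * (g 6 * r) := fun r => by
    rw [← a1]; unfold cn; group
  refine fin fun r => ?_
  simp (disch := omega) only [cn, mul_assoc, a2, iE h B, sE h B, sF h B, cEE h B, cEF h B, cFE h B,
    cFF h B, cGF h B, col (r3' h B)]

theorem r7 : cn (f 2) (g 8) = f 2 * e 3 * e 5 * f 6 := by
  have g1 : g 8 ≠ 1 := B.g1 h.toO8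
  have a1 := RK.star' (S := S) (h.vc (fV B 2) (h.kaU (inv_mem (gU B 8)) (inv_ne_one.2 g1) 0))
  rw [h.mu_inv (gU B 8) g1, (h.ka_inv (gU B 8) g1).2, inv_inv, B.wg h.toO8, B.kg h.toO8,
    inv_eq_of_mul_eq_one_left (B.ww h.toO8 8), B.cf' 2 8 6, B.pf (j := 8 + 8) (k := 0) (by decide) (by omega),
    show cn (f 6) (f 0) = f 6 * e 3 * f 2 * f 4 from (r6' (h.rf 8) (B.rf 8)).1] at a1
  have a2 : g 8 = (g 8)⁻¹ * f 8 := by rw [iG h B 8 rfl, mul_assoc, ff h B 8 rfl, mul_one]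
  have a3 : cn (f 8) (e 3) = f 8 * f 6 := r2 (h.rf 10) (B.rf 10)
  rw [a2, ← cn_cn, a1]
  refine fin fun r => ?_
  simp (disch := omega) only [cn, mul_assoc, mul_inv_rev, iE h B, iF h B, sE h B, sF h B, cEE h B, cEF h B,
    cFE h B, cFF h B, col a3, col' ((r6' h B).1.trans (by group : _ = f 2 * (e 5 * f 6 * f 4)))]

theorem g2f8 : cn (g 2) (f 8) = g 2 * f 4 * e 5 * e 7 := by
  have a1 : cn (f 8) (g 2) = f 8 * e 7 * e 5 * f 4 := r7 (h.rf 10) (B.rf 10)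
  refine fin fun r => ?_
  simp (disch := omega) only [cn, mul_assoc, iF h B, sF h B, cEE h B, cEF h B, cFE h B, cFF h B, col a1]

theorem r4' : cn (g 2) (g 0)⁻¹ = e 1 * g 2 := by
  obtain ⟨d, hd, a1⟩ := h.cn_top (i := 0) (gU B 2) (inv_mem (gI B 0 _ _ (by omega))) (by omega)
  replace hd : d ∈ S.U 1 := I_self hd le_rfl le_rfl
  obtain ⟨r, hr, a2⟩ := h.cn_top (i := 0) (gU B 6) (inv_mem (gI B 0 _ _ (by omega))) (by omega)
  have a3 := st8 h B (g 2)
  rw [a1, cn_mul, g2f8 h B, B.cg' 2 8 6, a2] at a3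
  have hy : ∀ k, k ≤ 2 → g 2 * f 4 * e 5 ∈ I S.U k 6 := fun k hk =>
    mul_mem (mul_mem (gI B _ _ _ (by omega)) (fI h B _ _ _ (by omega))) (eI B _ _ _ (by omega))
  have hz : r * g 6 ∈ I S.U 1 6 := mul_mem (I_mono hr le_rfl (by omega)) (gI B _ _ _ (by omega))
  by_cases d1 : d = 1
  · rw [d1, one_cn, one_mul] at a3
    exact absurd (h.top_inj (eU B 7) (one_mem _) (hy 1 (by omega)) hz (by omega) (by omega)
      (a3.trans (mul_one _).symm)).2 (e1 B 7)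
  obtain ⟨z, hz', a4, -⟩ := h.utop hd d1 (fV B 8) (f1 B 8)
  have hs := h.muU (fU h B 8) (f1 B 8) hd 7
  rw [wf B 8] at a4 hs
  obtain ⟨r', hr', a5⟩ := h.cn_top hs (hy 2 le_rfl) (by omega)
  have a6 := (h.top_inj (mul_mem hs (eU B 7)) (one_mem _) (mul_mem (mul_mem (mul_mem
    (mem_I hd le_rfl (by omega)) (I_mono hz' (by omega) le_rfl)) (hy 1 (by omega)))
    (I_mono hr' (by omega) le_rfl)) hz (by omega) (by omega) (by
      rw [mul_one, ← a3, a4, mul_assoc (_ * _) r', ← mul_assoc r', ← a5]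
      unfold cn; group)).2
  rw [a1, show d = e 1 from cn_inj (g := w 8) (by
    rw [B.ce' 1 8 7, eq_inv_of_mul_eq_one_left a6, iE h B 7 rfl])]

theorem r4 : cn (g 4) (g 2) = g 4 * e 3 := by
  have a1 : cn (g 2) (g 4)⁻¹ = e 3 * g 2 := r4' (h.rf 4) (B.rf 4)
  have a2 : ∀ r, g 4 * (g 2 * r) = e 3 * g 2 * (g 4 * r) := fun r => by
    rw [← a1]; unfold cn; group
  refine fin fun r => ?_
  simp (disch := omega) only [cn, mul_assoc, a2, cEG h B, cGE h B, inv_mul_cancel_left]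

theorem r8' : cn (g 6) (g 0) = g 6 * g 2 * g 4 * f 4 := by
  have a1 := st8 h B (g 2)
  rw [r4' h B, cn_mul, B.r9' h.toO8, g2f8 h B, B.cg' 2 8 6] at a1
  have a2 : g 0 = (g 0)⁻¹ * f 0 := by rw [iG h B 0 rfl, mul_assoc, ff h B 0 rfl, mul_one]
  have b1 : cn (g 2) (e 7) = g 2 * (f 6 * e 5) := (r5 (h.rf 8) (B.rf 8)).trans (mul_assoc _ _ _)
  have b2 : cn (g 2) (e 5) = g 2 * f 4 := r3 (h.rf 6) (B.rf 6)
  have b3 : cn (g 4) (e 7) = g 4 * f 6 := r3 (h.rf 8) (B.rf 8)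
  have b4 : cn (f 0) (e 5) = f 0 * f 2 := r2 (h.sh (-2)) (sh B (-2))
  have b5 : cn (f 0) (g 6) = f 0 * (e 1 * e 3 * f 4) :=
    (r7 (h.sh (-2)) (sh B (-2))).trans (by simp only [mul_assoc]; rfl)
  have b6 : cn (g 6) (g 4) = g 6 * e 5 := r4 (h.sh 2) (sh B 2)
  have b7 : cn (g 6) (g 0)⁻¹ = e 1 * f 2 * g 2 * g 4 * e 5 * g 6 := by
    rw [← a1]
    refine fin fun r => ?_
    simp (disch := omega) only [mul_assoc, mul_inv_rev, iE h B, iF h B, iG h B, sE h B, sF h B, sG h B,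
      cEE h B, cEF h B, cFE h B, cFF h B, cFG h B, cGF h B, cEG h B, cGE h B, cGG h B, col' b1, col' b2,
      col' b3, col (r4 h B), col (r3' h B)]
  rw [a2, ← cn_cn, b7]
  refine fin fun r => ?_
  simp (disch := omega) only [cn, mul_assoc, mul_inv_rev, iE h B, iF h B, iG h B, sE h B, sF h B, sG h B,
    cEE h B, cEF h B, cFE h B, cFF h B, cFG h B, cGF h B, cEG h B, cGE h B, cGG h B, col' b2, col' b4,
    col' b5, col b6, col (r3 h B), col (r4 h B), col (r3' h B), col (r5 h B)]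

end B2

theorem O1.brel (h : O1 S) (B : Base S e f g w) : BRel e f g :=
  ⟨B2.r0 h B, B2.r1 h B, B2.r2 h B, B2.r3 h B, B2.r4 h B, B2.r5 h B, (B2.r6' h B).1, B2.r7 h B,
    B2.r8' (h.rf 8) (B.rf 8)⟩

end Cfsg.Lib.MO
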