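import Cfsg.Agent.MO.A2

/-!
# Moufang octagons: the main case, first relations
-/

set_option autoImplicit false

namespace Cfsg.Lib.MO

variable {G : Type*} [Group G] [Finite G] {S : Sys G}
variable {i j k : ℤ} {a b d d' r s t u v v' w x y z : G}

namespace O1

variable (h : O1 S)
include h

theorem ex_npos (ha : a ∈ S.V 8) (a1 : a ≠ 1) : ∃ t ∈ S.U 2, cm a t ∉ I S.U 4 6 := by
  have hn := h.npos
  unfold Pos at hn
  push Not at hn
  obtain ⟨a0, h0, t0, ht0, hne⟩ := hn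
  have n0 : a0 ≠ 1 := fun e => hne (by rw [e, cm_eq_one.2 (by simp)]; exact one_mem _)
  obtain ⟨g, hg, rfl⟩ := h.trV h0 n0 ha a1
  refine ⟨cn t0 g, hg.mU ht0, fun hm => hne ?_⟩
  have := (hg.inv (f' := fun j => j) fun _ => rfl).I_id hm
  rwa [← cn_cm, cn_cn_inv] at this

theorem two_dec (ha : a ∈ S.V 8) (ht : t ∈ S.U 2) : ∃ r ∈ I S.U 4 6, ∃ s ∈ S.U 7, cm a t = r * s := by
  obtain ⟨p, hp, q, hq, r, hr, s, hs, e⟩ := h.a_two ha ht
  exact ⟨p * q * r, mul_mem (mul_mem (mem_I (h.V_le hp) (by omega) (by omega)) (mem_I hq (by omega) (by omega)))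
    (mem_I hr (by omega) (by omega)), s, hs, e⟩

theorem d5_ne (hv : v ∈ S.V 2) (v1 : v ≠ 1) (ha : a ∈ S.V 8) (a1 : a ≠ 1) (hd : D5 S v a d) : d ≠ 1 := by
  rintro rfl
  obtain ⟨t, ht, hn⟩ := h.ex_npos ha a1
  obtain ⟨r, hr, s, hs, e⟩ := h.two_dec ha ht
  have e1 := h.d5_two hv ha hd ht hr hs e
  rw [cm_eq_one.2 (by simp), eq_comm, cm_eq_one] at e1
  rcases h.vB_inj hv hs e1 with e2 | rfl
  · exact v1 e2
  · exact hn (by rw [e, mul_one]; exact hr)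

theorem d5_surj (ha : a ∈ S.V 8) (a1 : a ≠ 1) (hx : x ∈ S.U 5) : ∃ v ∈ S.V 2, D5 S v a x := by
  classical
  by_cases x1 : x = 1
  · subst x1
    exact ⟨1, one_mem _, one_mem _, 1, one_mem _, 1, one_mem _, by rw [cm_eq_one.2 (by simp)]; simp⟩
  choose! f hf using fun v (hv : v ∈ S.V 2) => h.d5_ex hv ha
  obtain ⟨v, hv, -, e⟩ := (exists_inj (A := S.V 2) (B := S.U 5) f
    (fun v hv v1 => ⟨(hf v hv).1, h.d5_ne hv v1 ha a1 (hf v hv)⟩) fun v hv _ w hw _ e => by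
      by_contra ne
      refine h.d5_ne (mul_mem hv hw) (fun e => ne ((eq_inv_of_mul_eq_one_left e).trans (h.V_inv hw))) ha a1
        (h.d5_mul hv hw (hf v hv) (hf w hw)) ?_
      rw [e, h.U_sq (hf w hw).1]).2 (by rw [← h.card_UV, h.card_U 1 5]) x hx x1
  exact ⟨v, hv, e ▸ hf v hv⟩

theorem o5 (hx : x ∈ S.U 5) (hy : y ∈ S.U k) (e : k = 1 ∨ k = 3 ∨ k = 7 ∨ k = 9 := by omega) : x * y = y * x := by
  obtain ⟨a, ha, a1⟩ := h.exV 8
  obtain ⟨v, hv, hd⟩ := h.d5_surj ha a1 hx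
  exact h.d5_comm hv ha hd hy e

theorem oo (hx : x ∈ S.U i) (hy : y ∈ S.U j) (e : i % 2 = 1 ∧ (j = i + 2 ∨ j = i + 4) := by omega) :
    x * y = y * x :=
  (h.sh (i - 5)).o5 (k := j - i + 5) (h.pU hx _) (h.pU hy _)

theorem c52 (hx : x ∈ S.U 5) (ht : t ∈ S.U 2) : cm x t ∈ S.V 4 := by
  obtain ⟨a, ha, a1⟩ := h.exV 8
  obtain ⟨v, hv, hd⟩ := h.d5_surj ha a1 hx
  obtain ⟨r, hr, s, hs, e⟩ := h.two_dec ha ht
  rw [h.d5_two hv ha hd ht hr hs e]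
  exact h.vB_mem hv hs

theorem c3 (hx : x ∈ S.U i) (ht : t ∈ S.U j) (k : ℤ)
    (e : i % 2 = 1 ∧ (j = i + 3 ∧ k = i + 1 ∨ j = i - 3 ∧ k = i - 1) := by omega) : cm x t ∈ S.V k := by
  obtain ⟨e0, e | e⟩ := e
  · exact h.pV (i := i + 5 - 4) ((h.rf (i + 5)).c52 (h.pU hx _) (h.pU ht _)) _
  · exact h.pV (i := 4 + (i - 5)) ((h.sh (i - 5)).c52 (h.pU hx _) (h.pU ht _)) _

theorem e7 (ht : t ∈ S.U 2) (ha : a ∈ S.V 8) (a1 : a ≠ 1) :
    cm a t ∈ I S.U 4 6 ↔ ∀ y ∈ S.U 5, t * y = y * t := by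
  refine ⟨fun hm y hy => ?_, fun H => ?_⟩
  · obtain ⟨v, hv, hd⟩ := h.d5_surj ha a1 hy
    have := h.d5_two hv ha hd ht hm (one_mem _) (mul_one _).symm
    rw [(cm_eq_one (x := v) (g := 1)).2 (by simp), cm_eq_one] at this
    exact this.symm
  · obtain ⟨r, hr, s, hs, e⟩ := h.two_dec ha ht
    obtain ⟨v, hv, v1⟩ := h.exV 2
    obtain ⟨d, hd⟩ := h.d5_ex hv ha
    have e1 := h.d5_two hv ha hd ht hr hs e
    rw [cm_eq_one.2 (H d hd.1).symm, eq_comm, cm_eq_one] at e1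
    rw [e, (h.vB_inj hv hs e1).resolve_left v1, mul_one]
    exact hr

theorem tp (ht : t ∈ S.U 2) (hx : x ∈ S.U 5) (x1 : x ≠ 1) (e : t * x = x * t) : ∀ y ∈ S.U 5, t * y = y * t := by
  obtain ⟨a, ha, a1⟩ := h.exV 8
  obtain ⟨v, hv, hd⟩ := h.d5_surj ha a1 hx
  obtain ⟨r, hr, s, hs, e0⟩ := h.two_dec ha ht
  have v1 : v ≠ 1 := by
    rintro rfl
    exact x1 (h.d5_uniq hd ⟨one_mem _, 1, one_mem _, 1, one_mem _, by rw [cm_eq_one.2 (by simp)]; simp⟩)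
  have e1 := h.d5_two hv ha hd ht hr hs e0
  rw [cm_eq_one.2 e.symm, eq_comm, cm_eq_one] at e1
  refine (h.e7 ht ha a1).1 ?_
  rw [e0, (h.vB_inj hv hs e1).resolve_left v1, mul_one]
  exact hr

omit [Finite G] h in
theorem t0_aux {d3 d4 d5 r2 r3 : G} (e : v * (d3 * (d4 * r3) * d5) * u = v * w * (d3 * (d4 * r2) * d5) * u)
    (H : w * (d3 * (d4 * r2)) = d3 * (d4 * r2) * w) : r3 = r2 * w := by
  rw [mul_left_inj, mul_assoc v, mul_right_inj, ← mul_assoc w, mul_left_inj, H, mul_assoc, mul_right_inj, mul_assoc,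
    mul_right_inj] at e
  exact e

theorem t0 (ht : t ∈ S.U 2) (e : ∀ y ∈ S.U 5, t * y = y * t) : ∀ s ∈ S.U 0, t * s = s * t := by
  intro s hs
  by_cases s1 : s = 1
  · simp [s1]
  have hc : cm s t ∈ S.U 1 := I_self (h.cm_mem hs ht (by omega) (by omega)) (by omega) (by omega)
  obtain ⟨v, hv, v1⟩ := h.exV 6
  obtain ⟨d, hd, e1⟩ : ∃ d ∈ I (S.rf 8).U 3 5, cn v s = v * d * cn v (S.mu s) :=
    (h.rf 8).vC (v := v) (a := s) hv hs s1
  have h2 : cn v (S.mu s) ∈ S.V 2 := h.muV hs s1 hv 2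
  have hd' : d ∈ I S.U 3 5 := I_mono (I_rf.1 hd) (by omega) (by omega)
  obtain ⟨d3, h3, d4, h4, d5, h5, rfl⟩ := h.dec3 hd' 4
  have e2 : cn (cn v s) t = cn (cn (cn v t) s) (cm s t) := by rw [cn_cn, cn_cn, cn_cn, mul_eq_cm s t, mul_assoc]
  suffices cm s t = 1 from (cm_eq_one.1 this).symm
  generalize cm s t = c at hc e2
  generalize cn v (S.mu s) = u at e1 h2
  have r3 : cm d4 t ∈ S.U 3 := I_self (h.cm_mem' ht h4 (by omega) (by omega)) (by omega) (by omega)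
  have w4 : cm v c ∈ S.V 4 := (h.rf 8).vB_mem (v := v) hv hc
  have r2 : cm d4 c ∈ S.V 2 := by rw [← cm_inv]; exact inv_mem (h.c3 hc h4 2)
  rw [cn_of_comm (h.vc hv ht), e1] at e2
  simp only [cn_mul] at e2
  rw [cn_of_comm (h.vc hv ht), cn_of_comm (h.adj ht h3 (by omega)).symm, cn_of_comm (e d5 h5).symm,
    cn_of_comm (h.vc h2 ht), cn_of_comm (h.oo hc h3).symm, cn_of_comm (h.oo hc h5).symm, cn_of_comm (h.vc h2 hc),
    cn_eq d4 t, cn_eq d4 c, cn_eq v c] at e2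
  have e3 := t0_aux e2 (h.vI w4 (k := 2) (l := 4) (mul_mem (mem_I h3 (by omega) (by omega))
    (mul_mem (mem_I h4 (by omega) (by omega)) (mem_I (h.V_le r2) (by omega) (by omega)))))
  have e4 := (h.inj3 (one_mem _) (h.V_le r2) r3 (one_mem _) (one_mem _) (h.V_le w4)
    (by rw [one_mul, mul_one, mul_one]; exact e3)).2.2
  exact ((h.rf 8).vB_inj (v := v) hv hc (cm_eq_one.1 e4.symm)).resolve_left v1

end O1

end Cfsg.Lib.MO
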