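import Cfsg.Agent.MO.I2

/-!
# Moufang octagons: root groups at distance four and six
-/

set_option autoImplicit false

namespace Cfsg.Lib.MO

variable {G : Type*} [Group G] [Finite G] {S : Sys G}
variable {i j k : ℤ} {a b d d' r s t u v v' w x y z : G}

omit [Finite G] in
theorem comm_of_mul (h : Commute x (a * b)) (h1 : Commute x a) : Commute x b := by
  simpa using h1.inv_right.mul_right h

omit [Finite G] in
theorem comm_of_mul' (h : Commute x (a * b)) (h1 : Commute x b) : Commute x a := by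
  simpa using h.mul_right h1.inv_right

namespace O1

variable (h : O1 S)
include h

theorem vy (hv : v ∈ S.V 2) (ha : a ∈ S.U 8) (a1 : a ≠ 1) :
    ∃ p ∈ S.U 3, ∃ q ∈ S.V 4, ∃ r ∈ S.U 5, cn v a = v * p * q * r * cn v (S.mu a) := by
  obtain ⟨d, hd, e⟩ := h.vC hv ha a1
  obtain ⟨p, hp, q, hq, r, hr, rfl⟩ := h.dec3 hd 4
  obtain ⟨x, hx, x1⟩ := h.exists_ne 7
  refine ⟨p, hp, q, h.TV hx x1 hq (cn_eq_iff.1 ?_), r, hr, by rw [e]; group⟩
  have h6 := h.muV ha a1 hv 6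
  have h4 := h.vB_mem hv hx
  have e1 : cn (cn v a) x = cn (cn v x) a := by rw [cn_cn, cn_cn, h.adj hx ha rfl]
  rw [cn_eq v x, cn_mul, cn_of_comm (h.vc h4 ha), e, cn_mul, cn_mul, cn_mul, cn_mul, cn_eq v x,
    cn_of_comm (h.oo hp hx), cn_of_comm (h.oo hr hx), cn_of_comm (h.vc h6 hx), mul_assoc _ _ (cm v x),
    ← h.vc h4 (h.V_le h6), ← mul_assoc _ (cm v x), mul_assoc v _ (cm v x), ← h.vI h4 hd,
    ← mul_assoc v (cm v x)] at e1
  exact mul_left_cancel (mul_right_cancel (mul_left_cancel (mul_right_cancel e1)))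

theorem c4a (hx : x ∈ S.U 4) (hb : b ∈ S.U 8) : cm x b ∈ I S.U 5 6 := by
  by_cases b1 : b = 1
  · rw [b1, cm_eq_one.2 (by simp)]; exact one_mem _
  obtain ⟨v, hv, v1⟩ := h.exV 2
  obtain ⟨p, hp, q, hq, r, hr, e⟩ := h.vy hv (inv_mem hb) (inv_ne_one.2 b1)
  obtain ⟨r', hr', s, hs, e1⟩ := h.top (h.cm_mem hx hb (by omega) (by omega)) (by omega)
  have c : Commute (cn v b⁻¹) x := e ▸ ((((show Commute v x from h.vc hv hx).mul_left
    (h.adj hp hx rfl)).mul_left (h.vc hq hx)).mul_left (h.adj hx hr rfl).symm).mul_left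
      (h.vc (h.muV (inv_mem hb) (inv_ne_one.2 b1) hv 6) hx)
  have c' : Commute v (cn x b) := by have := comm_cn c b; rwa [cn_inv_cn] at this
  rw [cn_eq, e1] at c'
  rw [e1, (h.vB_inj hv hs (comm_of_mul (comm_of_mul c' (h.vc hv hx)) (h.vI hv hr'))).resolve_left v1,
    mul_one]
  exact hr'

theorem c4b (hx : x ∈ S.U 4) (hb : b ∈ S.U 8) : cm x b ∈ S.V 6 := by
  by_cases b1 : b = 1
  · rw [b1, cm_eq_one.2 (by simp)]; exact one_mem _
  have h6 : cm x b ∈ S.U 6 := I_self (h.inf_lo (h.c4a hx hb) (cm_inv b x ▸ inv_mem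
    (I_rf.1 ((h.rf 12).c4a (x := b) (b := x) hb hx))) (by omega) (by omega)) (by omega) le_rfl
  obtain ⟨y, hy, y1⟩ := h.exists_ne 3
  obtain ⟨u, hu, u1⟩ := h.exists_ne 7
  have h2 := h.c3 hy (h.kaU hb b1 0) 2
  obtain ⟨d, hd, e⟩ := h.vC h2 hb b1
  have hq := h.muV hb b1 h2 6
  obtain ⟨r, hr, e1⟩ := h.cn_bot hy (mem_I hb (by omega) le_rfl) (by omega)
  obtain ⟨s, hs, e2⟩ := h.cn_top (h.muU hb b1 hy 5) (inv_mem (mem_I (h.laU hb b1 0) le_rfl (by omega)))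
    (by omega)
  rw [← RK.star, cn_eq y, ← h.vc h2 hy, cn_mul, e, e1] at e2
  generalize cn (cm y (S.ka b)) (S.mu b) = q at hq e2
  have hw : q * r ∈ I S.U 1 5 := by
    have : q * r = y⁻¹ * (d⁻¹ * ((cm y (S.ka b))⁻¹ * (s * cn y (S.mu b)))) := by
      rw [← e2, mul_assoc _ q, ← mul_assoc q, h.vc hq hy]; group
    exact this ▸ mul_mem (inv_mem (mem_I hy (by omega) (by omega))) (mul_mem
      (inv_mem (I_mono hd (by omega) le_rfl)) (mul_mem (inv_mem (mem_I (h.V_le h2) (by omega) (by omega)))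
        (mul_mem (I_mono hs (by omega) (by omega)) (mem_I (h.muU hb b1 hy 5) (by omega) le_rfl))))
  obtain ⟨z, hz, z', hz', e3⟩ := h.dec2 (h.inf_lo hw (mul_mem (mem_I (h.V_le hq) (by omega) (by omega)) hr)
    (by omega) (by omega))
  obtain rfl := eq_inv_mul_iff_mul_eq.2 e3
  have c : Commute u (cn y b) := by
    have := (comm_cn (h.oo hy hu) b).symm
    rwa [cn_of_comm (h.adj hu hb rfl)] at this
  rw [e1] at c
  have h4 : z ∈ S.V 4 := h.TV hu u1 hz (comm_of_mul' (comm_of_mul (comm_of_mul c (h.oo hy hu).symm)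
    (comm_inv (h.vc hq hu).symm)) (h.oo hz' hu).symm).symm
  have c : Commute (cn y b) (cn x b) := comm_cn (h.adj hy hx rfl) b
  rw [e1, cn_eq x] at c
  have c := comm_of_mul c ((show Commute x y from (h.adj hy hx rfl).symm).mul_right
    ((show Commute x q from (h.vc hq hx).symm).inv_right.mul_right
      ((show Commute x z from (h.vc h4 hx).symm).mul_right (h.adj hx hz' rfl)))).symm
  exact h.TV hy y1 h6 (comm_of_mul' c.symm ((show Commute _ q from (h.vc hq h6).symm).inv_right.mul_right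
    ((show Commute _ z from (h.vc h4 h6).symm).mul_right (h.adj hz' h6 rfl).symm)))

theorem c4c (hx : x ∈ S.U 4) (hb : b ∈ S.U 8) : x * b = b * x := by
  by_cases b1 : b = 1
  · simp [b1]
  have h6 := h.V_le (h.c4b hx hb)
  have h2 : cm x (S.ka b) ∈ S.V 2 := (h.rf 8).c4b (x := x) hx (h.kaU hb b1 0)
  have h4 := h.muU hb b1 hx 4
  have h2' : cm (cn x (S.mu b)) (S.la b)⁻¹ ∈ S.V 2 := (h.rf 8).c4b h4 (inv_mem (h.laU hb b1 0))
  have e := RK.star (S := S) x b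
  rw [cn_eq x, ← h.vc h2 hx, cn_mul, cn_eq x, cn_eq _ (S.la b)⁻¹, ← h.vc h2' h4] at e
  by_cases c : cm x (S.ka b) = 1
  · rw [c, one_cn, one_mul] at e
    exact cm_eq_one.1 (h.hi h6 (k := 2) (l := 4) (eq_inv_mul_iff_mul_eq.2 e ▸ mul_mem
      (inv_mem (mem_I hx (by omega) le_rfl)) (mul_mem (mem_I (h.V_le h2') le_rfl (by omega))
        (mem_I h4 (by omega) le_rfl))) (by omega) (by omega))
  obtain ⟨p, hp, q, hq, r, hr, e1⟩ := h.vy h2 hb b1
  have hz : q * r * cn (cm x (S.ka b)) (S.mu b) ∈ I S.U 4 6 := mul_mem (mul_mem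
    (mem_I (h.V_le hq) le_rfl (by omega)) (mem_I hr (by omega) (by omega)))
      (mem_I (h.V_le (h.muV hb b1 h2 6)) (by omega) le_rfl)
  have hz' := mul_mem hz (mul_mem (mem_I hx le_rfl (by omega)) (mem_I h6 (by omega) le_rfl))
  have e2 := (h.bot_inj (h.V_le h2) (h.V_le h2') (mul_mem (mem_I hp le_rfl (by omega))
    (I_mono hz' (by omega) le_rfl)) (mem_I h4 (by omega) (by omega)) (by omega) (by omega)
    (by rw [← e, e1]; group)).2
  have p1 : p = 1 := h.lo hp (eq_mul_inv_of_mul_eq e2 ▸ mul_mem (mem_I h4 le_rfl (by omega)) (inv_mem hz'))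
    (by omega) (by omega)
  obtain ⟨y, hy, y1⟩ := h.exists_ne 5
  exact (h.vc (h.TV hy y1 hb (((h.rf 10).e7 (t := b) hb h2 c).1 (I_rf.2 (I_mono (i := 4) (j := 6) (by
    convert hz using 1; rw [cm_eq, e1, p1]; group) (by omega) (by omega))) y hy)) hx).symm

theorem c4 (hx : x ∈ S.U i) (hy : y ∈ S.U j) (e : j = i + 4 := by omega) : x * y = y * x := by
  by_cases c : i % 2 = 1
  · exact h.oo hx hy
  · exact (h.sh (i - 4)).c4c (h.pU hx (4 + (i - 4))) (h.pU hy (8 + (i - 4)))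

theorem s17c (hx : x ∈ S.U 1) (hs : s ∈ S.U 7) (s1 : s ≠ 1) :
    ∃ d ∈ I S.U 2 4, cm x s = d * cn x (S.mu s) := by
  obtain ⟨d, hd, e⟩ := h.st hx hs s1 (h.oo (h.kaU hs s1 (-1)) hx).symm 5
  exact ⟨d, hd, by rw [cm_eq, e, mul_assoc, inv_mul_cancel_left]⟩

theorem s17a (hx : x ∈ S.U 1) (x1 : x ≠ 1) (hs : s ∈ S.U 7) (s1 : s ≠ 1) :
    ∃ d ∈ S.U 4, cm x s = cn s (S.mu x) * (d * cn x (S.mu s)) := by
  obtain ⟨d, hd, e⟩ := h.s17c hx hs s1
  obtain ⟨d', hd', e'⟩ : ∃ d ∈ I S.U 4 6, cm s x = d * cn s (S.mu x) :=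
    ((h.rf 8).s17c (x := s) (s := x) hs hx x1).imp fun _ k =>
      ⟨I_mono (I_rf.1 k.1) (by omega) (by omega), k.2⟩
  have h3 := h.muU hx x1 hs 3
  have e1 : cm x s = cn s (S.mu x) * d'⁻¹ := by
    rw [← cm_inv s x, e', mul_inv_rev, h.U_inv h3]
  obtain ⟨c, hc, e2⟩ := h.both (i := 3) (l := 6) (j := 5) (k := 2) h3 (h.muU hs s1 hx 5) (inv_mem hd') hd
    (by omega) (by omega) (by omega) (by omega) (by omega) (by omega) (e1.symm.trans e)
  exact ⟨c, I_self hc (by omega) (by omega), e1.trans (congrArg _ e2)⟩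

theorem s17b (hx : x ∈ S.U 1) (hs : s ∈ S.U 7) : cm x s ∈ I S.U 3 5 := by
  by_cases c : x = 1 ∨ s = 1
  · rw [cm_eq_one.2 (by rcases c with rfl | rfl <;> simp)]; exact one_mem _
  rw [not_or] at c
  obtain ⟨d, hd, e⟩ := h.s17a hx c.1 hs c.2
  exact e ▸ mul_mem (mem_I (h.muU hx c.1 hs 3) le_rfl (by omega)) (mul_mem (mem_I hd (by omega) (by omega))
    (mem_I (h.muU hs c.2 hx 5) (by omega) le_rfl))

theorem s17 (hx : x ∈ S.U 1) (x1 : x ≠ 1) (hs : s ∈ S.U 7) (s1 : s ≠ 1) :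
    cm x s = cn s (S.mu x) * cn x (S.mu s) := by
  obtain ⟨d, hd, e⟩ := h.s17a hx x1 hs s1
  have k := I_sh.1 ((h.sh (-2)).s17b (inv_mem (h.laU hs s1 (-1))) (inv_mem (h.muU hs s1 hx 5)))
  have e1 := RK.star' (h.oo (h.kaU hs s1 (-1)) hx).symm
  rw [cn_eq x, e] at e1
  have : d = (cn s (S.mu x))⁻¹ * (x⁻¹ * cm (S.la s)⁻¹ (cn x (S.mu s))⁻¹) := by
    rw [eq_inv_mul_iff_mul_eq, eq_inv_mul_iff_mul_eq, ← mul_left_inj (cn x (S.mu s)), mul_assoc, mul_assoc, e1]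
    generalize cn x (S.mu s) = t
    unfold cn cm; group
  rw [e, h.hi hd (k := 1) (l := 3) (this ▸ mul_mem (inv_mem (mem_I (h.muU hx x1 hs 3) (by omega) le_rfl))
    (mul_mem (inv_mem (mem_I hx le_rfl (by omega))) k)) (by omega) (by omega), one_mul]

end O1

end Cfsg.Lib.MO
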