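import Cfsg.Agent.MO.B3a
import Cfsg.Agent.MO.B2
import Cfsg.Agent.MO.I1
import Cfsg.Agent.MO.I3

/-!
# Moufang octagons: the commutation rules for base points, main case
-/

set_option autoImplicit false

namespace Cfsg.Lib.MO

variable {G : Type*} [Group G] [Finite G] {S : Sys G}

theorem O1.rel1 (h : O1 S) {e f g w : ℤ → G} (B : Base S e f g w) : Rel1 e f g :=
  h.toO8.rel1_of B (fun hx hy e1 e2 => h.oo hx hy ⟨e1, Or.inl e2⟩) (fun hx hy e => h.c4 hx hy e)
    (fun c H => (h.rf c H).brel (B.rf c H)) fun c H => ((h.rf c H).rf 0).brel ((B.rf c H).rf 0)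

end Cfsg.Lib.MO
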