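import Cfsg.Agent.MO.D8
import Cfsg.Agent.Oct.ModB

/-!
# Moufang octagons: the twelve letters
-/

set_option autoImplicit false

namespace Cfsg.Lib.MO

open Cfsg.Lib.Oct Cfsg.Lib.Chev

variable {G : Type*} [Group G]

/-- The base points in the order of the letters. -/
def Lb (e f g : ℤ → G) (k : ℕ) : G := [e 1, g 8, g 2, f 8, g 6, g 4, e 7, f 2, e 3, e 5, f 6, f 4].getD k 1

/-- The letters. -/
def Lx {K : Type*} (x y : ℤ → K → G) (k : ℕ) (t : K) : G :=
  [x 1 t, y 8 t, y 2 t, x 8 t, y 6 t, y 4 t, x 7 t, x 2 t, x 3 t, x 5 t, x 6 t, x 4 t].getD k 1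

theorem Lb_eq_1' : type_of% @Lb.eq_1 := @Lb.eq_1
theorem Lx_eq_1' : type_of% @Lx.eq_1 := @Lx.eq_1

/-- The commutation rules for base points. -/
def Rel1 (e f g : ℤ → G) : Prop := ∀ j < 12, ∀ i < j,
  Lb e f g j * Lb e f g i = Lb e f g i * (Lb e f g j * ((Md.rl j i).map fun p => Lb e f g p.1).prod)

/-- The commutation rules. -/
def RelC {K : Type*} [Field K] [TwF K] (x y : ℤ → K → G) : Prop := ∀ j < 12, ∀ i < j, ∀ s t,
  Lx x y j s * Lx x y i t = Lx x y i t * (Lx x y j s * word (Lx x y) (Md.evs s t (Md.rl j i)))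

/-- An embedding of the model matching the root groups. -/
structure Emb (S : Sys G) {K : Type*} [Field K] [TwF K] (ι : UU K →* G) : Prop where
  inj : Function.Injective ι
  m1 : (UU.U1 K).map ι = S.U 1
  m2 : (UU.U2 K).map ι = S.U 2
  m3 : (UU.U3 K).map ι = S.U 3
  m4 : (UU.U4 K).map ι = S.U 4
  m5 : (UU.U5 K).map ι = S.U 5
  m6 : (UU.U6 K).map ι = S.U 6
  m7 : (UU.U7 K).map ι = S.U 7
  m8 : (UU.U8 K).map ι = S.U 8

end Cfsg.Lib.MO
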