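import Cfsg.Agent.MO.A1
import Cfsg.Agent.MO.D9

/-!
# Moufang octagons: the commutation rules for base points
-/

set_option autoImplicit false
set_option linter.unusedSimpArgs false

namespace Cfsg.Lib.MO

open Cfsg.Lib.Oct

variable {G : Type*} [Group G] {S : Sys G} {a b c d k : G}

namespace B3

theorem cw (h : a * b = b * a) (x : G) : a * (b * x) = b * (a * x) := by
  rw [← mul_assoc, h, mul_assoc]

theorem sw (h : cn a b = d) (x : G) : a * (b * x) = b * (d * x) := by rw [← h]; unfold cn; group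

theorem sw1 (h : cn a b = a * c) (x : G) : a * (b * x) = b * (a * (c * x)) := by
  rw [sw h, mul_assoc]

theorem sw2 (h : cn a b = a * c * d) (x : G) : a * (b * x) = b * (a * (c * (d * x))) := by
  rw [sw h, mul_assoc, mul_assoc]

theorem sw3 (h : cn a b = a * c * d * k) (x : G) : a * (b * x) = b * (a * (c * (d * (k * x)))) := by
  rw [sw h, mul_assoc, mul_assoc, mul_assoc]

theorem sq (h : a * a = b) (x : G) : a * (a * x) = b * x := by rw [← mul_assoc, h]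

theorem sq1 (h : a * a = 1) (x : G) : a * (a * x) = x := by rw [sq h, one_mul]

theorem sv1 (h : cn b a = b * c) (hc : c * c = 1) (x : G) : a * (b * x) = b * (a * (c * x)) := by
  rw [sw1 h, sq1 hc]

theorem sv2 (h : cn b a = b * c * d) (hc : c * c = 1) (hd : d * d = 1) (x : G) :
    a * (b * x) = b * (a * (d * (c * x))) := by
  rw [sw2 h, sq1 hd, sq1 hc]

theorem iv (h : a * a = b) (hb : b * b = 1) : a⁻¹ = a * b :=
  inv_eq_of_mul_eq_one_right (by rw [sq h, hb])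

end B3

open B3

theorem O8.rel1_of [Finite G] {e f g w : ℤ → G} (h : O8 S) (B : Base S e f g w)
    (oo : ∀ {i j : ℤ} {x y : G}, x ∈ S.U i → y ∈ S.U j → i % 2 = 1 → j = i + 2 → x * y = y * x)
    (c4 : ∀ {i j : ℤ} {x y : G}, x ∈ S.U i → y ∈ S.U j → j = i + 4 → x * y = y * x)
    (R : ∀ c : ℤ, c % 2 = 0 → BRel (fun k => e (c - k)) (fun k => f (c - k)) fun k => g (c - k))
    (R' : ∀ c : ℤ, c % 2 = 0 →
      BRel (fun k => e (c - (0 - k))) (fun k => f (c - (0 - k))) fun k => g (c - (0 - k))) :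
    Rel1 e f g := by
  have m0 : e 1 ∈ S.U 1 := B.eU (by decide)
  have m1 : g 8 ∈ S.U 8 := B.gU (by decide)
  have m2 : g 2 ∈ S.U 2 := B.gU (by decide)
  have v3 : f 8 ∈ S.V 8 := B.fV (by decide)
  have m3 := h.V_le v3
  have m4 : g 6 ∈ S.U 6 := B.gU (by decide)
  have m5 : g 4 ∈ S.U 4 := B.gU (by decide)
  have m6 : e 7 ∈ S.U 7 := B.eU (by decide)
  have v7 : f 2 ∈ S.V 2 := B.fV (by decide)
  have m7 := h.V_le v7
  have m8 : e 3 ∈ S.U 3 := B.eU (by decide)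
  have m9 : e 5 ∈ S.U 5 := B.eU (by decide)
  have v10 : f 6 ∈ S.V 6 := B.fV (by decide)
  have m10 := h.V_le v10
  have v11 : f 4 ∈ S.V 4 := B.fV (by decide)
  have m11 := h.V_le v11
  have s7 := h.V_sq v7
  have s10 := h.V_sq v10
  have s11 := h.V_sq v11
  have s6 := h.U_sq m6
  have s8 := h.U_sq m8
  have s9 := h.U_sq m9
  have s4 : g 6 * g 6 = f 6 := (R' 4 rfl).r0
  have s5 : g 4 * g 4 = f 4 := (R' 2 rfl).r0
  have c2_0 := cw (h.adj m0 m2 rfl).symm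
  have c2_1 : ∀ x, g 2 * (g 8 * x) = g 8 * (g 2 * (g 6 * (g 4 * (f 4 * x)))) :=
    sw3 (R' 0 rfl).r8
  have c3_1 := cw (h.vc v3 m1)
  have c3_2 : ∀ x, f 8 * (g 2 * x) = g 2 * (f 8 * (e 7 * (e 5 * (f 4 * x)))) :=
    sw3 (R 10 rfl).r7
  have c4_0 : ∀ x, g 6 * (e 1 * x) = e 1 * (g 6 * (f 2 * (e 3 * x))) :=
    sw2 (R' 0 rfl).r5
  have c4_1 : ∀ x, g 6 * (g 8 * x) = g 8 * (g 6 * (e 7 * x)) :=
    sw1 (R 10 rfl).r4
  have c4_2 := cw (c4 m2 m4 rfl).symm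
  have c4_3 := cw (h.vc v3 m4).symm
  have c5_0 : ∀ x, g 4 * (e 1 * x) = e 1 * (g 4 * (f 2 * x)) :=
    sw1 (R' 0 rfl).r3
  have c5_1 := cw (c4 m5 m1 rfl)
  have c5_2 : ∀ x, g 4 * (g 2 * x) = g 2 * (g 4 * (e 3 * x)) :=
    sw1 (R' 0 rfl).r4
  have c5_3 := cw (h.vc v3 m5).symm
  have c5_4 : ∀ x, g 4 * (g 6 * x) = g 6 * (g 4 * (e 5 * x)) :=
    sw1 (R 8 rfl).r4
  have c6_0 : ∀ x, e 7 * (e 1 * x) = e 1 * (e 7 * (e 3 * (e 5 * x))) :=
    sw2 (R' 0 rfl).r1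
  have c6_1 := cw (h.adj m6 m1 rfl)
  have c6_2 : ∀ x, e 7 * (g 2 * x) = g 2 * (e 7 * (e 5 * (f 6 * x))) :=
    sv2 (R 8 rfl).r5 s10 s9
  have c6_3 := cw (h.vc v3 m6).symm
  have c6_4 := cw (h.adj m4 m6 rfl).symm
  have c6_5 : ∀ x, e 7 * (g 4 * x) = g 4 * (e 7 * (f 6 * x)) :=
    sv1 (R 8 rfl).r3 s10
  have c7_0 := cw (h.vc v7 m0)
  have c7_1 : ∀ x, f 2 * (g 8 * x) = g 8 * (f 2 * (e 3 * (e 5 * (f 6 * x)))) :=
    sw3 (R' 0 rfl).r7
  have c7_2 := cw (h.vc v7 m2)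
  have c7_3 : ∀ x, f 2 * (f 8 * x) = f 8 * (f 2 * (e 5 * (f 6 * (f 4 * x)))) :=
    sw3 (R' 0 rfl).r6
  have c7_4 := cw (h.vc v7 m4)
  have c7_5 := cw (h.vc v7 m5)
  have c7_6 : ∀ x, f 2 * (e 7 * x) = e 7 * (f 2 * (f 4 * x)) :=
    sw1 (R' 0 rfl).r2
  have c8_0 := cw (oo m0 m8 rfl rfl).symm
  have c8_1 : ∀ x, e 3 * (g 8 * x) = g 8 * (e 3 * (e 5 * (f 4 * x))) :=
    sv2 (R' 2 rfl).r5 s11 s9
  have c8_2 := cw (h.adj m2 m8 rfl).symm
  have c8_3 : ∀ x, e 3 * (f 8 * x) = f 8 * (e 3 * (f 6 * x)) :=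
    sv1 (R 10 rfl).r2 s10
  have c8_4 : ∀ x, e 3 * (g 6 * x) = g 6 * (e 3 * (f 4 * x)) :=
    sv1 (R' 2 rfl).r3 s11
  have c8_5 := cw (h.adj m8 m5 rfl)
  have c8_6 := cw (c4 m8 m6 rfl)
  have c8_7 := cw (h.vc v7 m8).symm
  have c9_0 := cw (c4 m0 m9 rfl).symm
  have c9_1 : ∀ x, e 5 * (g 8 * x) = g 8 * (e 5 * (f 6 * x)) :=
    sv1 (R' 4 rfl).r3 s10
  have c9_2 : ∀ x, e 5 * (g 2 * x) = g 2 * (e 5 * (f 4 * x)) :=
    sv1 (R 6 rfl).r3 s11
  have c9_3 := cw (h.vc v3 m9).symm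
  have c9_4 := cw (h.adj m9 m4 rfl)
  have c9_5 := cw (h.adj m5 m9 rfl).symm
  have c9_6 := cw (oo m9 m6 rfl rfl)
  have c9_7 := cw (h.vc v7 m9).symm
  have c9_8 := cw (oo m8 m9 rfl rfl).symm
  have c10_0 : ∀ x, f 6 * (e 1 * x) = e 1 * (f 6 * (f 4 * x)) :=
    sw1 (R 8 rfl).r2
  have c10_1 := cw (h.vc v10 m1)
  have c10_2 := cw (h.vc v10 m2)
  have c10_3 := cw (h.vc v10 m3)
  have c10_4 := cw (h.vc v10 m4)
  have c10_5 := cw (h.vc v10 m5)
  have c10_6 := cw (h.vc v10 m6)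
  have c10_7 := cw (h.vc v10 m7)
  have c10_8 := cw (h.vc v10 m8)
  have c10_9 := cw (h.vc v10 m9)
  have c11_0 := cw (h.vc v11 m0)
  have c11_1 := cw (h.vc v11 m1)
  have c11_2 := cw (h.vc v11 m2)
  have c11_3 := cw (h.vc v11 m3)
  have c11_4 := cw (h.vc v11 m4)
  have c11_5 := cw (h.vc v11 m5)
  have c11_6 := cw (h.vc v11 m6)
  have c11_7 := cw (h.vc v11 m7)
  have c11_8 := cw (h.vc v11 m8)
  have c11_9 := cw (h.vc v11 m9)
  have c11_10 := cw (h.vc v11 m10)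
  have c1_0 : ∀ x, g 8 * (e 1 * x) =
      e 1 * (g 8 * (g 2 * (g 6 * (e 7 * (e 3 * x))))) := fun x => by
    rw [sw B.r10]
    simp only [mul_assoc, iv s4 s10, iv s5 s11, sq s4, sq s5, sq1 s6, sq1 s7, sq1 s8, sq1 s9, sq1
      s10, sq1 s11, c2_1, c3_1, c3_2, c4_1, c4_2, c4_3, c5_1, c5_2, c5_3, c5_4, c6_1, c6_2, c6_3,
      c6_4, c6_5, c7_1, c7_2, c7_3, c7_4, c7_5, c7_6, c8_1, c8_2, c8_3, c8_4, c8_5, c8_6, c8_7,
      c9_1, c9_2, c9_3, c9_4, c9_5, c9_6, c9_7, c9_8, c10_1, c10_2, c10_3, c10_4, c10_5, c10_6,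
      c10_7, c10_8, c10_9, c11_1, c11_2, c11_3, c11_4, c11_5, c11_6, c11_7, c11_8, c11_9, c11_10]
  have c3_0 : ∀ x, f 8 * (e 1 * x) =
      e 1 * (f 8 * (g 6 * (g 4 * (e 7 * (f 2 * (e 3 * (e 5 * (f 6 * (f 4 * x))))))))) := fun x => by
    rw [sw B.r9]
    simp only [mul_assoc, iv s4 s10, iv s5 s11, sq s4, sq s5, sq1 s6, sq1 s7, sq1 s8, sq1 s9, sq1
      s10, sq1 s11, c2_1, c3_1, c3_2, c4_1, c4_2, c4_3, c5_1, c5_2, c5_3, c5_4, c6_1, c6_2, c6_3,
      c6_4, c6_5, c7_1, c7_2, c7_3, c7_4, c7_5, c7_6, c8_1, c8_2, c8_3, c8_4, c8_5, c8_6, c8_7,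
      c9_1, c9_2, c9_3, c9_4, c9_5, c9_6, c9_7, c9_8, c10_1, c10_2, c10_3, c10_4, c10_5, c10_6,
      c10_7, c10_8, c10_9, c11_1, c11_2, c11_3, c11_4, c11_5, c11_6, c11_7, c11_8, c11_9, c11_10]
  intro j hj i hi
  interval_cases j <;> interval_cases i
  exacts [(congrArg _ (mul_one _).symm).trans (c1_0 1), (congrArg _ (mul_one _).symm).trans (c2_0
    1), (congrArg _ (mul_one _).symm).trans (c2_1 1), (congrArg _ (mul_one _).symm).trans (c3_0 1),
    (congrArg _ (mul_one _).symm).trans (c3_1 1), (congrArg _ (mul_one _).symm).trans (c3_2 1),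
    (congrArg _ (mul_one _).symm).trans (c4_0 1), (congrArg _ (mul_one _).symm).trans (c4_1 1),
    (congrArg _ (mul_one _).symm).trans (c4_2 1), (congrArg _ (mul_one _).symm).trans (c4_3 1),
    (congrArg _ (mul_one _).symm).trans (c5_0 1), (congrArg _ (mul_one _).symm).trans (c5_1 1),
    (congrArg _ (mul_one _).symm).trans (c5_2 1), (congrArg _ (mul_one _).symm).trans (c5_3 1),
    (congrArg _ (mul_one _).symm).trans (c5_4 1), (congrArg _ (mul_one _).symm).trans (c6_0 1),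
    (congrArg _ (mul_one _).symm).trans (c6_1 1), (congrArg _ (mul_one _).symm).trans (c6_2 1),
    (congrArg _ (mul_one _).symm).trans (c6_3 1), (congrArg _ (mul_one _).symm).trans (c6_4 1),
    (congrArg _ (mul_one _).symm).trans (c6_5 1), (congrArg _ (mul_one _).symm).trans (c7_0 1),
    (congrArg _ (mul_one _).symm).trans (c7_1 1), (congrArg _ (mul_one _).symm).trans (c7_2 1),
    (congrArg _ (mul_one _).symm).trans (c7_3 1), (congrArg _ (mul_one _).symm).trans (c7_4 1),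
    (congrArg _ (mul_one _).symm).trans (c7_5 1), (congrArg _ (mul_one _).symm).trans (c7_6 1),
    (congrArg _ (mul_one _).symm).trans (c8_0 1), (congrArg _ (mul_one _).symm).trans (c8_1 1),
    (congrArg _ (mul_one _).symm).trans (c8_2 1), (congrArg _ (mul_one _).symm).trans (c8_3 1),
    (congrArg _ (mul_one _).symm).trans (c8_4 1), (congrArg _ (mul_one _).symm).trans (c8_5 1),
    (congrArg _ (mul_one _).symm).trans (c8_6 1), (congrArg _ (mul_one _).symm).trans (c8_7 1),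
    (congrArg _ (mul_one _).symm).trans (c9_0 1), (congrArg _ (mul_one _).symm).trans (c9_1 1),
    (congrArg _ (mul_one _).symm).trans (c9_2 1), (congrArg _ (mul_one _).symm).trans (c9_3 1),
    (congrArg _ (mul_one _).symm).trans (c9_4 1), (congrArg _ (mul_one _).symm).trans (c9_5 1),
    (congrArg _ (mul_one _).symm).trans (c9_6 1), (congrArg _ (mul_one _).symm).trans (c9_7 1),
    (congrArg _ (mul_one _).symm).trans (c9_8 1), (congrArg _ (mul_one _).symm).trans (c10_0 1),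
    (congrArg _ (mul_one _).symm).trans (c10_1 1), (congrArg _ (mul_one _).symm).trans (c10_2 1),
    (congrArg _ (mul_one _).symm).trans (c10_3 1), (congrArg _ (mul_one _).symm).trans (c10_4 1),
    (congrArg _ (mul_one _).symm).trans (c10_5 1), (congrArg _ (mul_one _).symm).trans (c10_6 1),
    (congrArg _ (mul_one _).symm).trans (c10_7 1), (congrArg _ (mul_one _).symm).trans (c10_8 1),
    (congrArg _ (mul_one _).symm).trans (c10_9 1), (congrArg _ (mul_one _).symm).trans (c11_0 1),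
    (congrArg _ (mul_one _).symm).trans (c11_1 1), (congrArg _ (mul_one _).symm).trans (c11_2 1),
    (congrArg _ (mul_one _).symm).trans (c11_3 1), (congrArg _ (mul_one _).symm).trans (c11_4 1),
    (congrArg _ (mul_one _).symm).trans (c11_5 1), (congrArg _ (mul_one _).symm).trans (c11_6 1),
    (congrArg _ (mul_one _).symm).trans (c11_7 1), (congrArg _ (mul_one _).symm).trans (c11_8 1),
    (congrArg _ (mul_one _).symm).trans (c11_9 1), (congrArg _ (mul_one _).symm).trans (c11_10 1)]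

end Cfsg.Lib.MO
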