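import Cfsg.Agent.MO.I3
import Cfsg.Agent.MO.B0
import Mathlib.FieldTheory.Finite.Basic

/-!
# Moufang octagons: the field and its Tits endomorphism
-/

set_option autoImplicit false
set_option linter.unusedSectionVars false

namespace Cfsg.Lib.MO

open Function Cfsg.Lib.Oct

universe u

namespace C1

theorem exists_field {A : Type u} {B : Type*} [AddCommGroup A] [Finite A] (φ : B → A →+ A) {e : A}
    (he : e ≠ 0) (hb : Surjective fun b => φ b e) (comm : ∀ b b' a, φ b (φ b' a) = φ b' (φ b a))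
    (dom : ∀ b a, φ b a = 0 → φ b e = 0 ∨ a = 0) :
    ∃ (K : Type u) (_ : Field K) (_ : Finite K) (X : K ≃+ A), X 1 = e ∧
      ∀ b c, φ b (X c) = X (X.symm (φ b e) * c) := by
  choose β hβ using hb
  replace hβ : ∀ a, φ (β a) e = a := hβ
  have c : ∀ a a', φ (β a) a' = φ (β a') a := fun a a' => by
    conv_lhs => rw [← hβ a']
    rw [comm, hβ]
  let R : CommRing A :=
    { (inferInstance : AddCommGroup A) with
      mul := fun a a' => φ (β a) a'
      one := e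
      left_distrib := fun a => map_add (φ (β a))
      right_distrib := fun a a' b => (c _ b).trans ((map_add _ _ _).trans (congrArg₂ _ (c b a) (c b a')))
      zero_mul := fun a => (c 0 a).trans (map_zero _)
      mul_zero := fun a => map_zero (φ (β a))
      mul_assoc := fun a a' b => (c _ b).trans ((comm _ _ _).trans (congrArg _ (c b a')))
      one_mul := fun a => (c e a).trans (hβ a)
      mul_one := hβ
      mul_comm := c }
  have : Nontrivial A := ⟨e, 0, he⟩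
  have : NoZeroDivisors A := ⟨fun {a a'} h => (dom _ _ h).imp_left (hβ a).symm.trans⟩
  have : IsDomain A := NoZeroDivisors.to_isDomain A
  exact ⟨A, (Finite.isField_of_domain A).toField, inferInstance, ⟨Equiv.refl A, fun _ _ => rfl⟩, rfl,
    fun b a => (congrArg _ (hβ a).symm).trans ((comm _ _ _).trans (c _ _))⟩

variable {G : Type u} [Group G] [Finite G] {S : Sys G} {i j k : ℤ} {a s x y z : G} {e f g w : ℤ → G}

theorem c4' (h : O1 S) (hx : x ∈ S.U i) (hy : y ∈ S.U j) (H : (j - i - 4) % 8 = 0 := by omega) :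
    x * y = y * x := by
  by_cases c : (j - i - 4) % 16 = 0
  · exact h.c4 hx (h.pU hy (i + 4))
  · exact (h.c4 hy (h.pU hx (j + 4))).symm

theorem cz (h : O1 S) (hz : z ∈ S.U j) (ha : a ∈ S.U i) (a1 : a ≠ 1) (H : (j - i - 4) % 8 = 0 := by omega) :
    z * S.mu a = S.mu a * z :=
  cn_eq_iff.1 (h.mu_comm ha a1 (c4' h hz ha) fun _ hy => c4' h hz hy (by push_cast; omega))

theorem mc (h : O1 S) (hx : x ∈ S.U 1) (x1 : x ≠ 1) (hy : y ∈ S.U 5) (y1 : y ≠ 1) :
    S.mu y * S.mu x = S.mu x * S.mu y :=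
  comm_mul (comm_mul (cz h (h.kaU hx x1 9) hy y1).symm (cz h hx hy y1).symm) (cz h (h.laU hx x1 9) hy y1).symm

open Classical in
/-- The action of `U 1` on `U 3`. -/
noncomputable def ph (S : Sys G) (w : ℤ → G) (x s : G) : G := if x = 1 then 1 else cn s (w 1 * S.mu x)

theorem ph_eq_1' : type_of% @ph.eq_1 := @ph.eq_1

theorem ph_one (s : G) : ph S w 1 s = 1 := if_pos rfl

theorem ph_ne (x1 : x ≠ 1) (s : G) : ph S w x s = cn s (w 1 * S.mu x) := if_neg x1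

theorem ph_mul (x s t : G) : ph S w x (s * t) = ph S w x s * ph S w x t := by
  by_cases x1 : x = 1
  · simp only [x1, ph_one, mul_one]
  · simp only [ph_ne x1, cn_mul]

theorem ph_eq (c : ph S w x s = 1) : x = 1 ∨ s = 1 :=
  or_iff_not_imp_left.2 fun x1 => by_contra fun s1 => cn_ne s1 _ (ph_ne x1 s ▸ c)

/-- Coordinates before `σ` is known to be multiplicative. -/
structure Pre (S : Sys G) (e w : ℤ → G) {K : Type*} [Field K] (x : ℤ → K → G) (τ : K → K) : Prop where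
  mem : ∀ {k u}, Odd k → (u ∈ S.U k ↔ ∃ t, u = x k t)
  add : ∀ {k}, Odd k → ∀ s t, x k (s + t) = x k s * x k t
  inj : ∀ {k t}, Odd k → x k t = 1 → t = 0
  one : ∀ {k}, Odd k → x k 1 = e k
  per : ∀ {j k}, Odd j → (k - j) % 16 = 0 → x j = x k
  cx : ∀ {j} k, Odd j → ∀ t, cn (x j t) (w k) = x (2 * k + 8 - j) t
  h3 : ∀ t s, ph S w (x 1 t) (x 3 s) = x 3 (τ t * s)

variable (h : O1 S) (B : Base S e f g w)
include h B

theorem actH (hx : x ∈ S.U 1) (x1 : x ≠ 1) : Act S (w 1 * S.mu x) fun j => j :=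
  B.we odd_one ▸ h.act2 (B.eU odd_one) (B.e1 odd_one) hx x1

theorem ph_mem (hx : x ∈ S.U 1) (hs : s ∈ S.U 3) : ph S w x s ∈ S.U 3 := by
  by_cases x1 : x = 1
  · rw [x1, ph_one]; exact one_mem _
  · rw [ph_ne x1]; exact (actH h B hx x1).mU hs

theorem ph_cm (hx : x ∈ S.U 1) (hs : s ∈ S.U 3) : ∃ p ∈ S.U 5, cm x (cn s (w 1)) = ph S w x s * p := by
  by_cases x1 : x = 1
  · exact ⟨1, one_mem _, by rw [x1, ph_one]; unfold cm; group⟩
  by_cases s1 : s = 1
  · exact ⟨1, one_mem _, by rw [s1, ph_ne x1, one_cn, one_cn]; unfold cm; group⟩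
  have hr : cn s (w 1) ∈ S.U 7 := (B.act h.toRK 1 10).mU hs
  exact ⟨_, h.muU hr (cn_ne s1 _) hx 5, by rw [h.s17 hx x1 hr (cn_ne s1 _), ph_ne x1, cn_cn]⟩

theorem ph_add (hx : x ∈ S.U 1) (hy : y ∈ S.U 1) (hs : s ∈ S.U 3) :
    ph S w (x * y) s = ph S w x s * ph S w y s := by
  obtain ⟨p, hp, e1⟩ := ph_cm h B hx hs
  obtain ⟨q, hq, e2⟩ := ph_cm h B hy hs
  obtain ⟨r, hr, e3⟩ := ph_cm h B (mul_mem hx hy) hs
  have m1 := ph_mem h B hx hs
  have m2 := ph_mem h B hy hs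
  rw [cm_mul_left, e1, e2, cn_of_comm (comm_mul (h.oo hy m1) (h.oo hy hp)).symm, mul_assoc, ← mul_assoc p,
    ← h.oo m2 hp, mul_assoc, ← mul_assoc] at e3
  exact (h.inj2 (mul_mem m1 m2) (ph_mem h B (mul_mem hx hy) hs) (mul_mem hp hq) hr e3).1.symm

theorem cn7 (hs : s ∈ S.U 3) : cn s (w 7) = s :=
  B.we (k := 7) (by decide) ▸ cn_of_comm (cz h hs (B.eU (k := 7) (by decide)) (B.e1 (by decide)))

theorem ph_comm (hx : x ∈ S.U 1) (hy : y ∈ S.U 1) (hs : s ∈ S.U 3) :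
    ph S w x (ph S w y s) = ph S w y (ph S w x s) := by
  by_cases x1 : x = 1
  · rcases eq_or_ne y 1 with y1 | y1
    · rw [x1, y1]
    · rw [x1, ph_one, ph_one, ph_ne y1, one_cn]
  by_cases y1 : y = 1
  · rw [y1, ph_one, ph_one, ph_ne x1, one_cn]
  have A := B.act h.toRK 7 6
  have k : ∀ {t}, t ∈ S.U 3 → ph S w y t = cn t (S.mu (cn (e 1) (w 7)) * S.mu (cn y (w 7))) := fun ht => by
    rw [← cn7 h B (ph_mem h B hy ht), ph_ne y1, cn_conj, cn7 h B ht, cn_mul,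
      h.mu_cn_neg A (B.eU odd_one) (B.e1 odd_one), h.mu_cn_neg A hy y1, B.we odd_one]
  have c : ∀ {v}, v ∈ S.U 1 → v ≠ 1 → S.mu (cn v (w 7)) * (w 1 * S.mu x) = w 1 * S.mu x * S.mu (cn v (w 7)) :=
    fun hv v1 => comm_mul (B.we odd_one ▸ mc h (B.eU odd_one) (B.e1 odd_one) (A.mU hv) (cn_ne v1 _))
      (mc h hx x1 (A.mU hv) (cn_ne v1 _))
  rw [k (ph_mem h B hx hs), k hs, ph_ne x1, ph_ne x1, cn_cn, cn_cn,
    comm_mul (c (B.eU odd_one) (B.e1 odd_one)).symm (c hy y1).symm]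

theorem exists_pre : ∃ (K : Type u) (_ : Field K) (_ : Finite K) (x : ℤ → K → G) (τ : K → K),
    Pre S e w x τ := by
  letI : CommGroup (S.U 3) := { (inferInstance : Group (S.U 3)) with
    mul_comm := fun a b => Subtype.ext (h.U_comm a.2 b.2) }
  let φ : S.U 1 → Additive (S.U 3) →+ Additive (S.U 3) := fun x => AddMonoidHom.mk'
    (fun s => Additive.ofMul ⟨ph S w x s.toMul, ph_mem h B x.2 s.toMul.2⟩)
    fun s t => congrArg Additive.ofMul (Subtype.ext (ph_mul _ _ _))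
  have o3 : Odd (3 : ℤ) := by decide
  let e3 : Additive (S.U 3) := Additive.ofMul ⟨e 3, B.eU o3⟩
  have hi : Injective fun b => φ b e3 := fun b b' c => by
    have c' : ph S w b (e 3) = ph S w b' (e 3) := congrArg (fun s : Additive (S.U 3) => (s.toMul : G)) c
    have := ph_add h B (mul_mem b.2 (inv_mem b'.2)) b'.2 (B.eU o3)
    rw [inv_mul_cancel_right, c', right_eq_mul] at this
    exact Subtype.ext (mul_inv_eq_one.1 ((ph_eq this).resolve_right (B.e1 o3)))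
  obtain ⟨K, _, _, X, X1, hX⟩ := exists_field φ (e := e3)
    (fun c => B.e1 o3 (congrArg (fun s : Additive (S.U 3) => (s.toMul : G)) c))
    (hi.bijective_of_nat_card_le (h.card_U 3 1).le).2
    (fun b b' a => congrArg Additive.ofMul (Subtype.ext (ph_comm h B b.2 b'.2 a.toMul.2)))
    fun b a c => (ph_eq (congrArg (fun s : Additive (S.U 3) => (s.toMul : G)) c)).imp
      (fun c : b.1 = 1 => congrArg Additive.ofMul
        (Subtype.ext ((congrArg (ph S w · (e 3)) c).trans (ph_one _))))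
      fun c => congrArg Additive.ofMul (Subtype.ext c)
  let Y : K → G := fun t => (X t).toMul
  have hY : ∀ t, Y t ∈ S.U 3 := fun t => (X t).toMul.2
  have A : ∀ {k}, Odd k → Act S (w ((k - 5) / 2)) fun j => k + 3 - j := fun hk =>
    B.act h.toRK _ _ (by have := Int.odd_iff.1 hk; omega)
  have Y7 : ∀ t, cn (Y t) (w (-1)) = Y t := fun t => by rw [B.pw (k := 7) (by decide), cn7 h B (hY t)]
  have m1 : ∀ t, cn (Y t) (w ((1 - 5) / 2)) ∈ S.U 1 := fun t => (A odd_one).mU (hY t)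
  refine ⟨K, _, inferInstance, fun k t => cn (Y t) (w ((k - 5) / 2)), fun t => X.symm (φ ⟨_, m1 t⟩ e3),
    fun {k u} hk => ⟨fun hu => ?_, ?_⟩, fun _ s t => ?_, fun _ c => ?_, fun hk => ?_, fun {j k} hj c => ?_,
    fun {j} k hj t => ?_, fun t s => ?_⟩
  · have : cn u (w ((k - 5) / 2))⁻¹ ∈ S.U 3 := (A hk 3 _).1.1 (by simpa using hu)
    exact ⟨X.symm (Additive.ofMul ⟨_, this⟩), by simp [Y]⟩
  · rintro ⟨t, rfl⟩
    simpa using (A hk).mU (hY t)
  · simp [Y, cn_mul]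
  · exact X.map_eq_zero_iff.1 (congrArg Additive.ofMul (Subtype.ext (by_contra fun n => cn_ne n _ c)))
  · simp only [Y, X1]
    exact B.ce' _ _ _ (by have := Int.odd_iff.1 hk; omega)
  · rw [B.pw (k := (k - 5) / 2) (by have := Int.odd_iff.1 hj; omega)]
  · rw [cn_cn]
    conv_lhs => rw [← Y7, cn_cn, ← mul_assoc, B.www h.toO8]
    exact congrArg _ (B.pw (by have := Int.odd_iff.1 hj; omega))
  · exact (congrArg _ (Y7 s)).trans ((congrArg (fun s : Additive (S.U 3) => (s.toMul : G))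
      (hX ⟨_, m1 t⟩ s)).trans (Y7 _).symm)

variable {K : Type*} [Field K] [Finite K] {X : ℤ → K → G} {τ : K → K} (P : Pre S e w X τ)
include P

omit h B in
theorem Pre.zero (hk : Odd k) : X k 0 = 1 := by simpa using P.add hk 0 0

omit h B in
theorem Pre.ne {t : K} (hk : Odd k) (ht : t ≠ 0) : X k t ≠ 1 := fun c => ht (P.inj hk c)

omit h B in
theorem Pre.mU (hk : Odd k) (t : K) : X k t ∈ S.U k := (P.mem hk).2 ⟨t, rfl⟩

omit h B in
theorem Pre.injective (hk : Odd k) : Injective (X k) := fun s t c => by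
  have := P.add hk (s - t) t
  rw [sub_add_cancel, c, right_eq_mul] at this
  exact sub_eq_zero.1 (P.inj hk this)

omit h B in
theorem Pre.h3' {t : K} (ht : t ≠ 0) (s : K) : cn (X 3 s) (w 1 * S.mu (X 1 t)) = X 3 (τ t * s) :=
  (ph_ne (P.ne odd_one ht) _).symm.trans (P.h3 t s)

omit h B in
theorem Pre.τ_eq {t : K} : τ t = 0 ↔ t = 0 := by
  have o3 : Odd (3 : ℤ) := by decide
  have := P.h3 t 1
  rw [mul_one] at this
  refine ⟨fun c => ?_, fun c => P.inj o3 (by rw [← this, c, P.zero odd_one, ph_one])⟩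
  rw [c, P.zero o3] at this
  exact P.inj odd_one ((ph_eq this).resolve_right (P.ne o3 one_ne_zero))

theorem Pre.τ_add (s t : K) : τ (s + t) = τ s + τ t := P.injective (k := 3) (by decide) (by
  rw [P.add (by decide), ← mul_one (τ _), ← mul_one (τ s), ← mul_one (τ t), ← P.h3, ← P.h3, ← P.h3,
    P.add odd_one, ph_add h B (P.mU odd_one s) (P.mU odd_one t) (P.mU (by decide) 1)])

theorem Pre.H1 : w 1 * S.mu (X 1 1) = 1 := by rw [P.one odd_one, B.we odd_one, B.ww h.toO8]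

theorem Pre.τ_one : τ 1 = 1 := P.injective (k := 3) (by decide) (by
  rw [← mul_one (τ 1), ← P.h3' one_ne_zero, P.H1 h B, cn_one])

theorem Pre.cm17 {s u : K} (hs : s ≠ 0) (hu : u ≠ 0) :
    cm (X 1 s) (X 7 u) = X 3 (τ s * u) * X 5 (τ u * s) := by
  have o7 : Odd (7 : ℤ) := by decide
  have k : ∀ {s}, s ≠ 0 → ∀ u, cn (X 7 u) (S.mu (X 1 s)) = X 3 (τ s * u) := fun hs u => by
    rw [← P.h3' hs, ← cn_cn, P.cx 1 (by decide)]
    rfl
  have := congrArg (cn · (w 0)) (k hu s)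
  rw [cn_conj, ← h.mu_cn_neg (B.act h.toRK 0 8) (P.mU odd_one u) (P.ne odd_one hu), P.cx 0 o7,
    P.cx 0 odd_one, P.cx 0 (by decide)] at this
  rw [h.s17 (P.mU odd_one s) (P.ne odd_one hs) (P.mU o7 u) (P.ne o7 hu), k hs]
  exact congrArg _ this

theorem Pre.key {t s : K} (ht : t ≠ 0) (hs : s ≠ 0) : ∃ s', cn (X 1 s) (w 1 * S.mu (X 1 t)) = X 1 s' ∧
    ∀ u, u ≠ 0 → τ s' * ((τ t)⁻¹ * u) = τ t * (τ s * u) ∧ τ ((τ t)⁻¹ * u) * s' = τ u * s := by
  have o3 : Odd (3 : ℤ) := by decide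
  have o5 : Odd (5 : ℤ) := by decide
  have m := P.mU odd_one t
  have n := P.ne odd_one ht
  have c0 := P.τ_eq.not.2 ht
  obtain ⟨s', e1⟩ := (P.mem odd_one).1 ((actH h B m n).mU (P.mU odd_one s))
  have s0 : s' ≠ 0 := fun c => cn_ne (P.ne odd_one hs) _ (by rw [e1, c, P.zero odd_one])
  refine ⟨s', e1, fun u hu => ?_⟩
  have e2 : cn (X 7 u) (w 1 * S.mu (X 1 t)) = X 7 ((τ t)⁻¹ * u) := by
    have a1 : X 7 u = cn (X 3 u) (w 1) := (P.cx 1 o3 u).symm
    have a2 : X 7 ((τ t)⁻¹ * u) = cn (X 3 ((τ t)⁻¹ * u)) (w 1) := (P.cx 1 o3 _).symm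
    rw [a1, a2, cn_cn, ← mul_assoc, B.ww h.toO8, one_mul]
    conv_lhs => rw [← mul_inv_cancel_left₀ c0 u, ← P.h3' ht, cn_cn, mul_assoc, h.muU_sq m n, mul_one]
  have e3 : ∀ r, cn (X 5 r) (w 1 * S.mu (X 1 t)) = X 5 r := fun r => cn_of_comm (comm_mul
    (B.we odd_one ▸ cz h (P.mU o5 r) (B.eU odd_one) (B.e1 odd_one)) (cz h (P.mU o5 r) m n))
  have e4 := congrArg (cn · (w 1 * S.mu (X 1 t))) (P.cm17 h B hs hu)
  rw [cn_cm, cn_mul, e1, e2, e3, P.h3' ht, P.cm17 h B s0 (mul_ne_zero (inv_ne_zero c0) hu)] at e4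
  have := h.inj2 (P.mU o3 _) (P.mU o3 _) (P.mU o5 _) (P.mU o5 _) e4
  exact ⟨P.injective o3 this.1, P.injective o5 this.2⟩

theorem Pre.τ_surj : Surjective τ :=
  Finite.surjective_of_injective fun s t c => sub_eq_zero.1 (P.τ_eq.1 (by
    have := P.τ_add h B (s - t) t
    rwa [sub_add_cancel, c, right_eq_add] at this))

theorem Pre.τ_mul (d u : K) : τ (d * u) = τ d * τ u := by
  rcases eq_or_ne d 0 with rfl | hd
  · rw [zero_mul, P.τ_eq.2 rfl, zero_mul]
  rcases eq_or_ne u 0 with rfl | hu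
  · rw [mul_zero, P.τ_eq.2 rfl, mul_zero]
  obtain ⟨t, ht⟩ := P.τ_surj h B d⁻¹
  obtain ⟨s', -, k⟩ := P.key h B (P.τ_eq.not.1 (ht ▸ inv_ne_zero hd)) one_ne_zero
  have k1 := (k 1 one_ne_zero).2
  have k2 := (k u hu).2
  rw [ht, inv_inv] at k1 k2
  rw [mul_one, P.τ_one h B] at k1
  linear_combination τ d * k2 - τ (d * u) * k1

theorem Pre.key' {t s : K} (ht : t ≠ 0) (hs : s ≠ 0) :
    cn (X 1 s) (w 1 * S.mu (X 1 t)) = X 1 (τ (τ t) * s) ∧ τ (τ (τ t) * s) = τ t ^ 2 * τ s := by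
  obtain ⟨s', e1, k⟩ := P.key h B ht hs
  obtain ⟨k1, k2⟩ := k 1 one_ne_zero
  have c0 := P.τ_eq.not.2 ht
  have k3 := P.τ_mul h B (τ t) (τ t)⁻¹
  rw [mul_inv_cancel₀ c0, P.τ_one h B] at k3
  rw [mul_one, P.τ_one h B] at k2
  obtain rfl : s' = τ (τ t) * s := by linear_combination τ (τ t) * k2 + s' * k3
  refine ⟨e1, ?_⟩
  field_simp at k1
  linear_combination k1

theorem Pre.τ_sq (r : K) : τ (τ r) = r ^ 2 := by
  obtain ⟨t, rfl⟩ := P.τ_surj h B r
  rcases eq_or_ne t 0 with rfl | ht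
  · simp only [P.τ_eq.2 rfl]
    simp
  · simpa [P.τ_one h B] using (P.key' h B ht one_ne_zero).2

theorem Pre.h1 {t : K} (ht : t ≠ 0) (s : K) : cn (X 1 s) (w 1 * S.mu (X 1 t)) = X 1 (t ^ 2 * s) := by
  rcases eq_or_ne s 0 with rfl | hs
  · rw [mul_zero, P.zero odd_one, one_cn]
  · rw [← P.τ_sq h B, (P.key' h B ht hs).1]

theorem Pre.hm {s t : K} (hs : s ≠ 0) (ht : t ≠ 0) :
    w 1 * S.mu (X 1 (s * t)) = w 1 * S.mu (X 1 s) * (w 1 * S.mu (X 1 t)) := by
  obtain ⟨γ, hγ⟩ := IsCyclic.exists_monoid_generator (α := Kˣ)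
  have m := P.mU odd_one γ
  have n := P.ne odd_one γ.ne_zero
  have k : ∀ a : ℕ, w 1 * S.mu (X 1 (γ ^ a)) = (w 1 * S.mu (X 1 γ)) ^ a := fun a => by
    induction a using Nat.twoStepInduction with
    | zero => rw [pow_zero, pow_zero, P.H1 h B]
    | one => rw [pow_one, pow_one]
    | more a ih _ =>
      rw [pow_add, mul_comm ((γ : K) ^ a), ← P.h1 h B γ.ne_zero, h.mu_cn_id (actH h B m n) (P.mU odd_one _)
        (P.ne odd_one (pow_ne_zero a γ.ne_zero)), pow_succ, pow_succ', ← ih, cn, mul_inv_rev,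
        inv_eq_of_mul_eq_one_left (B.ww h.toO8 1), inv_eq_of_mul_eq_one_left (h.muU_sq m n)]
      simp only [mul_assoc]
  obtain ⟨a, ha⟩ := hγ (Units.mk0 s hs)
  obtain ⟨b, hb⟩ := hγ (Units.mk0 t ht)
  obtain rfl : (γ : K) ^ a = s := by simpa using congrArg Units.val ha
  obtain rfl : (γ : K) ^ b = t := by simpa using congrArg Units.val hb
  rw [← pow_add, k, k, k, pow_add]

end C1

variable {G : Type u} [Group G] [Finite G] {S : Sys G}

namespace O1

variable (h : O1 S)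
include h

variable {e f g w : ℤ → G} (B : Base S e f g w)
include B

theorem exists_fld : ∃ (K : Type u) (_ : Field K) (_ : TwF K) (_ : Finite K) (x : ℤ → K → G), Fld S e w x := by
  obtain ⟨K, _, _, x, τ, P⟩ := C1.exists_pre h B
  let this : TwF K := ⟨⟨⟨⟨τ, P.τ_one h B⟩, P.τ_mul h B⟩, P.τ_eq.2 rfl, P.τ_add h B⟩, P.τ_sq h B⟩
  exact ⟨K, _, this, inferInstance, x,
    P.mem, P.add, P.inj, P.one, P.per, P.cx, P.h1 h B, P.h3', P.hm h B⟩

end O1

end Cfsg.Lib.MO
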