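import Cfsg.Agent.MO.I3
import Cfsg.Agent.MO.B0
import Mathlib.Tactic.FieldSimp
import Mathlib.RingTheory.SimpleRing.Basic
import Mathlib.Data.Fintype.EquivFin

/-!
# Moufang octagons: coordinates on the even root groups and the torus
-/

set_option autoImplicit false

namespace Cfsg.Lib.MO

open Cfsg.Lib.Oct (TwF σ σσ)

variable {G : Type*} [Group G] {S : Sys G} {K : Type*} [Field K] [TwF K]
variable {e f g w : ℤ → G} {x : ℤ → K → G} {j k : ℤ}

namespace C2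

/-- Coordinates on the central root elements. -/
def X (f w : ℤ → G) (x : ℤ → K → G) (k : ℤ) (c : K) : G :=
  if k % 2 = 1 then x k c else cn (cm (f 2) (x 7 c)) (w ((k - 4) / 2))

open Classical in
/-- Coordinates on the even root groups modulo the central root elements. -/
noncomputable def Y (S : Sys G) (X : ℤ → K → G) (k : ℤ) (t : K) : G :=
  if t = 0 then 1 else S.la (X (k + 8) (t * σ t)⁻¹)

/-- The weight of `τ` on the root group `k`. -/
def Wt (X : ℤ → K → G) (τ : G) (k : ℤ) (a : K) : Prop := ∀ c, cn (X k c) τ = X k (a * c)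

/-- Coordinates without the torus. -/
structure Pre (S : Sys G) (f w : ℤ → G) (x X : ℤ → K → G) : Prop where
  odd : ∀ {k}, k % 2 = 1 → X k = x k
  four : ∀ c, X 4 c = cm (f 2) (x 7 c)
  memV : ∀ {k u}, k % 2 = 0 → (u ∈ S.V k ↔ ∃ t, u = X k t)
  add : ∀ k s t, X k (s + t) = X k s * X k t
  inj : ∀ {k t}, X k t = 1 → t = 0
  xf : ∀ {k}, k % 2 = 0 → X k 1 = f k
  px : ∀ {j k}, (k - j) % 16 = 0 → X j = X k
  cx : ∀ j k t, cn (X j t) (w k) = X (2 * k + 8 - j) t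

omit [TwF K] in
theorem Wt.mul {X : ℤ → K → G} {τ τ' : G} {a b : K} (h : Wt X τ k a) (h' : Wt X τ' k b) :
    Wt X (τ * τ') k (a * b) := fun c => by rw [← cn_cn, h, h', mul_left_comm, mul_assoc]

omit [TwF K] in
theorem Wt.inv {X : ℤ → K → G} {τ : G} {a : K} (h : Wt X τ k a) (ha : a ≠ 0) : Wt X τ⁻¹ k a⁻¹ := fun c => by
  conv_lhs => rw [← mul_inv_cancel_left₀ ha c, ← h, cn_cn_inv]

omit [TwF K] in
theorem Wt.of_eq {X : ℤ → K → G} {τ : G} {a b : K} (h : Wt X τ k a) (e : a = b) : Wt X τ k b := e ▸ h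

variable [Finite G] (h : O1 S) (B : Base S e f g w)
include h B

omit [Finite G] in
theorem w0 {v : G} (hv : v ∈ S.V 4) : cn v (w 0) = v := by
  rw [← B.wf (k := 0) (by decide)]
  exact h.mu_comm (h.V_le (B.fV (by decide))) (B.f1 (by decide)) (h.vc hv (h.V_le (B.fV (by decide))))
    fun y hy => h.vc hv hy

variable (F : Fld S e w x)
include F

theorem pre : Pre S f w x (X f w x) := by
  have f2 : f 2 ∈ S.V 2 := B.fV (by decide)
  have x7 : ∀ c, x 7 c ∈ S.U 7 := fun c => (F.mem (by decide)).2 ⟨c, rfl⟩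
  have m4 : ∀ c, cm (f 2) (x 7 c) ∈ S.V 4 := fun c => h.vB_mem f2 (x7 c)
  have od : ∀ {k}, k % 2 = 1 → X f w x k = x k := fun hk => funext fun c => if_pos hk
  have ev : ∀ {k}, k % 2 = 0 → ∀ c, X f w x k c = cn (cm (f 2) (x 7 c)) (w ((k - 4) / 2)) :=
    fun hk c => if_neg (by omega)
  refine ⟨od, fun c => (ev (by decide) c).trans (w0 h B (m4 c)), fun {k u} hk => ?_, fun k s t => ?_,
    fun {k t} ht => ?_, fun {k} hk => ?_, fun {j k} H => ?_, fun j k t => ?_⟩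
  · have a := B.act h.toRK ((k - 4) / 2) (k + 4)
    refine ⟨fun hu => ?_, ?_⟩
    · obtain ⟨y, hy, e⟩ := h.surjB f2 (B.f1 (by decide))
        ((a 4 (cn u (w ((k - 4) / 2))⁻¹)).2.1 (by simpa using hu))
      obtain ⟨t, rfl⟩ := (F.mem (by decide)).1 hy
      exact ⟨t, by rw [ev hk, e, cn_inv_cn]⟩
    · rintro ⟨t, rfl⟩
      simpa [ev hk] using a.mV (m4 t)
  · rcases Int.emod_two_eq_zero_or_one k with hk | hk
    · rw [ev hk, ev hk, ev hk, ← cn_mul, F.add (by decide), cm_mul_right,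
        cn_of_comm (h.vc (m4 s) (x7 t)), h.vc (m4 t) (h.V_le (m4 s))]
    · rw [od hk, F.add (Int.odd_iff.2 hk)]
  · rcases Int.emod_two_eq_zero_or_one k with hk | hk
    · rw [ev hk] at ht
      exact F.inj (by decide) ((h.vB_inj f2 (x7 t) (cm_eq_one.1 (cn_inj (ht.trans (one_cn _).symm)))).resolve_left
        (B.f1 (by decide)))
    · rw [od hk] at ht
      exact F.inj (Int.odd_iff.2 hk) ht
  · rw [ev hk, F.one (by decide), h.vB f2 (B.eU (by decide)) (B.e1 (by decide)), B.we (by decide),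
      B.cf' 2 7 4, B.cf' 4 _ k]
  · rcases Int.emod_two_eq_zero_or_one j with hj | hj
    · funext c
      rw [ev hj, ev (by omega), B.pw (k := (k - 4) / 2) (by omega)]
    · rw [od hj, od (by omega), F.per (Int.odd_iff.2 hj) H]
  · rcases Int.emod_two_eq_zero_or_one j with hj | hj
    · rw [ev hj, ev (by omega), ← w0 h B (m4 t), cn_cn, cn_cn, ← mul_assoc, B.www h.toO8, w0 h B (m4 t)]
      congr 2
      omega
    · rw [od hj, od (by omega), F.cx k (Int.odd_iff.2 hj)]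

variable {X : ℤ → K → G} (P : Pre S f w x X)
include P

omit [Finite G] B F [TwF K] in
theorem memU (hk : k % 2 = 0) (t : K) : X k t ∈ S.U k := h.V_le ((P.memV hk).2 ⟨t, rfl⟩)

omit [Finite G] h B F [TwF K] in
theorem zero (k : ℤ) : X k 0 = 1 := by simpa using P.add k 0 0

omit [Finite G] h B F [TwF K] in
theorem inj' {s t : K} (e : X k s = X k t) : s = t := by
  have := P.add k (s - t) t
  rw [sub_add_cancel, e, right_eq_mul] at this
  exact sub_eq_zero.1 (P.inj this)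

omit [Finite G] h B F [TwF K] in
theorem Wt.cn {τ : G} {a : K} (H : Wt X τ j a) (m k : ℤ) (e : (k + j - 2 * m - 8) % 16 = 0 := by omega) :
    Wt X (w m * τ * w m) k a := fun c => by
  rw [← cn_cn, ← cn_cn, P.cx, P.px (k := j) (by omega), H, P.cx, P.px (k := k) (by omega)]

omit B F in
theorem Wt.y {τ : G} {a b : K} (hτ : Act S τ fun j => j) (H : Wt X τ j a) (k : ℤ) (hb : b ≠ 0)
    (e : a = (b * σ b)⁻¹) (ek : k % 2 = 0 ∧ (k + 8 - j) % 16 = 0 := by omega) (t : K) :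
    MO.cn (Y S X k t) τ = Y S X k (b * t) := by
  unfold Y
  by_cases ht : t = 0
  · simp [ht]
  have : σ t ≠ 0 := (map_ne_zero σ).2 ht
  rw [if_neg ht, if_neg (mul_ne_zero hb ht), ← P.px ek.2, ← (h.ka_cn (c := 0) (.inl rfl) (fun _ => by ring) hτ
    (memU h P (by omega) _) fun e => by simpa [ht] using P.inj e).2, H, e, map_mul]
  congr 2
  field_simp

theorem wts {t : K} (ht : t ≠ 0) : ∃ τ, (Act S τ fun j => j) ∧ Wt X τ 1 (t ^ 2) ∧ Wt X τ 2 (t * σ t) ∧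
    Wt X τ 3 (σ t) ∧ Wt X τ 4 t ∧ Wt X τ 5 1 ∧ (∀ {j a}, Wt X τ j a → ∀ k, (k + j - 2) % 16 = 0 → Wt X τ k a) ∧
    ∀ {j a}, Wt X τ j a → a ≠ 0 → ∀ k, (k + j - 10) % 16 = 0 → Wt X τ k a⁻¹ := by
  have xU : ∀ {k}, k % 2 = 1 → ∀ c, x k c ∈ S.U k := fun hk c => (F.mem (Int.odd_iff.2 hk)).2 ⟨c, rfl⟩
  have xn : ∀ {k}, k % 2 = 1 → ∀ {c}, c ≠ 0 → x k c ≠ 1 := fun hk c hc e => hc (F.inj (Int.odd_iff.2 hk) e)
  have eU : ∀ {k}, k % 2 = 1 → e k ∈ S.U k := fun hk => B.eU (Int.odd_iff.2 hk)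
  have en : ∀ {k}, k % 2 = 1 → e k ≠ 1 := fun hk => B.e1 (Int.odd_iff.2 hk)
  have act : ∀ {c}, c ≠ 0 → Act S (w 1 * S.mu (x 1 c)) fun j => j := fun hc => by
    rw [← B.we (by decide)]
    exact h.act2 (eU rfl) (en rfl) (xU rfl _) (xn rfl hc)
  have k7 : ∀ {c v}, c ≠ 0 → v ∈ S.V 4 → MO.cn v (w 7 * S.mu (x 7 c)) = MO.cn v (w 1 * S.mu (x 1 c)) := by
    intro c v hc hv
    have e1 : x 7 c = MO.cn (x 1 c) (w 0) := (F.cx (j := 1) 0 (by decide) c).symm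
    have e2 : w 7 = MO.cn (w 1) (w 0) := by
      rw [MO.cn, inv_eq_of_mul_eq_one_right (B.ww h.toO8 0), B.www h.toO8]
      exact B.pw (by decide)
    rw [e1, h.mu_cn_neg (B.act h.toRK 0 8) (xU rfl c) (xn rfl hc), e2, ← cn_mul, ← w0 h B hv, ← cn_conj,
      w0 h B hv, w0 h B ((act hc).mV hv)]
  have x4 : ∀ {c}, c ≠ 0 → X 4 c = MO.cn (f 4) (w 1 * S.mu (x 1 c)) := fun hc => by
    rw [P.four, h.vB (B.fV (by decide)) (xU rfl _) (xn rfl hc), ← B.cf' 4 7 2, cn_cn, k7 hc (B.fV (by decide))]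
  have t4 : ∀ {t}, t ≠ 0 → Wt X (w 1 * S.mu (x 1 t)) 4 t := fun {t} ht c => by
    by_cases hc : c = 0
    · simp [hc, zero P]
    · rw [x4 hc, x4 (mul_ne_zero ht hc), cn_cn, mul_comm t c, F.hm hc ht]
  have c27 : ∀ a {c}, c ≠ 0 → cm (X 2 a) (x 7 c) = X 4 (c * a) := fun a c hc => by
    rw [h.vB ((P.memV rfl).2 ⟨a, rfl⟩) (xU rfl _) (xn rfl hc), P.px (k := 2 * 7 + 8 - 4) rfl, ← P.cx, cn_cn,
      k7 hc ((P.memV rfl).2 ⟨a, rfl⟩), t4 hc]
  have c5 : ∀ {y z}, y ∈ S.U 5 → z ∈ S.U 1 → z ≠ 1 → MO.cn y (S.mu z) = y := fun hy hz z1 =>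
    h.mu_comm hz z1 (h.c4 hz hy).symm fun _ hu => h.c4 hy hu
  have c5' : ∀ {y}, y ∈ S.U 5 → MO.cn y (w 1 * S.mu (x 1 t)) = y := fun hy => by
    rw [← cn_cn, ← B.we (by decide), c5 hy (eU rfl) (en rfl), c5 hy (xU rfl _) (xn rfl ht)]
  have sB : w 5 * (w 1 * S.mu (x 1 t)) * w 5 = w 1 * S.mu (x 1 t) := by
    have := h.mu_cn_id (act ht) (eU (k := 5) rfl) (en rfl)
    rw [c5' (eU rfl), B.we (by decide), eq_comm, cn_eq_iff] at this
    rw [this, mul_assoc, B.ww h.toO8, mul_one]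
  have sA : w 1 * (w 1 * S.mu (x 1 t))⁻¹ * w 1 = w 1 * S.mu (x 1 t) := by
    rw [mul_inv_rev, inv_eq_of_mul_eq_one_right (h.muU_sq (xU rfl t) (xn (k := 1) rfl ht)), mul_assoc,
      inv_mul_cancel_right]
  have A : ∀ {j a}, Wt X (w 1 * S.mu (x 1 t)) j a → a ≠ 0 → ∀ k, (k + j - 10) % 16 = 0 →
      Wt X (w 1 * S.mu (x 1 t)) k a⁻¹ := fun H ha k e => sA ▸ (H.inv ha).cn P 1 k
  have st : σ t ≠ 0 := (map_ne_zero σ).2 ht
  have t3 : Wt X (w 1 * S.mu (x 1 t)) 3 (σ t) := fun c => by rw [P.odd rfl, F.h3 ht]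
  refine ⟨_, act ht, fun c => by rw [P.odd rfl, F.h1 ht], fun a => ?_, t3, t4 ht, fun c => ?_,
    fun H k e => sB ▸ H.cn P 5 k, A⟩
  · obtain ⟨a', e1⟩ := (P.memV rfl).1 ((act ht).mV ((P.memV (k := 2) rfl).2 ⟨a, rfl⟩))
    have e2 := congrArg (MO.cn · (w 1 * S.mu (x 1 t))) (c27 a one_ne_zero)
    have e3 := A t3 st 7 rfl 1
    rw [P.odd rfl, mul_one] at e3
    simp only [cn_cm] at e2
    rw [e1, e3, t4 ht, c27 _ (inv_ne_zero st)] at e2
    rw [e1, mul_right_comm, ← one_mul a, ← inj' P e2]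
    congr 1
    field_simp
  · rw [P.odd rfl, one_mul, c5' (xU rfl c)]

theorem tor [Finite K] {a b : K} (ha : a ≠ 0) (hb : b ≠ 0) : ∃ τ, Tor X (Y S X) a b τ := by
  obtain ⟨t, rfl⟩ : ∃ t, t ^ 2 = a := by
    obtain ⟨t, e⟩ := Finite.surjective_of_injective (((σ : K →+* K).comp σ).injective) a
    exact ⟨t, by simpa using e⟩
  have ht : t ≠ 0 := fun e => ha (by simp [e])
  have st : σ t ≠ 0 := (map_ne_zero σ).2 ht
  have sb : σ b ≠ 0 := (map_ne_zero σ).2 hb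
  have hs : b * t * (σ b * σ t) ≠ 0 := by simp [*]
  have ss : σ (b * t * (σ b * σ t)) ≠ 0 := (map_ne_zero σ).2 hs
  obtain ⟨τ, aτ, t1, t2, t3, t4, t5, tB, tA⟩ := wts h B F P ht
  obtain ⟨ρ, aρ, s1, s2, s3, s4, s5, sB, sA⟩ := wts h B F P hs
  have act : Act S (τ * (w 7 * ρ * w 7)) fun j => j :=
    (aτ.mul (((B.act h.toRK 7 6).mul aρ).mul (B.act h.toRK 7 6))).congr fun _ => by ring
  have n2 := mul_ne_zero ht st
  have m2 := mul_ne_zero hs ss
  refine ⟨τ * (w 7 * ρ * w 7), (t1.mul (s5.cn P 7 1)).of_eq ?_,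
    ((tB t2 0 rfl).mul ((sA s4 hs 6 rfl).cn P 7 0)).y h P act 8 hb ?_,
    ((tA (tB t2 0 rfl) n2 10 rfl).mul ((sA (sB s4 14 rfl) hs 12 rfl).cn P 7 10)).y h P act 2 (by simp [*]) ?_,
    ((tA t2 n2 8 rfl).mul ((sB s4 14 rfl).cn P 7 8)).of_eq ?_,
    ((tB t4 14 rfl).mul ((sA s2 m2 8 rfl).cn P 7 14)).y h P act 6 (by simp [*]) ?_,
    ((tA (tB t4 14 rfl) ht 12 rfl).mul ((sA (sB s2 0 rfl) m2 10 rfl).cn P 7 12)).y h P act 4 (by simp [*]) ?_,
    ((tA t3 st 7 rfl).mul ((sB s3 15 rfl).cn P 7 7)).of_eq ?_,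
    (t2.mul (s4.cn P 7 2)).of_eq ?_, (t3.mul (s3.cn P 7 3)).of_eq ?_, (t5.mul (s1.cn P 7 5)).of_eq ?_,
    ((tA t4 ht 6 rfl).mul ((sB s2 0 rfl).cn P 7 6)).of_eq ?_, (t4.mul (s2.cn P 7 4)).of_eq ?_⟩
  all_goals
    try simp only [map_mul, map_pow, σσ]
    field_simp

end C2

theorem O1.exists_crd [Finite G] [Finite K] (h : O1 S) (B : Base S e f g w) (F : Fld S e w x) :
    ∃ x y : ℤ → K → G, Crd S e f g w x y := by
  obtain ⟨X, P⟩ : ∃ X, C2.Pre S f w x X := ⟨_, C2.pre h B F⟩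
  have n1 : ∀ k {t : K}, t ≠ 0 → X k (t * σ t)⁻¹ ≠ 1 := fun k t ht e => by simpa [ht] using P.inj e
  refine ⟨X, C2.Y S X, fun hk => by rw [P.odd (Int.odd_iff.1 hk), F.mem hk], fun hk => P.memV (Int.even_iff.1 hk),
    fun {k} hk t => ?_, P.add, P.inj, fun hk => by rw [P.odd (Int.odd_iff.1 hk), F.one hk],
    fun hk => P.xf (Int.even_iff.1 hk), fun {k} hk => ?_, fun k => if_pos rfl, P.px, fun {j k} _ H => ?_, P.cx,
    fun {j} k hj t => ?_, C2.tor h B F P⟩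
  · have := Int.even_iff.1 hk
    unfold C2.Y
    split_ifs with ht
    exacts [one_mem _, h.laU (C2.memU h P (by omega) _) (n1 _ ht) k]
  · have := Int.even_iff.1 hk
    rw [C2.Y, if_neg one_ne_zero, map_one, mul_one, inv_one, P.xf (by omega), B.lf (Int.even_iff.2 (by omega))]
    exact B.pg (Int.even_iff.2 (by omega)) (by omega)
  · funext t
    rw [C2.Y, C2.Y, P.px (k := k + 8) (by omega)]
  · have := Int.even_iff.1 hj
    unfold C2.Y
    split_ifs with ht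
    · exact one_cn _
    · rw [← (h.ka_cn (c := 2 * k + 8) (.inr rfl) (fun _ => by ring) (B.act h.toRK k (2 * k + 8))
        (C2.memU h P (by omega) _) (n1 _ ht)).2, P.cx, P.px (k := 2 * k + 8 - j + 8) (by omega)]

end Cfsg.Lib.MO
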