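import Cfsg.Agent.MO.D8
import Mathlib.GroupTheory.Nilpotent

/-!
# Moufang octagons: central root elements
-/

set_option autoImplicit false

namespace Cfsg.Lib.MO

universe u

variable {G : Type u} [Group G] [Finite G] {S : Sys G} {a c t v x y : G}

omit [Finite G] in
theorem cen_comm {H : Subgroup G} (e : ∀ y ∈ H, v * y = y * v) (hn : cn y a⁻¹ ∈ H) :
    cn v a * y = y * cn v a := by
  have := comm_cn (e _ hn) a
  rwa [cn_inv_cn] at this

theorem RK.cen_four (h : RK 8 S) (hv : v ∈ S.U 4) (v1 : v ≠ 1)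
    (H : ∀ y ∈ I S.U 1 8, v * y = y * v) : O8 S := by
  have hV : v ∈ S.V 4 := h.V_of hv fun j e1 e2 x hx => by
    by_cases e : 1 ≤ j
    · exact H x (mem_I hx e (by omega))
    obtain rfl : j = 0 := by omega
    by_cases x1 : x = 1
    · rw [x1, one_mul, mul_one]
    obtain ⟨r, hr, e3⟩ := h.cn_top hv (mem_I hx (i := 0) le_rfl (by omega)) (by omega)
    obtain ⟨t, ht, t1⟩ := h.exists_ne 7
    have e4 : cn v x * t = t * cn v x := cen_comm H (I_mono (h.cn_U (inv_mem hx)
      (mem_I ht (i := 1) (j := 7) (by omega) le_rfl) (by omega) (by omega) (by omega) (by omega))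
      le_rfl (by omega))
    have e5 : r = cn v x * v⁻¹ := by rw [e3, mul_inv_cancel_right]
    have hr3 := h.bot_ge (k := 3) ht t1 hr (by omega) (by omega) (by omega) (by
      rw [e5]
      exact comm_mul e4.symm (comm_inv (H t (mem_I ht (by omega) (by omega))).symm))
    have e6 := RK.star' (S := S) (H _ (mem_I (h.kaU hx x1 8) (by omega) le_rfl))
    have hm := h.muU hx x1 hv 4
    obtain ⟨s, hs, e7⟩ := h.cn_bot hm (j := 8)
      (inv_mem (mem_I (h.laU hx x1 8) (by omega) le_rfl)) (by omega)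
    have hr4 : r ∈ I S.U 4 7 := by
      rw [e5, e6, e7]
      exact mul_mem (mul_mem (mem_I hm le_rfl (by omega)) (I_mono hs (by omega) (by omega)))
        (inv_mem (mem_I hv le_rfl (by omega)))
    rw [h.disj hr3 hr4 (by omega) (by omega) (by omega), one_mul] at e3
    exact cn_eq_iff.1 e3
  refine ⟨h, fun i hi e => ?_⟩
  obtain ⟨g, hg⟩ := h.exists_add (i - 4) (by have := Int.even_iff.1 hi; omega)
  have := hg.mV hV
  rw [show 4 + (i - 4) = i by ring, e] at this
  exact cn_ne v1 g this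

theorem RK.cen_split (h : RK 8 S) {p q : G} (hp : p ∈ S.U 4) (hq : q ∈ S.U 5) (q1 : q ≠ 1)
    (H : ∀ y ∈ I S.U 1 8, p * q * y = y * (p * q)) : p = 1 := by
  obtain ⟨g, hg⟩ := h.exists_add 4
  have h8 : cn p g ∈ S.U 8 := hg.mU hp
  have h9 : cn q g ∈ S.U 9 := hg.mU hq
  have n9 := cn_ne q1 g
  have H' : ∀ y ∈ I S.U 5 12, cn p g * cn q g * y = y * (cn p g * cn q g) := fun y hy => by
    rw [← cn_mul]
    exact cen_comm H (I_mono ((hg.inv (f' := fun j => j + -4) fun _ => by ring).I_add hy)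
      (by omega) (by omega))
  generalize cn p g = a at h8 H'
  generalize cn q g = b at h9 n9 H'
  have c58 : cm (p * q) b ∈ I S.U 5 8 := by
    rw [cm_mul_left]
    exact mul_mem (cn_mem (I_mono (h.cm_mem hp h9 (by omega) (by omega)) (by omega) (by omega))
      (mem_I hq le_rfl (by omega)))
      (I_mono (h.cm_mem hq h9 (by omega) (by omega)) (by omega) (by omega))
  obtain ⟨t, ht, t1⟩ := h.exists_ne 2
  have c56 := h.top_le (l := 6) ht t1 c58 (by omega) (by omega) (by omega) (by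
    rw [cm_eq]
    exact comm_mul (comm_inv (H t (mem_I ht (by omega) (by omega))).symm)
      (cen_comm H (I_mono (h.cn_U (inv_mem h9) (mem_I ht (i := 2) (j := 8) le_rfl (by omega))
        (by omega) (by omega) (by omega) (by omega)) (by omega) le_rfl)).symm)
  have e1 : ∀ y ∈ I S.U 5 11, y * cm p (a * b) = cm p (a * b) * y := fun y hy => by
    rw [cm_eq']
    exact comm_mul (comm_inv (cen_comm H' (I_mono (h.cn_U (inv_mem hp) hy (by omega) (by omega)
      (by omega) (by omega)) le_rfl (by omega))).symm) (H' y (I_mono hy le_rfl (by omega))).symm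
  have e2 : cm (p * q) b = cm p (a * b) := by
    have e3 := cm_mul_right (p * q) a b
    rw [cm_eq_one.2 (H a (mem_I h8 (by omega) le_rfl)), one_cn, mul_one, cm_mul_left,
      cm_eq_one.2 (H' q (mem_I hq le_rfl (by omega))).symm, mul_one,
      cn_of_comm (e1 q (mem_I hq le_rfl (by omega))).symm] at e3
    exact e3.symm
  obtain ⟨s, hs, s1⟩ := h.exists_ne 11
  have c78 := h.bot_ge (k := 7) hs s1 c58 (by omega) (by omega) (by omega) (by
    rw [e2]
    exact e1 s (mem_I hs (by omega) le_rfl))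
  have e4 := h.mu_comm h9 n9 (cm_eq_one.1 (h.disj c56 c78 (by omega) (by omega) (by omega)))
    fun y hy => H y (mem_I (h.pU hy 1 (by push_cast)) le_rfl (by omega))
  have e5 : p * q ∈ I S.U 5 6 := by
    rw [← e4, cn_mul]
    exact mul_mem (mem_I (h.muU h9 n9 hp 6) (by omega) le_rfl)
      (mem_I (h.muU h9 n9 hq 5) le_rfl (by omega))
  exact h.lo hp ((mul_mem_cancel_right (mem_I hq le_rfl (by omega))).1 e5) (by omega) (by omega)

theorem RG.exists_O8 {U : ℤ → Subgroup G} (h : RG 8 U) (hn : Group.IsNilpotent (I U 1 8)) :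
    ∃ S : Sys G, O8 S := by
  obtain ⟨S, rfl, h'⟩ := h.exists_RK
  clear h
  have h := h'
  obtain ⟨t, ht, t1⟩ := h.exists_ne 1
  obtain ⟨s, hs, s1⟩ := h.exists_ne 8
  have mt : t ∈ I S.U 1 8 := mem_I ht le_rfl (by omega)
  have ms : s ∈ I S.U 1 8 := mem_I hs (by omega) le_rfl
  have : Nontrivial (I S.U 1 8) := ⟨⟨t, mt⟩, 1, fun e => t1 (congrArg Subtype.val e)⟩
  obtain ⟨⟨v, hv⟩, hz, v1⟩ := (Subgroup.center (I S.U 1 8)).bot_or_exists_ne_one.resolve_left
    (Group.IsNilpotent.center_ne_bot _)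
  replace v1 : v ≠ 1 := fun e => v1 (Subtype.ext e)
  have H : ∀ y ∈ I S.U 1 8, v * y = y * v := fun y hy =>
    (congrArg Subtype.val (Subgroup.mem_center_iff.1 hz ⟨y, hy⟩)).symm
  have h1 := h.top_le (l := 5) ht t1 hv (by omega) (by omega) (by omega) (H t mt).symm
  have h2 := h.bot_ge (k := 4) hs s1 h1 (by omega) (by omega) (by omega) (H s ms).symm
  obtain ⟨p, hp, q, hq, rfl⟩ := h.dec2 h2
  by_cases q1 : q = 1
  · exact ⟨S, h.cen_four (by rwa [q1, mul_one]) v1 H⟩
  · refine ⟨S.rf 9, (h.rf 9).cen_four ?_ v1 fun y hy =>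
      H y (I_mono (I_rf.1 hy) (by omega) (by omega))⟩
    rw [h.cen_split hp hq q1 H, one_mul]
    exact hq

end Cfsg.Lib.MO
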