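import Cfsg.Agent.MO.Mu
import Cfsg.Agent.Oct.U0

/-!
# Moufang octagons: definitions and bookkeeping
-/

set_option autoImplicit false

namespace Cfsg.Lib.MO

open Cfsg.Lib.Oct (TwF σ)

variable {G G' : Type*} [Group G] [Group G'] {S : Sys G}
variable {i j k l c : ℤ} {a b g t v x y : G}

theorem rf_rf' (S : Sys G) (c d : ℤ) : (S.rf c).rf d = S.sh (c - d) := by
  simp only [Sys.rf, Sys.sh, show ∀ k, c - (d - k) = k + (c - d) from fun _ => by ring]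

/-- A family of graphs of isomorphisms between the root groups of two systems. -/
structure Diag (n : ℕ) (S : Sys G) (S' : Sys G') (D : ℤ → Subgroup (G × G')) : Prop where
  le : ∀ {k p}, p ∈ D k → p.1 ∈ S.U k ∧ p.2 ∈ S'.U k
  on1 : ∀ {k x}, x ∈ S.U k → ∃ y, (x, y) ∈ D k
  on2 : ∀ {k y}, y ∈ S'.U k → ∃ x, (x, y) ∈ D k
  gr : ∀ (i : ℤ) {p}, p ∈ I D i (i + n - 1) → (p.1 = 1 ↔ p.2 = 1)
  per : ∀ k : ℤ, D (k + 2 * n) = D k
  ka : ∀ {k : ℤ} {p}, p ∈ D k → p ≠ 1 → (S.ka p.1, S'.ka p.2) ∈ D (k + n)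
  lo : ∀ {i : ℤ} {p q}, p ∈ D i → q ∈ I D (i + 1) (i + n - 1) → cn q p ∈ I D (i + 1) (i + n - 1)
  hi : ∀ {i : ℤ} {p q}, p ∈ D (i + n) → q ∈ I D (i + 1) (i + n - 1) → cn q p ∈ I D (i + 1) (i + n - 1)

/-- Eight consecutive terms of a commutator sequence. -/
structure Sq (S : Sys G) (i : ℤ) (u1 u2 u3 u4 u5 u6 u7 u8 : G) : Prop where
  m1 : u1 ∈ S.U i
  m2 : u2 ∈ S.U (i + 1)
  m3 : u3 ∈ S.U (i + 2)
  m4 : u4 ∈ S.U (i + 3)
  m5 : u5 ∈ S.U (i + 4)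
  m6 : u6 ∈ S.U (i + 5)
  m7 : u7 ∈ S.U (i + 6)
  m8 : u8 ∈ S.U (i + 7)
  n1 : u1 ≠ 1
  n8 : u8 ≠ 1
  eq : cn u8 u1 = u2 * u3 * u4 * u5 * u6 * u7 * u8

/-- The degenerate commutator relation. -/
def Pos (S : Sys G) : Prop := ∀ a ∈ S.V 8, ∀ t ∈ S.U 2, cm a t ∈ I S.U 4 6

/-- The main case. -/
structure O1 (S : Sys G) : Prop extends O8 S where
  npos : ¬ Pos S

/-- The impossible case. -/
structure O2 (S : Sys G) : Prop extends O8 S where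
  pos : Pos S

/-- `d` is the middle component of `[v, a]`. -/
def D5 (S : Sys G) (v a d : G) : Prop := d ∈ S.U 5 ∧ ∃ p ∈ S.V 4, ∃ q ∈ S.V 6, cm v a = p * d * q

/-- Base points in the root groups and reflections permuting them. -/
structure Base (S : Sys G) (e f g w : ℤ → G) : Prop where
  eU : ∀ {k}, Odd k → e k ∈ S.U k
  e1 : ∀ {k}, Odd k → e k ≠ 1
  fV : ∀ {k}, Even k → f k ∈ S.V k
  f1 : ∀ {k}, Even k → f k ≠ 1
  gU : ∀ {k}, Even k → g k ∈ S.U k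
  we : ∀ {k}, Odd k → S.mu (e k) = w k
  wf : ∀ {k}, Even k → S.mu (f k) = w k
  lf : ∀ {k}, Even k → S.la (f k) = g (k + 8)
  pe : ∀ {j k}, Odd j → (k - j) % 16 = 0 → e j = e k
  pf : ∀ {j k}, Even j → (k - j) % 16 = 0 → f j = f k
  pg : ∀ {j k}, Even j → (k - j) % 16 = 0 → g j = g k
  pw : ∀ {j k}, (k - j) % 8 = 0 → w j = w k
  ce : ∀ {j} k, Odd j → cn (e j) (w k) = e (2 * k + 8 - j)
  cf : ∀ {j} k, Even j → cn (f j) (w k) = f (2 * k + 8 - j)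
  cg : ∀ {j} k, Even j → cn (g j) (w k) = g (2 * k + 8 - j)
  r9 : cn (f 8) (e 1) = f 2 * e 3 * g 4 * e 5 * (g 6)⁻¹ * e 7 * f 8
  r10 : cn (g 8) (e 1) = g 2 * e 3 * (g 4)⁻¹ * e 5 * f 6 * e 7 * g 8

/-- The commutator relations between base points. -/
structure BRel (e f g : ℤ → G) : Prop where
  r0 : g 2 * g 2 = f 2
  r1 : cn (e 7) (e 1) = e 7 * e 3 * e 5
  r2 : cn (f 2) (e 7) = f 2 * f 4
  r3 : cn (g 4) (e 1) = g 4 * f 2
  r4 : cn (g 4) (g 2) = g 4 * e 3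
  r5 : cn (g 6) (e 1) = g 6 * f 2 * e 3
  r6 : cn (f 2) (f 8) = f 2 * e 5 * f 6 * f 4
  r7 : cn (f 2) (g 8) = f 2 * e 3 * e 5 * f 6
  r8 : cn (g 2) (g 8) = g 2 * g 6 * g 4 * f 4

/-- Coordinates in the root groups of odd index. -/
structure Fld (S : Sys G) (e w : ℤ → G) {K : Type*} [Field K] [TwF K] (x : ℤ → K → G) : Prop where
  mem : ∀ {k u}, Odd k → (u ∈ S.U k ↔ ∃ t, u = x k t)
  add : ∀ {k}, Odd k → ∀ s t, x k (s + t) = x k s * x k t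
  inj : ∀ {k t}, Odd k → x k t = 1 → t = 0
  one : ∀ {k}, Odd k → x k 1 = e k
  per : ∀ {j k}, Odd j → (k - j) % 16 = 0 → x j = x k
  cx : ∀ {j} k, Odd j → ∀ t, cn (x j t) (w k) = x (2 * k + 8 - j) t
  h1 : ∀ {t}, t ≠ 0 → ∀ s, cn (x 1 s) (w 1 * S.mu (x 1 t)) = x 1 (t ^ 2 * s)
  h3 : ∀ {t}, t ≠ 0 → ∀ s, cn (x 3 s) (w 1 * S.mu (x 1 t)) = x 3 (σ t * s)
  hm : ∀ {s t}, s ≠ 0 → t ≠ 0 → w 1 * S.mu (x 1 (s * t)) = w 1 * S.mu (x 1 s) * (w 1 * S.mu (x 1 t))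

/-- The action of a torus element. -/
structure Tor {K : Type*} [Field K] [TwF K] (x y : ℤ → K → G) (a b : K) (τ : G) : Prop where
  x1 : ∀ t, cn (x 1 t) τ = x 1 (a * t)
  y8 : ∀ t, cn (y 8 t) τ = y 8 (b * t)
  y2 : ∀ t, cn (y 2 t) τ = y 2 (a * b * t)
  x8 : ∀ t, cn (x 8 t) τ = x 8 (b * σ b * t)
  y6 : ∀ t, cn (y 6 t) τ = y 6 (a * b * σ b * t)
  y4 : ∀ t, cn (y 4 t) τ = y 4 (σ a * b * σ b * t)
  x7 : ∀ t, cn (x 7 t) τ = x 7 (a * b ^ 2 * σ b * t)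
  x2 : ∀ t, cn (x 2 t) τ = x 2 (a * σ a * b * σ b * t)
  x3 : ∀ t, cn (x 3 t) τ = x 3 (a * σ a * b ^ 2 * σ b * t)
  x5 : ∀ t, cn (x 5 t) τ = x 5 (a * σ a * b ^ 2 * σ b ^ 2 * t)
  x6 : ∀ t, cn (x 6 t) τ = x 6 (a * σ a * b ^ 3 * σ b ^ 2 * t)
  x4 : ∀ t, cn (x 4 t) τ = x 4 (a ^ 2 * σ a * b ^ 3 * σ b ^ 2 * t)

/-- Coordinates in all root groups. -/
structure Crd (S : Sys G) (e f g w : ℤ → G) {K : Type*} [Field K] [TwF K] (x y : ℤ → K → G) : Prop where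
  memU : ∀ {k u}, Odd k → (u ∈ S.U k ↔ ∃ t, u = x k t)
  memV : ∀ {k u}, Even k → (u ∈ S.V k ↔ ∃ t, u = x k t)
  memY : ∀ {k}, Even k → ∀ t, y k t ∈ S.U k
  add : ∀ k s t, x k (s + t) = x k s * x k t
  inj : ∀ {k t}, x k t = 1 → t = 0
  xe : ∀ {k}, Odd k → x k 1 = e k
  xf : ∀ {k}, Even k → x k 1 = f k
  yg : ∀ {k}, Even k → y k 1 = g k
  y0 : ∀ k, y k 0 = 1
  px : ∀ {j k}, (k - j) % 16 = 0 → x j = x k
  py : ∀ {j k}, Even j → (k - j) % 16 = 0 → y j = y k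
  cx : ∀ j k t, cn (x j t) (w k) = x (2 * k + 8 - j) t
  cy : ∀ {j} k, Even j → ∀ t, cn (y j t) (w k) = y (2 * k + 8 - j) t
  tor : ∀ {a b : K}, a ≠ 0 → b ≠ 0 → ∃ τ, Tor x y a b τ

namespace RK

variable (h : RK 8 S)
include h

theorem pU (ha : a ∈ S.U i) (j : ℤ) (e : (j - i) % 16 = 0 := by omega) : a ∈ S.U j :=
  h.mem_per ha ((j - i) / 16) (by push_cast; omega)

theorem pV (ha : a ∈ S.V i) (j : ℤ) (e : (j - i) % 16 = 0 := by omega) : a ∈ S.V j :=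
  h.V_per ha ((j - i) / 16) (by push_cast; omega)

theorem vc (hv : v ∈ S.V i) (hx : x ∈ S.U j) (e : i - 4 ≤ j ∧ j ≤ i + 4 := by omega) : v * x = x * v :=
  h.V_comm hv hx (by have := abs_le.2 (⟨by omega, by omega⟩ : -4 ≤ j - i ∧ j - i ≤ 4); push_cast; omega)

theorem vI (hv : v ∈ S.V i) (hx : x ∈ I S.U k l) (e : i - 4 ≤ k ∧ l ≤ i + 4 := by omega) : v * x = x * v :=
  I_comm hx fun _ _ _ _ ha => h.vc hv ha

theorem V_of (hv : v ∈ S.U i) (e : ∀ j, i - 4 ≤ j → j ≤ i + 4 → ∀ x ∈ S.U j, v * x = x * v) : v ∈ S.V i :=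
  h.mem_V.2 ⟨hv, fun j e1 => by
    have := abs_le.1 (show |j - i| ≤ 4 by push_cast at e1; omega)
    exact e j (by omega) (by omega)⟩

theorem kaU (ha : a ∈ S.U i) (a1 : a ≠ 1) (j : ℤ) (e : (j - i - 8) % 16 = 0 := by omega) : S.ka a ∈ S.U j :=
  h.pU (h.ka_mem ha a1) j (by push_cast; omega)

theorem laU (ha : a ∈ S.U i) (a1 : a ≠ 1) (j : ℤ) (e : (j - i - 8) % 16 = 0 := by omega) : S.la a ∈ S.U j :=
  h.pU (h.la_mem ha a1) j (by push_cast; omega)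

theorem act (ha : a ∈ S.U i) (a1 : a ≠ 1) (c : ℤ) (e : (c - 2 * i - 8) % 16 = 0 := by omega) :
    Act S (S.mu a) fun j => c - j :=
  h.act_per (h.act_mu ha a1) ((c - 2 * i - 8) / 16) fun _ => by push_cast; omega

theorem muU (ha : a ∈ S.U i) (a1 : a ≠ 1) (hx : x ∈ S.U j) (k : ℤ) (e : (k + j - 2 * i - 8) % 16 = 0 := by omega) :
    cn x (S.mu a) ∈ S.U k := by simpa using (h.act ha a1 (k + j)).mU hx

theorem muV (ha : a ∈ S.U i) (a1 : a ≠ 1) (hx : x ∈ S.V j) (k : ℤ) (e : (k + j - 2 * i - 8) % 16 = 0 := by omega) :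
    cn x (S.mu a) ∈ S.V k := by simpa using (h.act ha a1 (k + j)).mV hx

theorem act2 (ha : a ∈ S.U i) (a1 : a ≠ 1) (hb : b ∈ S.U i) (b1 : b ≠ 1) : Act S (S.mu a * S.mu b) fun j => j :=
  ((h.act_mu ha a1).mul (h.act_mu hb b1)).congr fun _ => by ring

theorem exists_neg (c : ℤ) (e : c % 2 = 0 := by omega) : ∃ g, Act S g fun j => c - j := by
  obtain ⟨a, ha, a1⟩ := h.exists_ne (c / 2 - 4)
  exact ⟨_, h.act ha a1 c⟩

theorem exists_add (c : ℤ) (e : c % 2 = 0 := by omega) : ∃ g, Act S g fun j => j + c := by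
  obtain ⟨g, hg⟩ := h.exists_neg 0
  obtain ⟨g', hg'⟩ := h.exists_neg c
  exact ⟨_, (hg.mul hg').congr fun _ => by ring⟩

theorem card_U (i j : ℤ) (e : (j - i) % 2 = 0 := by omega) : Nat.card (S.U i) = Nat.card (S.U j) := by
  obtain ⟨g, hg⟩ := h.exists_neg (i + j)
  exact Nat.card_congr ⟨fun y => ⟨cn y g, by simpa using hg.mU y.2⟩, fun y => ⟨cn y g⁻¹,
    (hg i _).1.1 (by simp)⟩, fun y => by simp, fun y => by simp⟩

theorem card_V (i j : ℤ) (e : (j - i) % 2 = 0 := by omega) : Nat.card (S.V i) = Nat.card (S.V j) := by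
  obtain ⟨g, hg⟩ := h.exists_neg (i + j)
  exact Nat.card_congr ⟨fun y => ⟨cn y g, by simpa using hg.mV y.2⟩, fun y => ⟨cn y g⁻¹,
    (hg i _).2.1 (by simp)⟩, fun y => by simp, fun y => by simp⟩

theorem dec2 (hx : x ∈ I S.U i j) (e : j = i + 1 := by omega) : ∃ a ∈ S.U i, ∃ b ∈ S.U j, x = a * b := by
  obtain ⟨a, ha, r, hr, rfl⟩ := h.bot hx (by omega)
  exact ⟨a, ha, r, I_self hr (by omega) le_rfl, rfl⟩

theorem dec3 (hx : x ∈ I S.U i j) (k : ℤ) (e : k = i + 1 ∧ j = i + 2 := by omega) :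
    ∃ a ∈ S.U i, ∃ b ∈ S.U k, ∃ c ∈ S.U j, x = a * b * c := by
  obtain ⟨a, ha, r, hr, rfl⟩ := h.bot hx (by omega)
  obtain ⟨b, hb, c, hc, rfl⟩ := h.dec2 hr
  exact ⟨a, ha, b, e.1 ▸ hb, c, hc, (mul_assoc _ _ _).symm⟩

theorem pos_rf (c : ℤ) (e : c % 2 = 0) (H : Pos S) : Pos (S.rf c) := fun a ha t ht => by
  obtain ⟨g, hg⟩ := h.exists_neg c
  have := (hg.inv (f' := fun j => c - j) fun _ => by ring).I_neg
    (H _ (by simpa using hg.mV ha) _ (by simpa using hg.mU ht))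
  rw [← cn_cm, cn_cn_inv] at this
  exact I_rf.2 this

variable [Finite G]

theorem inj2 {a' b' : G} (ha : a ∈ S.U i) (ha' : a' ∈ S.U i) (hb : b ∈ S.U j) (hb' : b' ∈ S.U j)
    (e : a * b = a' * b') (H : i < j ∧ j ≤ i + 8 := by omega) : a = a' ∧ b = b' :=
  h.bot_inj ha ha' (mem_I hb le_rfl le_rfl) (mem_I hb' le_rfl le_rfl) H.1 H.2 e

theorem inj3 {a' b' d d' : G} (ha : a ∈ S.U i) (ha' : a' ∈ S.U i) (hb : b ∈ S.U j) (hb' : b' ∈ S.U j)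
    (hd : d ∈ S.U k) (hd' : d' ∈ S.U k) (e : a * b * d = a' * b' * d')
    (H : i < j ∧ j < k ∧ k ≤ i + 8 := by omega) : a = a' ∧ b = b' ∧ d = d' := by
  obtain ⟨e1, e2⟩ := h.top_inj hd hd' (mul_mem (mem_I ha le_rfl (j := j) (by omega)) (mem_I hb (by omega) le_rfl))
    (mul_mem (mem_I ha' le_rfl (by omega)) (mem_I hb' (by omega) le_rfl)) (by omega) (by push_cast; omega) e
  exact ⟨(h.inj2 ha ha' hb hb' e1).1, (h.inj2 ha ha' hb hb' e1).2, e2⟩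

omit [Finite G] in
theorem exists_sq {u1 u8 : G} (h1 : u1 ∈ S.U i) (n1 : u1 ≠ 1) (h8 : u8 ∈ S.U j) (n8 : u8 ≠ 1)
    (e : j = i + 7 := by omega) : ∃ u2 u3 u4 u5 u6 u7, Sq S i u1 u2 u3 u4 u5 u6 u7 u8 := by
  subst e
  obtain ⟨r, hr, e⟩ := h.cn_top h8 (mem_I h1 le_rfl (by omega)) (by push_cast; omega)
  obtain ⟨p, hp, q, hq, rfl⟩ := h.split hr (i + 3) (by push_cast; omega)
  obtain ⟨u2, m2, u3, m3, u4, m4, rfl⟩ := h.dec3 hp (i + 2)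
  obtain ⟨u5, m5, u6, m6, u7, m7, rfl⟩ := h.dec3 hq (i + 5)
  exact ⟨u2, u3, u4, u5, u6, u7, h1, m2, m3, m4, h.pU m5 _, m6, h.pU m7 _, h8, n1, n8, by rw [e]; group⟩

variable {u1 u2 u3 u4 u5 u6 u7 u8 : G} (q : Sq S i u1 u2 u3 u4 u5 u6 u7 u8)
include q

omit [Finite G] h in
theorem sq_eq' : cn u1 u8⁻¹ = u1 * u2 * u3 * u4 * u5 * u6 * u7 := by
  have := q.eq
  unfold cn at this ⊢
  calc u8⁻¹⁻¹ * u1 * u8⁻¹ = u1 * (u1⁻¹ * u8 * u1) * u8⁻¹ := by group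
    _ = _ := by rw [this]; group

theorem sq_next : u2 = cn u8 (S.mu u1) ∧ Sq S (i + 1) u2 u3 u4 u5 u6 u7 u8 (S.la u1) := by
  have hl := h.laU q.m1 q.n1 (i + 8)
  have hm := h.muU q.m1 q.n1 q.m8 (i + 1)
  have e1 := star' (S := S) (h.adj q.m8 (h.kaU q.m1 q.n1 (i + 8)) (by ring))
  obtain ⟨r, hr, e2⟩ := h.cn_bot hm (inv_mem (mem_I hl (i := i + 1 + 1) (j := i + 8) (by omega) le_rfl)) (by
    push_cast; omega)
  have hz : u3 * u4 * u5 * u6 * u7 * u8 ∈ I S.U (i + 1 + 1) (i + 8 - 1) :=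
    mul_mem (mul_mem (mul_mem (mul_mem (mul_mem (mem_I q.m3 (by omega) (by omega)) (mem_I q.m4 (by omega) (by omega)))
      (mem_I q.m5 (by omega) (by omega))) (mem_I q.m6 (by omega) (by omega))) (mem_I q.m7 (by omega) (by omega)))
      (mem_I q.m8 (by omega) (by omega))
  obtain ⟨e3, e4⟩ := h.bot_inj q.m2 hm hz hr (by omega) (by push_cast; omega) (by rw [← e2, ← e1, q.eq]; group)
  refine ⟨e3, q.m2, h.pU q.m3 _, h.pU q.m4 _, h.pU q.m5 _, h.pU q.m6 _, h.pU q.m7 _, h.pU q.m8 _, h.pU hl _,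
    e3 ▸ cn_ne q.n8 _, h.la_ne q.m1 q.n1, ?_⟩
  rw [← e3, ← e4] at e2
  unfold cn at e2 ⊢
  calc u2⁻¹ * S.la u1 * u2 = u2⁻¹ * ((S.la u1)⁻¹⁻¹ * u2 * (S.la u1)⁻¹) * S.la u1 := by group
    _ = _ := by rw [e2]; group

theorem sq_prev : cn u7 (S.mu u8) = u1 ∧ Sq S (i - 1) (S.ka u8) u1 u2 u3 u4 u5 u6 u7 := by
  have hk := h.kaU q.m8 q.n8 (i - 1)
  have hm := h.muU (inv_mem q.m8) (inv_ne_one.2 q.n8) q.m1 (i + 6)
  have e1 := star' (S := S) (h.adj (h.kaU (inv_mem q.m8) (inv_ne_one.2 q.n8) (i - 1)) q.m1 (by ring)).symm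
  rw [(h.ka_inv q.m8 q.n8).2, inv_inv] at e1
  obtain ⟨r, hr, e2⟩ := h.cn_top hm (mem_I hk (i := i - 1) le_rfl (by omega)) (by push_cast; omega)
  have hz : u1 * u2 * u3 * u4 * u5 * u6 ∈ I S.U (i - 1 + 1) (i + 6 - 1) :=
    mul_mem (mul_mem (mul_mem (mul_mem (mul_mem (mem_I q.m1 (by omega) (by omega)) (mem_I q.m2 (by omega) (by omega)))
      (mem_I q.m3 (by omega) (by omega))) (mem_I q.m4 (by omega) (by omega))) (mem_I q.m5 (by omega) (by omega)))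
      (mem_I q.m6 (by omega) (by omega))
  obtain ⟨e3, e4⟩ := h.top_inj q.m7 hm hz hr (by omega) (by push_cast; omega) (by rw [← e2, ← e1, sq_eq' q])
  have e5 : cn u7 (S.mu u8) = u1 := by rw [e4, h.mu_inv q.m8 q.n8, cn_inv_cn]
  exact ⟨e5, hk, h.pU q.m1 _, h.pU q.m2 _, h.pU q.m3 _, h.pU q.m4 _, h.pU q.m5 _, h.pU q.m6 _, h.pU q.m7 _,
    h.ka_ne q.m8 q.n8, e4 ▸ cn_ne q.n1 _, by rw [← e4, ← e3] at e2; exact e2⟩

theorem sq_ne : u2 ≠ 1 ∧ u3 ≠ 1 ∧ u4 ≠ 1 ∧ u5 ≠ 1 ∧ u6 ≠ 1 ∧ u7 ≠ 1 := by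
  have q2 := (h.sq_next q).2
  have q3 := (h.sq_next q2).2
  have q4 := (h.sq_next q3).2
  have p7 := (h.sq_prev q).2
  have p6 := (h.sq_prev p7).2
  exact ⟨q2.n1, q3.n1, q4.n1, (h.sq_prev p6).2.n8, p6.n8, p7.n8⟩

end RK

theorem odd_sub (e : c % 2 = 0) (hk : Odd k) : Odd (c - k) :=
  Int.odd_iff.2 (by have := Int.odd_iff.1 hk; omega)

theorem even_sub (e : c % 2 = 0) (hk : Even k) : Even (c - k) :=
  Int.even_iff.2 (by have := Int.even_iff.1 hk; omega)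

namespace Base

variable {e f g w : ℤ → G} (B : Base S e f g w)
include B

theorem ce' (j k l : ℤ) (H : j % 2 = 1 ∧ (l + j - 2 * k - 8) % 16 = 0 := by omega) : cn (e j) (w k) = e l :=
  (B.ce k (Int.odd_iff.2 H.1)).trans (B.pe (Int.odd_iff.2 (by omega)) (by omega))

theorem cf' (j k l : ℤ) (H : j % 2 = 0 ∧ (l + j - 2 * k - 8) % 16 = 0 := by omega) : cn (f j) (w k) = f l :=
  (B.cf k (Int.even_iff.2 H.1)).trans (B.pf (Int.even_iff.2 (by omega)) (by omega))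

theorem cg' (j k l : ℤ) (H : j % 2 = 0 ∧ (l + j - 2 * k - 8) % 16 = 0 := by omega) : cn (g j) (w k) = g l :=
  (B.cg k (Int.even_iff.2 H.1)).trans (B.pg (Int.even_iff.2 (by omega)) (by omega))

theorem rf (c : ℤ) (H : c % 2 = 0 := by omega) :
    Base (S.rf c) (fun k => e (c - k)) (fun k => f (c - k)) (fun k => g (c - k)) fun k => w (c - k) where
  eU hk := B.eU (odd_sub H hk)
  e1 hk := B.e1 (odd_sub H hk)
  fV hk := B.fV (even_sub H hk)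
  f1 hk := B.f1 (even_sub H hk)
  gU hk := B.gU (even_sub H hk)
  we hk := B.we (odd_sub H hk)
  wf hk := B.wf (even_sub H hk)
  lf hk := (B.lf (even_sub H hk)).trans (B.pg (Int.even_iff.2 (by have := Int.even_iff.1 hk; omega)) (by omega))
  pe hj _ := B.pe (odd_sub H hj) (by omega)
  pf hj _ := B.pf (even_sub H hj) (by omega)
  pg hj _ := B.pg (even_sub H hj) (by omega)
  pw _ := B.pw (by omega)
  ce _ hj := B.ce' _ _ _ (by have := Int.odd_iff.1 hj; omega)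
  cf _ hj := B.cf' _ _ _ (by have := Int.even_iff.1 hj; omega)
  cg _ hj := B.cg' _ _ _ (by have := Int.even_iff.1 hj; omega)
  r9 := by
    have := congrArg (cn · (w (c / 2 - 4))) B.r9
    simp only [cn_mul, cn_inv] at this
    rwa [cn_conj, B.cf' 8 _ (c - 8), B.ce' 1 _ (c - 1), B.cf' 2 _ (c - 2), B.ce' 3 _ (c - 3), B.cg' 4 _ (c - 4),
      B.ce' 5 _ (c - 5), B.cg' 6 _ (c - 6), B.ce' 7 _ (c - 7)] at this
  r10 := by
    have := congrArg (cn · (w (c / 2 - 4))) B.r10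
    simp only [cn_mul, cn_inv] at this
    rwa [cn_conj, B.cg' 8 _ (c - 8), B.ce' 1 _ (c - 1), B.cg' 2 _ (c - 2), B.ce' 3 _ (c - 3), B.cg' 4 _ (c - 4),
      B.ce' 5 _ (c - 5), B.cf' 6 _ (c - 6), B.ce' 7 _ (c - 7)] at this

theorem act (h : RK 8 S) (k c : ℤ) (H : (c - 2 * k - 8) % 16 = 0 := by omega) : Act S (w k) fun j => c - j := by
  rcases Int.even_or_odd k with hk | hk
  · exact B.wf hk ▸ h.act (h.V_le (B.fV hk)) (B.f1 hk) c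
  · exact B.we hk ▸ h.act (B.eU hk) (B.e1 hk) c

end Base

variable [Finite G]

omit [Finite G] in
theorem O8.exV (h : O8 S) (i : ℤ) (e : i % 2 = 0 := by omega) : ∃ v ∈ S.V i, v ≠ 1 :=
  (S.V i).bot_or_exists_ne_one.resolve_left (h.V_ne i (Int.even_iff.2 e))

theorem O8.rf (h : O8 S) (c : ℤ) (e : c % 2 = 0 := by omega) : O8 (S.rf c) :=
  ⟨h.toRK.rf c, fun i hi => h.V_ne _ (Int.even_iff.2 (by have := Int.even_iff.1 hi; omega))⟩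

omit [Finite G] in
theorem O8.sh (h : O8 S) (c : ℤ) (e : c % 2 = 0 := by omega) : O8 (S.sh c) :=
  ⟨h.toRK.sh c, fun i hi => h.V_ne _ (Int.even_iff.2 (by have := Int.even_iff.1 hi; omega))⟩

theorem O1.rf (h : O1 S) (c : ℤ) (e : c % 2 = 0 := by omega) : O1 (S.rf c) :=
  ⟨h.toO8.rf c e, fun H => h.npos (rf_rf S c ▸ (h.toRK.rf c).pos_rf c e H)⟩

theorem O1.sh (h : O1 S) (c : ℤ) (e : c % 2 = 0 := by omega) : O1 (S.sh c) := by
  have := (h.rf c e).rf 0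
  rwa [rf_rf', sub_zero] at this

theorem O2.rf (h : O2 S) (c : ℤ) (e : c % 2 = 0 := by omega) : O2 (S.rf c) :=
  ⟨h.toO8.rf c e, h.toRK.pos_rf c e h.pos⟩

theorem O2.sh (h : O2 S) (c : ℤ) (e : c % 2 = 0 := by omega) : O2 (S.sh c) := by
  have := (h.rf c e).rf 0
  rwa [rf_rf', sub_zero] at this

end Cfsg.Lib.MO
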