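import Mathlib.Algebra.Group.Subgroup.Lattice
import Mathlib.Algebra.Order.Group.Abs
import Mathlib.Algebra.Order.Ring.Int
import Mathlib.Order.Interval.Set.Basic
import Mathlib.Tactic.Group

/-!
# Root group data of rank two
-/

set_option autoImplicit false

namespace Cfsg.Lib.MO

variable {G : Type*} [Group G]

/-- The commutator. -/
def cm (a b : G) : G := a⁻¹ * b⁻¹ * a * b

/-- The conjugate of `x` by `g`. -/
def cn (x g : G) : G := g⁻¹ * x * g

/-- The subgroup generated by `U i, …, U j`. -/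
def I (U : ℤ → Subgroup G) (i j : ℤ) : Subgroup G := ⨆ k ∈ Set.Icc i j, U k

/-- The root groups of a Moufang `n`-gon. -/
structure RG (n : ℕ) (U : ℤ → Subgroup G) : Prop where
  three : 3 ≤ n
  per : ∀ i, U (i + 2 * n) = U i
  ne : ∀ i, U i ≠ ⊥
  comm : ∀ {i j}, i < j → j < i + n → ∀ a ∈ U i, ∀ b ∈ U j, a⁻¹ * b⁻¹ * a * b ∈ I U (i + 1) (j - 1)
  mu : ∀ i, ∀ a ∈ U i, a ≠ 1 → ∃ k ∈ U (i + n), ∃ l ∈ U (i + n), ∀ j, ∀ x ∈ U j,
    (k * a * l)⁻¹ * x * (k * a * l) ∈ U (2 * i + n - j)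
  opp : ∀ i, U (i + n) ⊓ I U i (i + n - 1) = ⊥
  gen : ⨆ i, U i = ⊤

/-- Root groups, their central elements, and the maps `κ`, `λ`. -/
structure Sys (G : Type*) [Group G] where
  /-- the root groups -/
  U : ℤ → Subgroup G
  /-- the central root elements -/
  V : ℤ → Subgroup G
  /-- the map `κ` -/
  ka : G → G
  /-- the map `λ` -/
  la : G → G

namespace Sys

variable (S : Sys G)

/-- The map `μ`. -/
def mu (a : G) : G := S.ka a * a * S.la a

/-- The reflected numbering. -/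
def rf (c : ℤ) : Sys G := ⟨fun k => S.U (c - k), fun k => S.V (c - k), S.ka, S.la⟩

/-- The shifted numbering. -/
def sh (c : ℤ) : Sys G := ⟨fun k => S.U (k + c), fun k => S.V (k + c), S.ka, S.la⟩

end Sys

/-- Root groups with the derived data. -/
structure RK (n : ℕ) (S : Sys G) : Prop extends RG n S.U where
  ka_mem : ∀ {i a}, a ∈ S.U i → a ≠ 1 → S.ka a ∈ S.U (i + n)
  la_mem : ∀ {i a}, a ∈ S.U i → a ≠ 1 → S.la a ∈ S.U (i + n)
  mu_iff : ∀ {i a}, a ∈ S.U i → a ≠ 1 → ∀ j x, cn x (S.mu a) ∈ S.U (2 * i + n - j) ↔ x ∈ S.U j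
  mem_V : ∀ {i v}, v ∈ S.V i ↔ v ∈ S.U i ∧ ∀ j, 2 * |j - i| ≤ n → ∀ x ∈ S.U j, v * x = x * v

/-- A Moufang octagon whose central root elements have even index. -/
structure O8 (S : Sys G) : Prop extends RK 8 S where
  V_ne : ∀ i, Even i → S.V i ≠ ⊥

end Cfsg.Lib.MO
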