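import Cfsg.Agent.MO.I1

/-!
# Moufang octagons: commuting at distance three
-/

set_option autoImplicit false

namespace Cfsg.Lib.MO

variable {G : Type*} [Group G] [Finite G] {S : Sys G}
variable {i j k : ℤ} {a b c d q s t v x : G}

/-- Elements of `U k` commuting with the root groups at distance three. -/
def TT (S : Sys G) (k : ℤ) (t : G) : Prop :=
  t ∈ S.U k ∧ (∀ y ∈ S.U (k - 3), t * y = y * t) ∧ ∀ y ∈ S.U (k + 3), t * y = y * t

namespace O1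

variable (h : O1 S)
include h

omit [Finite G] in
theorem tt_mu (ha : a ∈ S.U i) (a1 : a ≠ 1) (ht : TT S j t) (k : ℤ)
    (e : (k + j - 2 * i - 8) % 16 = 0 := by omega) : TT S k (cn t (S.mu a)) := by
  have hg := h.act ha a1 (k + j)
  have key : ∀ l, (∀ y ∈ S.U l, t * y = y * t) → ∀ m, m = k + j - l → ∀ y ∈ S.U m,
      cn t (S.mu a) * y = y * cn t (S.mu a) := fun l H m e y hy => by
    have := comm_cn (H _ ((hg l (cn y (S.mu a)⁻¹)).1.1 (by subst e; rwa [cn_inv_cn]))) (S.mu a)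
    rwa [cn_inv_cn] at this
  exact ⟨h.muU ha a1 ht.1 k, key _ ht.2.2 _ (by ring), key _ ht.2.1 _ (by ring)⟩

omit [Finite G] in
theorem tt_sh (ht : TT S i t) (j k : ℤ) (e : i = j + k := by omega) : TT (S.sh k) j t :=
  ⟨h.pU ht.1 _, fun y hy => ht.2.1 y (h.pU hy _), fun y hy => ht.2.2 y (h.pU hy _)⟩

theorem tt_lo (ht : TT S i t) (hs : s ∈ S.U j) (e : i % 2 = 0 ∧ j = i - 2 := by omega) : t * s = s * t :=
  (h.sh (i - 2)).t0 (h.pU ht.1 _) (fun y hy => ht.2.2 y (h.pU hy _)) s (h.pU hs _)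

theorem tt_hi (ht : TT S i t) (hs : s ∈ S.U j) (e : i % 2 = 0 ∧ j = i + 2 := by omega) : t * s = s * t :=
  (h.rf (i + 2)).t0 (h.pU ht.1 _) (fun y hy => ht.2.1 y (h.pU hy _)) s (h.pU hs _)

theorem tt_st (ht : TT S 2 t) (ha : a ∈ S.U 8) (a1 : a ≠ 1) :
    ∃ d ∈ I S.U 3 5, cn t a = t * d * cn t (S.mu a) :=
  h.st ht.1 ha a1 (h.tt_lo ht (h.kaU ha a1 0)) 6

theorem tt_E (ht : TT S 2 t) (ha : a ∈ S.V 8) (a1 : a ≠ 1) :
    ∃ p ∈ S.V 4, ∃ q ∈ S.U 5, cn t a = t * p * q * cn t (S.mu a) := by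
  obtain ⟨p, hp, q, hq, r, hr, s, hs, e⟩ := h.a_two ha ht.1
  have m3 : p * q * r ∈ I S.U 4 6 := mul_mem (mul_mem (mem_I (h.V_le hp) le_rfl (by omega))
    (mem_I hq (by omega) (by omega))) (mem_I hr (by omega) le_rfl)
  obtain rfl : s = 1 := (h.top_inj hs (one_mem _) m3 ((h.e7 ht.1 ha a1).2 ht.2.2) (by omega) (by omega)
    (by rw [mul_one, e])).2
  obtain ⟨d, hd, e1⟩ := h.tt_st ht (h.V_le ha) a1
  have e2 : cn t a = t * p⁻¹ * q⁻¹ * r⁻¹ := by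
    rw [cn_eq, ← cm_inv, e, mul_one, mul_assoc p, h.vI hp (k := 5) (l := 6) (mul_mem (mem_I hq le_rfl (by omega))
      (mem_I hr (by omega) le_rfl)), h.adj hq hr rfl]
    group
  have e3 := (h.top_inj (inv_mem hr) (h.muU (h.V_le ha) a1 ht.1 6) (mul_mem (inv_mem (mem_I (h.V_le hp) (by omega)
    (by omega))) (inv_mem (mem_I hq (by omega) le_rfl))) hd (by omega) (by omega)
    (mul_left_cancel (a := t) (by rw [← mul_assoc, ← mul_assoc, ← mul_assoc, ← e2, e1]))).2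
  exact ⟨_, inv_mem hp, _, inv_mem hq, by rw [e2, e3]⟩

theorem tt_S1 (ht : TT S 2 t) (hx : x ∈ S.U 7) (x1 : x ≠ 1) : cn t x = t * cn t (S.mu x) := by
  obtain ⟨d, hd, e⟩ := h.st ht.1 hx x1 (ht.2.1 _ (h.kaU hx x1 (2 - 3))) 4
  have h3 : d ∈ S.U 3 := I_self hd (by omega) (by omega)
  obtain ⟨a, ha, a1⟩ := h.exV 8
  obtain ⟨p, hp, q, hq, e1⟩ := h.tt_E ht ha a1
  have h4 := h.tt_mu hx x1 ht 4
  have h6 := h.tt_mu (h.V_le ha) a1 ht 6
  have e2 : cn (cn t x) a = cn (cn t a) x := by rw [cn_cn, cn_cn, h.vc ha hx]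
  rw [e, cn_mul, cn_mul, e1, cn_of_comm (h.vc ha h4.1).symm, cn_mul, cn_mul, cn_mul, e, cn_of_comm (h.vc hp hx),
    cn_of_comm (h.oo hq hx), cn_of_comm (h.adj h6.1 hx rfl)] at e2
  have c1 := comm_mul (comm_mul (h.vc hp h4.1).symm (h.adj h4.1 hq rfl)) (h.tt_hi h4 h6.1)
  have c2 := comm_mul (comm_mul (h.vc hp h3).symm (h.oo h3 hq)) (h6.2.1 d h3).symm
  have e3 : cn d a = d := by
    generalize cn t (S.mu x) = c at *
    generalize cn t (S.mu a) = r at *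
    have e4 : t * d * c * p * q * r = t * p * q * r * d * c := by
      calc _ = t * d * (c * (p * q * r)) := by group
        _ = t * (d * (p * q * r)) * c := by rw [c1]; group
        _ = _ := by rw [c2]; group
    rw [e4] at e2
    exact mul_left_cancel (mul_right_cancel e2)
  have := ((h.rf 10).vB_inj (v := a) (u := d) ha h3 (cn_eq_iff.1 e3).symm).resolve_left a1
  rw [e, this, mul_one]

theorem tt_S2 (hc : TT S 4 c) (hb : b ∈ S.U 8) : cm c b ∈ S.V 6 := by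
  by_cases b1 : b = 1
  · rw [b1, cm_eq_one.2 (by simp)]; exact one_mem _
  obtain ⟨x, hx, x1⟩ := h.exists_ne 7
  have ht := h.tt_mu hx x1 hc 2
  have e0 := h.tt_S1 ht hx x1
  rw [cn_cn c (S.mu x) (S.mu x), h.muU_sq hx x1, cn_one] at e0
  generalize cn c (S.mu x) = t at *
  obtain ⟨d, hd, e⟩ := h.tt_st ht hb b1
  obtain ⟨d3, h3, d4, h4, d5, h5, rfl⟩ := h.dec3 hd 4
  have h6 := h.tt_mu hb b1 ht 6
  generalize cn t (S.mu b) = d6 at *
  have hw : cm d4 x ∈ S.V 6 := cm_inv x d4 ▸ inv_mem (h.c3 hx h4 6)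
  have e2 : cn (cn t x) b = cn (cn t b) x := by rw [cn_cn, cn_cn, h.adj hx hb rfl]
  rw [e0, cn_mul, e, cn_mul, cn_mul, cn_mul, cn_mul, e0, cn_of_comm (h.oo h3 hx), cn_of_comm (h.oo h5 hx),
    cn_of_comm (h.adj h6.1 hx rfl), cn_eq d4] at e2
  have hc4 : cn c d4 ∈ S.U 4 := cn_mem hc.1 h4
  have c1 := comm_mul (h.adj hc4 h5 rfl) (h.tt_lo h6 hc4).symm
  have c2 := comm_mul (h.vc hw h5) (h.vc hw h6.1)
  have e3 : cn c d4 * cm d4 x = c * cm c b := by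
    rw [← cn_eq c b]
    refine mul_left_cancel (a := t * (d3 * d4 * d5) * d6) ?_
    rw [e2]
    generalize cm d4 x = w at *
    calc _ = t * d3 * d4 * (d5 * d6 * cn c d4) * w := by group
      _ = t * (d3 * c) * d4 * (d5 * d6 * w) := by rw [← c1]; unfold cn; group
      _ = _ := by rw [← c2, h.adj h3 hc.1 rfl]; group
  exact (h.bot_inj hc4 hc.1 (mem_I (h.V_le hw) (by omega) (by omega)) (h.cm_mem hc.1 hb (by omega) (by omega))
    (by omega) (by omega) e3).2 ▸ hw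

theorem tt_S3 (hc : TT S 6 c) (hs : s ∈ S.U 6) : c * s = s * c := by
  obtain ⟨a, ha, a1⟩ := h.exV 8
  have ht := h.tt_mu (h.V_le ha) a1 hc 2
  obtain ⟨p, hp, q, hq, e⟩ := h.tt_E ht ha a1
  rw [cn_cn c (S.mu a) (S.mu a), h.muV_sq ha a1, cn_one] at e
  generalize cn c (S.mu a) = t at *
  have hg : cm t s ∈ S.V 4 := (h.sh (-2)).tt_S2 (h.tt_sh ht 4 (-2)) hs
  have e2 : cn (cn t s) a = cn (cn t a) s := by rw [cn_cn, cn_cn, h.vc ha hs]
  rw [cn_eq t s, cn_mul, e, cn_mul, cn_mul, cn_mul, cn_eq t s, cn_of_comm (h.vc hg (h.V_le ha)),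
    cn_of_comm (h.vc hp hs), cn_of_comm (h.adj hq hs rfl)] at e2
  have c1 := comm_mul (comm_mul (h.vc hg (h.V_le hp)) (h.vc hg hq)) (h.vc hg hc.1)
  generalize cm t s = g at *
  refine cn_eq_iff.1 (mul_left_cancel (a := t * g * p * q) ?_)
  rw [← e2]
  calc _ = t * (p * q * c * g) := by group
    _ = _ := by rw [← c1]; group

theorem tt_V (hc : TT S 4 c) : c ∈ S.V 4 := h.zQ4 hc.1 fun k e1 e2 y hy => by
  obtain rfl | rfl | rfl | rfl | rfl | rfl | rfl : k = 1 ∨ k = 2 ∨ k = 3 ∨ k = 4 ∨ k = 5 ∨ k = 6 ∨ k = 7 := by omega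
  exacts [hc.2.1 y hy, h.tt_lo hc hy, (h.adj hy hc.1 rfl).symm, (h.sh (-2)).tt_S3 (h.tt_sh hc 6 (-2)) hy,
    h.adj hc.1 hy rfl, h.tt_hi hc hy, hc.2.2 y hy]

theorem tt_K (hv : v ∈ S.V 2) (v1 : v ≠ 1) (ha : a ∈ S.U 8) (a1 : a ≠ 1) (H : ∀ y ∈ S.U 5, a * y = y * a) :
    ∃ p ∈ S.V 4, ∃ q ∈ S.U 5, cn v a = v * p * q * cn v (S.mu a) := by
  obtain ⟨d, hd, e⟩ := h.vC hv ha a1
  have h6 := h.muV ha a1 hv 6
  have hI : cm v a ∈ I S.U 4 6 :=
    I_mono (I_rf.1 (((h.rf 10).e7 (t := a) (a := v) ha hv v1).2 H)) (by omega) (by omega)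
  generalize cn v (S.mu a) = r at *
  have hd' : d ∈ I S.U 4 5 := h.inf_lo hd (l := 6) (by
    rw [show d = cm v a * r⁻¹ by rw [cm_eq, e]; group]
    exact mul_mem hI (inv_mem (mem_I (h.V_le h6) (by omega) le_rfl))) (by omega) (by omega)
  obtain ⟨p, hp, q, hq, rfl⟩ := h.dec2 hd'
  refine ⟨p, h.tt_V ⟨hp, fun x hx => ?_, fun x hx => ?_⟩, q, hq, by rw [e, ← mul_assoc]⟩
  · have hx : x ∈ S.U 1 := hx
    have hc : cm v (cn x a⁻¹) ∈ S.V 4 := h.vQ hv (h.cn_U (inv_mem ha) (mem_I hx le_rfl (by omega)) (by omega)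
      (by omega) (by omega) (by omega))
    have h2 : cm p x ∈ S.V 2 := cm_inv x p ▸ inv_mem (h.c3 hx hp 2)
    have h4 : cm r x ∈ S.V 4 := (h.rf 8).vB_mem h6 hx
    have e2 : cn (cn v a) x = cn (cn v (cn x a⁻¹)) a := by unfold cn; group
    rw [cn_eq v (cn x a⁻¹), cn_mul, cn_of_comm (h.vc hc ha), e, cn_mul, cn_mul, cn_mul, cn_of_comm (h.vc hv hx),
      cn_of_comm (h.oo hx hq).symm, cn_eq p, cn_eq r] at e2
    have c1 := comm_mul (h.vc h2 hq) (h.vc h2 (h.V_le h6))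
    have e3 : cm p x = cm v (cn x a⁻¹) * (cm r x)⁻¹ := by
      generalize cm p x = w at *
      refine mul_left_cancel (a := v * (p * q) * r) ?_
      rw [← mul_assoc _ (cm v _), ← e2]
      calc _ = v * p * (q * r * w) := by group
        _ = _ := by rw [← c1]; group
    exact cm_eq_one.1 (h.U_disj (h.V_le h2) (j := 4) (e3 ▸ h.V_le (mul_mem hc (inv_mem h4))) (by omega) (by omega))
  · have hx : x ∈ S.U 7 := hx
    have hw := h.vB_mem hv hx
    have e2 : cn (cn v x) a = cn (cn v a) x := by rw [cn_cn, cn_cn, h.adj hx ha rfl]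
    rw [cn_eq v x, cn_mul, cn_of_comm (h.vc hw ha), e, cn_mul, cn_mul, cn_mul, cn_eq v x, cn_of_comm (h.oo hq hx),
      cn_of_comm (h.vc h6 hx)] at e2
    have c1 := comm_mul (comm_mul (h.vc hw hp) (h.vc hw hq)) (h.vc hw (h.V_le h6))
    generalize cm v x = w at *
    refine cn_eq_iff.1 (mul_left_cancel (a := v * w) (mul_right_cancel (b := q * r) ?_))
    calc _ = v * w * (cn p x * q) * r := by group
      _ = v * (p * q * r * w) := by rw [← e2]; group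
      _ = _ := by rw [← c1]; group

theorem tt_8 (ha : a ∈ S.U 8) (H : ∀ y ∈ S.U 5, a * y = y * a) : a ∈ S.V 8 := by
  obtain ⟨v, hv, v1⟩ := h.exV 2
  let K : Subgroup G := S.U 8 ⊓ Subgroup.centralizer (S.U 5)
  have hK : ∀ {a}, a ∈ K ↔ a ∈ S.U 8 ∧ ∀ y ∈ S.U 5, a * y = y * a := fun {a} =>
    and_congr_right fun _ => forall₂_congr fun _ _ => eq_comm
  have hc := (exists_inj (A := K) (B := S.V 6) (fun a => cn v (S.mu a))
    (fun a ha a1 => ⟨h.muV (hK.1 ha).1 a1 hv 6, cn_ne v1 _⟩) fun a ha a1 b hb b1 e => by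
      by_contra ne
      have n1 : a * b⁻¹ ≠ 1 := fun e => ne (mul_inv_eq_one.1 e)
      have hab := hK.1 (mul_mem ha (inv_mem hb))
      have hb' := hK.1 (inv_mem hb)
      obtain ⟨p, hp, q, hq, e1⟩ := h.tt_K hv v1 (hK.1 ha).1 a1 (hK.1 ha).2
      obtain ⟨p', hp', q', hq', e2⟩ := h.tt_K hv v1 (hK.1 hb).1 b1 (hK.1 hb).2
      obtain ⟨d, hd, e3⟩ := h.vC hv hab.1 n1
      have h6 := h.muV (hK.1 hb).1 b1 hv 6
      have e4 := congrArg (cn · b⁻¹) e2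
      simp only [cn_cn_inv, cn_mul] at e4
      rw [cn_of_comm (h.vc hp' hb'.1), cn_of_comm (hb'.2 _ hq').symm, cn_of_comm (h.vc h6 hb'.1)] at e4
      rw [← cn_cn, e1, e, cn_mul, cn_mul, cn_mul, cn_of_comm (h.vc hp hb'.1), cn_of_comm (hb'.2 _ hq).symm,
        cn_of_comm (h.vc h6 hb'.1)] at e3
      have hI : (p' * q')⁻¹ * (p * q) ∈ I S.U 3 5 := mul_mem (inv_mem (mul_mem (mem_I (h.V_le hp') (by omega)
        (by omega)) (mem_I hq' (by omega) le_rfl))) (mul_mem (mem_I (h.V_le hp) (by omega) (by omega))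
        (mem_I hq (by omega) le_rfl))
      refine cn_ne v1 _ (h.top_inj (h.muU hab.1 n1 (h.V_le hv) 6) (one_mem _) hd hI (by omega) (by omega)
        (mul_left_cancel (a := v) ?_)).2
      have c1 := h.vI h6 hI
      rw [← mul_assoc, ← e3]
      generalize cn v (S.mu b) = r at *
      generalize cn v b⁻¹ = u at *
      subst e4
      calc _ = u * p' * q' * ((p' * q')⁻¹ * (p * q) * r) := by group
        _ = _ := by rw [← c1]; group).1
  have hle : S.V 8 ≤ K := fun b hb => hK.2 ⟨h.V_le hb, fun y hy => h.vc hb hy⟩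
  rw [Subgroup.eq_of_le_of_card_ge hle (hc.trans (h.card_V 6 8).le)]
  exact hK.2 ⟨ha, H⟩

theorem TV (hx : x ∈ S.U i) (x1 : x ≠ 1) (ht : t ∈ S.U j) (e : t * x = x * t)
    (H : i % 2 = 1 ∧ (j = i + 3 ∨ j = i - 3) := by omega) : t ∈ S.V j := by
  have key : ∀ {S : Sys G}, O1 S → x ∈ S.U 5 → t ∈ S.U 8 → t ∈ S.V 8 := fun h hx ht =>
    h.tt_8 ht ((h.rf 10).tp ht hx x1 e)
  rcases H.2 with e1 | e1
  · exact h.pV (i := 8 + (i - 5)) (key (h.sh (i - 5)) (h.pU hx _) (h.pU ht _)) j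
  · exact h.pV (i := i + 5 - 8) (key (h.rf (i + 5)) (h.pU hx _) (h.pU ht _)) j

end O1

end Cfsg.Lib.MO
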