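import Cfsg.Agent.MO.A2

/-!
# Moufang octagons: the degenerate case, first part
-/

set_option autoImplicit false

namespace Cfsg.Lib.MO

variable {G : Type*} [Group G] [Finite G] {S : Sys G}
variable {i : ℤ} {a b d v x : G}

theorem O2.d5_one (h : O2 S) (hv : v ∈ S.V 2) (ha : a ∈ S.V 8) (hd : D5 S v a d) : d = 1 := by
  refine h.zQ5 hd.1 fun k h1 h7 y hy => ?_
  obtain rfl | rfl | rfl | rfl | rfl | rfl | rfl : k = 1 ∨ k = 2 ∨ k = 3 ∨ k = 4 ∨ k = 5 ∨ k = 6 ∨ k = 7 := by omega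
  · exact h.d5_comm hv ha hd hy
  · exact cm_eq_one.1 ((h.d5_two hv ha hd hy (h.pos a ha y hy) (one_mem _) (mul_one _).symm).trans
      (cm_eq_one.2 (by simp)))
  · exact h.d5_comm hv ha hd hy
  · exact (h.adj hy hd.1 rfl).symm
  · exact h.U_comm hd.1 hy
  · exact h.adj hd.1 hy rfl
  · exact h.d5_comm hv ha hd hy

theorem O2.v_eight (h : O2 S) (hv : v ∈ S.V 2) (v1 : v ≠ 1) (hb : b ∈ S.U 8) :
    ∃ d ∈ S.U 4, ∃ q ∈ S.V 6, cn v b = v * d * q ∧ (q = 1 → b = 1) := by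
  by_cases b1 : b = 1
  · exact ⟨1, one_mem _, 1, one_mem _, by simp [b1], fun _ => b1⟩
  obtain ⟨d, -, e⟩ := h.vC hv hb b1
  have hq := h.muV hb b1 hv 6
  have h1 : cm v b ∈ I S.U 4 6 := I_mono (I_rf.1 ((h.rf 10).pos v hv b hb)) (by omega) (by omega)
  have h2 : cm (cn v (S.mu b)) (S.la b)⁻¹ ∈ I S.U 2 4 :=
    I_mono (I_sh.1 ((h.sh (-2)).pos _ (h.pV hq _) _ (h.pU (inv_mem (h.laU hb b1 0)) _))) (by omega) (by omega)
  have e1 := RK.star' (S := S) (h.vc hv (h.kaU hb b1 0))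
  rw [cn_eq (cn v (S.mu b)), h.vI hq h2, e, mul_left_inj] at e1
  have h3 : d ∈ I S.U 2 4 := by
    rw [eq_inv_mul_of_mul_eq e1]
    exact mul_mem (inv_mem (mem_I (h.V_le hv) (by omega) (by omega))) h2
  have h4 : d ∈ I S.U 4 6 := by
    rw [show d = cm v b * (cn v (S.mu b))⁻¹ by rw [cm_eq, e]; group]
    exact mul_mem h1 (inv_mem (mem_I (h.V_le hq) (by omega) (by omega)))
  exact ⟨d, I_self (h.inf_lo h3 h4 (by omega) (by omega)) le_rfl le_rfl, _, hq, e, fun e => absurd e (cn_ne v1 _)⟩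

theorem O2.UV4 (h : O2 S) (hx : x ∈ S.U 4) : x ∈ S.V 4 := by
  obtain ⟨v, hv, v1⟩ := h.exV 2
  choose d hd q hq e1 e2 using fun b : S.U 8 => h.v_eight hv v1 b.2
  let F : S.U 8 × S.V 4 → S.U 4 × S.V 6 := fun p =>
    (⟨d p.1 * p.2, mul_mem (hd p.1) (h.V_le p.2.2)⟩, ⟨q p.1, hq p.1⟩)
  have hF : Function.Injective F := by
    rintro ⟨a, c⟩ ⟨b, c'⟩ e
    have e3 : d a * c = d b * c' := congrArg (fun p => (p.1 : G)) e
    have e4 : q a = q b := congrArg (fun p => (p.2 : G)) e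
    have hc : (c : G) * (c' : G)⁻¹ ∈ S.V 4 := mul_mem c.2 (inv_mem c'.2)
    have e5 : cn v b = cn v a * (c * (c' : G)⁻¹) := by
      rw [e1, e1, mul_assoc _ (q a), ← h.vc hc (h.V_le (hq a)), e4, eq_mul_inv_of_mul_eq e3.symm]; group
    have e6 : cn v (b * a⁻¹ : S.U 8) = v * (c * (c' : G)⁻¹) * 1 := by
      rw [Subgroup.coe_mul, ← cn_cn, e5, cn_mul, Subgroup.coe_inv, cn_cn_inv,
        cn_of_comm (h.vc hc (inv_mem a.2)), mul_one]
    rw [e1, mul_assoc, mul_assoc, mul_right_inj] at e6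
    obtain rfl : b = a := mul_inv_eq_one.1 (Subtype.ext (e2 _ (h.inj2 (hd _) (h.V_le hc) (h.V_le (hq _))
      (one_mem _) e6).2))
    rw [Subtype.ext (mul_left_cancel e3)]
  obtain ⟨⟨a, c⟩, e⟩ := (hF.bijective_of_nat_card_le (by
    rw [Nat.card_prod, Nat.card_prod, h.card_U 4 8, h.card_V 6 4])).2 (⟨x, hx⟩, 1)
  have e3 : d a * c = x := congrArg (fun p => (p.1 : G)) e
  have e4 : q a = 1 := congrArg (fun p => (p.2 : G)) e
  have e5 := e1 a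
  rw [e2 a e4, e4, cn_one, mul_one, left_eq_mul] at e5
  rw [← e3, e5, one_mul]
  exact c.2

theorem O2.UV (h : O2 S) (hx : x ∈ S.U i) (e : i % 2 = 0 := by omega) : x ∈ S.V i :=
  h.pV ((h.sh (i - 4)).UV4 (h.pU hx _)) _

end Cfsg.Lib.MO
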