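import Cfsg.Agent.MO.II1

/-! The second case for Moufang octagons does not occur. -/

set_option autoImplicit false

namespace Cfsg.Lib.MO

universe u

variable {G : Type u} [Group G] [Finite G] {S : Sys G}
variable {a b c r s x y : G}

namespace O2

variable (h : O2 S)
include h

theorem ii_pq (hc : c ∈ S.V 2) (ha : a ∈ S.V 8) (a1 : a ≠ 1) :
    ∃ p ∈ S.V 4, (c ≠ 1 → p ≠ 1) ∧ cm c a = p * cn c (S.mu a) := by
  by_cases c1 : c = 1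
  · subst c1
    exact ⟨1, one_mem _, fun e => (e rfl).elim, by rw [one_cn, one_mul, cm_eq_one, one_mul, mul_one]⟩
  obtain ⟨d, hd, e⟩ := h.vv hc c1 ha a1
  have hp := h.muV (h.V_le hc) c1 ha 4
  have hq := h.muV (h.V_le ha) a1 hc 6
  obtain rfl := h.d5_one hc ha ⟨hd, _, hp, _, hq, e⟩
  exact ⟨_, hp, fun _ => cn_ne a1 _, by rw [e, mul_one]⟩

theorem ii_f (hy : y ∈ S.U 3) (ha : a ∈ S.V 8) : cm y a ∈ S.V 6 := by
  rw [← cm_inv]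
  exact inv_mem ((h.rf 10).vB_mem ha hy)

theorem ii_f1 (hy : y ∈ S.U 3) (y1 : y ≠ 1) (ha : a ∈ S.V 8) (a1 : a ≠ 1) : cm y a ≠ 1 := fun e =>
  ((h.rf 10).vB_inj ha hy (cm_eq_one.1 e).symm).elim a1 y1

theorem ii_g (hx : x ∈ S.U 1) (hb : b ∈ S.V 6) : cm x b ∈ S.V 4 := by
  rw [← cm_inv]
  exact inv_mem ((h.rf 8).vB_mem hb hx)

theorem ii_g1 (hx : x ∈ S.U 1) (x1 : x ≠ 1) (hb : b ∈ S.V 6) (b1 : b ≠ 1) : cm x b ≠ 1 := fun e =>
  ((h.rf 8).vB_inj hb hx (cm_eq_one.1 e).symm).elim b1 x1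

theorem ii_c (hx : x ∈ S.U 1) (hy : y ∈ S.U 3) : cm x y ∈ S.V 2 :=
  h.UV (I_self (h.cm_mem hx hy (by omega) (by omega)) (by omega) (by omega))

theorem ii_53 (hx : x ∈ S.U 5) (hy : y ∈ S.U 3) : cm x y ∈ S.V 4 :=
  h.UV (I_self (h.cm_mem' hy hx (by omega) (by omega)) (by omega) (by omega))

theorem ii_75 (hx : x ∈ S.U 7) (hy : y ∈ S.U 5) : cm x y ∈ S.V 6 :=
  h.UV (I_self (h.cm_mem' hy hx (by omega) (by omega)) (by omega) (by omega))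

theorem ii_cc (ha : a ∈ S.V 8) (a1 : a ≠ 1) (x : G) : cn (cn x (S.mu a)) (S.mu a) = x := by
  rw [cn_cn, h.muV_sq ha a1, cn_one]

theorem ii_key (hx : x ∈ S.U 1) (x1 : x ≠ 1) (hy : y ∈ S.U 3) (ha : a ∈ S.V 8) (a1 : a ≠ 1) :
    ∃ z ∈ S.U 5, z ≠ 1 ∧ cm (cm x y) a =
      cm x (cm y a) * cm (cm x y) (cn x (S.mu a)) * cm z y * cm (cn x (S.mu a)) y := by
  obtain ⟨z2, z3, z4, z5, z6, z7, q⟩ := h.exists_sq hx x1 (h.V_le ha) a1
  have e1 := RK.sq_eq' q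
  rw [inv_eq_of_mul_eq_one_right (h.V_sq ha)] at e1
  have e2 : cn x (S.mu a) = z7 := by rw [← (h.sq_prev q).1, h.ii_cc ha a1]
  refine ⟨z5, q.m5, (h.sq_ne q).2.2.2.1, ?_⟩
  rw [e2]
  have m2 : z2 ∈ S.U 2 := q.m2
  have m3 : z3 ∈ S.U 3 := q.m3
  have m4 : z4 ∈ S.U 4 := q.m4
  have m5 : z5 ∈ S.U 5 := q.m5
  have m6 : z6 ∈ S.U 6 := q.m6
  have m7 : z7 ∈ S.U 7 := q.m7
  have hf := h.ii_f hy ha
  have hc := h.ii_c hx hy
  have hA := h.ii_g hx hf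
  have hB := h.vB_mem hc m7
  have hC := h.ii_53 m5 hy
  have hD : cm z7 y ∈ I S.U 4 6 :=
    I_mono (h.cm_mem' hy m7 (by omega) (by omega)) (by omega) (by omega)
  have hw : z2 * z3 * z4 * z5 * z6 ∈ I S.U 2 6 :=
    mul_mem (mul_mem (mul_mem (mul_mem (mem_I m2 le_rfl (by omega)) (mem_I m3 (by omega) (by omega)))
      (mem_I m4 (by omega) (by omega))) (mem_I m5 (by omega) (by omega))) (mem_I m6 (by omega) le_rfl)
  have hz : z2 * z3 * z4 * z5 * z6 * z7 ∈ I S.U 2 7 :=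
    mul_mem (I_mono hw le_rfl (by omega)) (mem_I m7 (by omega) le_rfl)
  have e3 : cm (z2 * z3 * z4) y = 1 := cm_eq_one.2
    (comm_mul (comm_mul (h.adj m2 hy rfl).symm (h.U_comm hy m3)) (h.adj hy m4 rfl)).symm
  have e4 : cm z6 y = 1 := cm_eq_one.2 (h.vc (h.UV m6) hy)
  have e5 : cm (z2 * z3 * z4 * z5 * z6 * z7) y = cm z5 y * cm z7 y := by
    rw [cm_mul_left _ z7, cm_mul_left _ z6, cm_mul_left _ z5, e3, e4, one_cn, one_mul, mul_one,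
      cn_of_comm (h.vc hC m6), cn_of_comm (h.vc hC m7)]
  have e6 : cn (cm x y) (z2 * z3 * z4 * z5 * z6 * z7) = cm x y * cm (cm x y) z7 := by
    rw [← cn_cn, cn_of_comm (h.vI hc hw), cn_eq]
  have e7 : cn x a = x * (z2 * z3 * z4 * z5 * z6 * z7) := by rw [e1]; group
  have e8 : cm (x * (z2 * z3 * z4 * z5 * z6 * z7)) (cm y a) = cm x (cm y a) := by
    rw [cm_mul_left x, cn_of_comm (h.vI hA hz), cm_eq_one.2 (h.vI hf hz).symm, mul_one]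
  have e9 : cm (x * (z2 * z3 * z4 * z5 * z6 * z7)) y =
      cm x y * cm (cm x y) z7 * (cm z5 y * cm z7 y) := by rw [cm_mul_left x, e5, e6]
  have e10 : cn (cm x y * cm (cm x y) z7 * (cm z5 y * cm z7 y)) (cm y a) =
      cm x y * cm (cm x y) z7 * (cm z5 y * cm z7 y) := cn_of_comm (comm_mul
    (comm_mul (h.vc hf (h.V_le hc)) (h.vc hf (h.V_le hB)))
    (comm_mul (h.vc hf (h.V_le hC)) (h.vI hf hD))).symm
  have e11 : cn (cm x y) a = cm x (cm y a) * (cm x y * cm (cm x y) z7 * (cm z5 y * cm z7 y)) := by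
    rw [cn_cm x y a, e7, cn_eq y a, cm_mul_right _ y, e8, e9, e10]
  have e12 := h.vc hA (h.V_le hc)
  rw [cm_eq (cm x y) a, e11, ← mul_assoc (cm x (cm y a)), ← mul_assoc (cm x (cm y a)), e12]
  simp only [mul_assoc, inv_mul_cancel_left]

theorem ii_K (hs : s ∈ S.U 7) (hy : y ∈ S.U 3) (ha : a ∈ S.V 8) (a1 : a ≠ 1) :
    ∃ w ∈ S.V 4, cm s y = w * cm s (cn y (S.mu a)) := by
  by_cases s1 : s = 1
  · subst s1
    exact ⟨1, one_mem _, by unfold cm; group⟩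
  have hx := h.muU (h.V_le ha) a1 hs 1
  obtain ⟨z, hz, -, e⟩ := h.ii_key hx (cn_ne s1 _) hy ha a1
  obtain ⟨p, hp, -, e'⟩ := h.ii_pq (h.ii_c hx hy) ha a1
  rw [cn_cm, h.ii_cc ha a1, e, h.ii_cc ha a1] at e'
  refine ⟨_, mul_mem (inv_mem (mul_mem (mul_mem (h.ii_g hx (h.ii_f hy ha))
    (h.vB_mem (h.ii_c hx hy) hs)) (h.ii_53 hz hy))) hp, ?_⟩
  rw [mul_assoc, ← e', inv_mul_cancel_left]

theorem ii_six (H : ∀ s ∈ S.U 7, ∀ y ∈ S.U 3, cm s y ∈ S.V 4) (hs : s ∈ S.U 7)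
    (hy : y ∈ S.U 3) : cm s y = 1 := by
  obtain ⟨g, hg⟩ := h.exists_neg 10
  have h1 := H _ (hg.mU hy) _ (hg.mU hs)
  rw [← cn_cm] at h1
  have h2 : cm y s ∈ S.V 6 := (hg 6 _).2.1 h1
  rw [← cm_inv, inv_mem_iff] at h2
  exact h.U_disj (h.V_le (H s hs y hy)) (h.V_le h2) (by omega) (by omega)

theorem ii_four (H : ∀ s ∈ S.U 7, ∀ y ∈ S.U 3, cm s y ∈ S.V 6) (hs : s ∈ S.U 7)
    (hy : y ∈ S.U 3) : cm s y = 1 := by
  obtain ⟨g, hg⟩ := h.exists_neg 10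
  have h1 := H _ (hg.mU hy) _ (hg.mU hs)
  rw [← cn_cm] at h1
  have h2 : cm y s ∈ S.V 4 := (hg 4 _).2.1 h1
  rw [← cm_inv, inv_mem_iff] at h2
  exact h.U_disj (h.V_le h2) (h.V_le (H s hs y hy)) (by omega) (by omega)

omit [Finite G] in
theorem ii_shift {i j k l : ℤ} (c : ℤ) (H : ∀ x ∈ S.U k, ∀ y ∈ S.U l, x * y = y * x) (hx : x ∈ S.U i)
    (hy : y ∈ S.U j) (e : c % 2 = 0 ∧ k = i + c ∧ l = j + c := by omega) : x * y = y * x := by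
  obtain ⟨e, rfl, rfl⟩ := e
  obtain ⟨g, hg⟩ := h.exists_add c
  have := comm_cn (H _ (hg.mU hx) _ (hg.mU hy)) g⁻¹
  rwa [cn_cn_inv, cn_cn_inv] at this

theorem ii_ca (H : ∀ x ∈ S.U 1, ∀ y ∈ S.U 3, x * y = y * x) : False := by
  obtain ⟨a, ha, a1⟩ := h.exV 8
  obtain ⟨x, hx, x1⟩ := h.exists_ne 1
  obtain ⟨y, hy, y1⟩ := h.exists_ne 3
  have h1 : ∀ s ∈ S.U 7, ∀ y ∈ S.U 3, cm s y ∈ S.V 4 := fun s hs y hy => by
    obtain ⟨w, hw, e⟩ := h.ii_K hs hy ha a1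
    rw [cm_eq_one.2 (h.ii_shift (-4) H (h.muU (h.V_le ha) a1 hy 5) hs).symm, mul_one] at e
    exact e ▸ hw
  obtain ⟨z, hz, -, e⟩ := h.ii_key hx x1 hy ha a1
  have one : ∀ t : G, cm 1 t = 1 := fun t => by unfold cm; group
  rw [cm_eq_one.2 (H x hx y hy), h.ii_six h1 (h.muU (h.V_le ha) a1 hx 7) hy,
    cm_eq_one.2 (h.ii_shift (-2) H hy hz).symm, one, one, mul_one, mul_one, mul_one] at e
  exact h.ii_g1 hx x1 (h.ii_f hy ha) (h.ii_f1 hy y1 ha a1) e.symm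

theorem ii_L (hr : r ∈ S.U 5) (H : ∀ s ∈ S.U 7, r * s = s * r) : r = 1 := by
  by_contra r1
  refine h.ii_ca fun x hx y hy => h.ii_shift 4 (fun t ht s hs => ?_) hx hy (k := 5) (l := 7)
  by_cases t1 : t = 1
  · rw [t1, one_mul, mul_one]
  obtain ⟨g, hg, rfl⟩ := h.trU hr r1 ht t1
  have := comm_cn (H _ ((hg.inv (f' := fun j => j) fun _ => rfl).mU hs)) g
  rwa [cn_inv_cn] at this

theorem ii_L' (hs : s ∈ S.U 7) (H : ∀ y ∈ S.U 3, cm s y ∈ S.V 6) : s = 1 := by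
  by_contra s1
  have h1 : ∀ t ∈ S.U 7, ∀ y ∈ S.U 3, cm t y ∈ S.V 6 := fun t ht y hy => by
    by_cases t1 : t = 1
    · rw [t1, cm_eq_one.2 (by rw [one_mul, mul_one])]
      exact one_mem _
    obtain ⟨g, hg, rfl⟩ := h.trU hs s1 ht t1
    have := hg.mV (H _ ((hg.inv (f' := fun j => j) fun _ => rfl).mU hy))
    rwa [cn_cm, cn_inv_cn] at this
  obtain ⟨a, ha, a1⟩ := h.exV 8
  obtain ⟨y, hy, y1⟩ := h.exists_ne 3
  have hr := h.muU (h.V_le ha) a1 hy 5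
  refine cn_ne y1 _ (h.ii_L hr fun t ht => (cm_eq_one.1 ?_).symm)
  obtain ⟨w, hw, e⟩ := h.ii_K ht hy ha a1
  rw [h.ii_four h1 ht hy] at e
  exact (h.inj2 (one_mem _) (h.V_le hw) (one_mem _) (h.V_le (h.ii_75 ht hr))
    ((one_mul 1).trans e)).2.symm

theorem ii_V8 (ha : a ∈ S.V 8) (a1 : a ≠ 1) (hb : b ∈ S.V 8) (b1 : b ≠ 1) : a = b := by
  have h1 : ∀ y ∈ S.U 3, cn y (S.mu a * S.mu b) = y := fun y hy => by
    have hr := h.muU (h.V_le ha) a1 hy 5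
    have hr' := h.muU (h.V_le hb) b1 hy 5
    have e : cn y (S.mu a) * (cn y (S.mu b))⁻¹ = 1 := h.ii_L (mul_mem hr (inv_mem hr')) fun s hs => by
      obtain ⟨w, hw, e⟩ := h.ii_K hs hy ha a1
      obtain ⟨w', hw', e'⟩ := h.ii_K hs hy hb b1
      have e2 := (h.inj2 (h.V_le hw) (h.V_le hw') (h.V_le (h.ii_75 hs hr)) (h.V_le (h.ii_75 hs hr'))
        (e.symm.trans e')).2
      rw [cm_eq, cm_eq, mul_right_inj] at e2
      refine (cn_eq_iff.1 ?_).symm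
      rw [← cn_cn, e2, cn_cn_inv]
    rw [← cn_cn, mul_inv_eq_one.1 e, h.ii_cc hb b1]
  have h2 : ∀ w ∈ S.V 4, ∀ a ∈ S.V 8, a ≠ 1 → cn w (S.mu a) = w := fun w hw a ha a1 =>
    h.mu_comm (h.V_le ha) a1 (h.vc hw (h.V_le ha)) fun y hy => h.vc hw (h.pU hy 0)
  have hg := h.act2 (h.V_le ha) a1 (h.V_le hb) b1
  obtain ⟨s, hs, s1⟩ := h.exists_ne 7
  have e : cn s (S.mu a * S.mu b) * s = 1 := h.ii_L' (mul_mem (hg.mU hs) hs) fun y hy => by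
    obtain ⟨w, hw, e⟩ := h.ii_K hs hy ha a1
    have hq := h.ii_75 hs (h.muU (h.V_le ha) a1 hy 5)
    have hq' := hg.mV hq
    have e2 : cm (cn s (S.mu a * S.mu b)) y = w * cn (cm s (cn y (S.mu a))) (S.mu a * S.mu b) := by
      conv_lhs => rw [← h1 y hy, ← cn_cm, e, cn_mul, ← cn_cn w, h2 w hw a ha a1, h2 w hw b hb b1]
    rw [cm_mul_left, e2, cn_mul, cn_of_comm (h.vc hw hs), cn_of_comm (h.vc hq' hs), e,
      h.vc hw (h.V_le hq'), mul_assoc, ← mul_assoc w, h.V_sq hw, one_mul]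
    exact mul_mem hq' hq
  refine h.injU (h.muU (h.V_le ha) a1 hs 1) (cn_ne s1 _) ha a1 hb b1 ?_
  rw [h.ii_cc ha a1, cn_cn]
  exact mul_right_cancel ((h.U_sq hs).trans e.symm)

theorem ii_U3 (hx : x ∈ S.U 3) (x1 : x ≠ 1) (hy : y ∈ S.U 3) (y1 : y ≠ 1) : x = y := by
  obtain ⟨a, ha, a1⟩ := h.exV 8
  have e := (h.sh (-2)).ii_V8 (h.ii_f hx ha) (h.ii_f1 hx x1 ha a1) (h.ii_f hy ha) (h.ii_f1 hy y1 ha a1)
  rw [cm_eq', cm_eq', mul_left_inj, inv_inj] at e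
  refine mul_inv_eq_one.1 (((h.rf 10).vB_inj ha (mul_mem hx (inv_mem hy)) ?_).resolve_left a1)
  refine cn_eq_iff.1 ?_
  rw [← cn_cn, e, cn_cn_inv]

end O2

theorem O2.false (h : O2 S) : False := by
  refine h.ii_ca fun x hx y hy => ?_
  by_contra hn
  have x1 : x ≠ 1 := fun e => hn (by rw [e, one_mul, mul_one])
  have y1 : y ≠ 1 := fun e => hn (by rw [e, one_mul, mul_one])
  have c1 : cm x y ≠ 1 := fun e => hn (cm_eq_one.1 e)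
  obtain ⟨a, ha, a1⟩ := h.exV 8
  have hc := h.ii_c hx hy
  have hs := h.muU (h.V_le ha) a1 hx 7
  obtain ⟨z, hz, z1, e⟩ := h.ii_key hx x1 hy ha a1
  obtain ⟨p, hp, p1, e'⟩ := h.ii_pq hc ha a1
  have k : ∀ w ∈ S.V 4, w ≠ 1 → w = p := fun w hw w1 =>
    (h.sh (-4)).ii_V8 (h.pV hw (8 + -4)) w1 (h.pV hp (8 + -4)) (p1 c1)
  have k1 := k _ (h.ii_g hx (h.ii_f hy ha)) (h.ii_g1 hx x1 (h.ii_f hy ha) (h.ii_f1 hy y1 ha a1))
  have k2 := k _ (h.vB_mem hc hs) fun e =>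
    (h.vB_inj hc hs (cm_eq_one.1 e)).elim c1 (cn_ne x1 _)
  have k3 := k _ (h.ii_53 hz hy) fun e => hn <| by
    refine h.ii_shift 2 (fun u hu v hv => ?_) hx hy (k := 3) (l := 5)
    by_cases u1 : u = 1
    · rw [u1, one_mul, mul_one]
    by_cases v1 : v = 1
    · rw [v1, one_mul, mul_one]
    rw [h.ii_U3 hu u1 hy y1, (h.sh 2).ii_U3 hv v1 hz z1]
    exact (cm_eq_one.1 e).symm
  rw [k1, k2, k3, e', h.V_sq hp, one_mul, mul_right_inj] at e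
  refine cn_ne x1 _ (h.ii_L' hs fun u hu => ?_)
  by_cases u1 : u = 1
  · rw [u1, cm_eq_one.2 (by rw [one_mul, mul_one])]
    exact one_mem _
  rw [h.ii_U3 hu u1 hy y1, ← e]
  exact h.muV (h.V_le ha) a1 hc 6

end Cfsg.Lib.MO
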