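import Cfsg.Agent.MO.IsoA
import Mathlib.GroupTheory.Subgroup.Center
import Mathlib.GroupTheory.OrderOfElement

/-!
# Root group data of rank two: the Bruhat decomposition and the uniqueness up to central kernels
-/

set_option autoImplicit false

namespace Cfsg.Lib.MO

open Function

variable {G G' : Type*} [Group G] [Group G'] {S : Sys G} {S' : Sys G'} {n : ℕ} {U : ℤ → Subgroup G}
variable {i j k l : ℤ} {a g m m' x y : G}

/-- Conjugation by `m` permutes the root groups as an element of the dihedral group. -/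
def Nn (n : ℕ) (U : ℤ → Subgroup G) (m : G) : Prop :=
  ∃ c : ℤ, (∀ k, ∀ x ∈ U k, cn x m ∈ U (k + 2 * c)) ∨ ∀ k, ∀ x ∈ U k, cn x m ∈ U (2 * c + n - k)

theorem Nn_eq_1' : type_of% @Nn.eq_1 := @Nn.eq_1

/-- The Bruhat decomposition of an element. -/
def Br (n : ℕ) (U : ℤ → Subgroup G) (g : G) : Prop :=
  ∃ u ∈ I U 1 n, ∃ m, Nn n U m ∧ ∃ u' ∈ I U 1 n, g = u * m * u'

theorem Br_eq_1' : type_of% @Br.eq_1 := @Br.eq_1

theorem Nn.one : Nn n U 1 := ⟨0, .inl fun k x hx => by simpa using hx⟩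

theorem Nn.mul (h : Nn n U m) (h' : Nn n U m') : Nn n U (m * m') := by
  obtain ⟨c, h | h⟩ := h <;> obtain ⟨d, h' | h'⟩ := h'
  · exact ⟨c + d, .inl fun k x hx => by rw [← cn_cn]; convert h' _ _ (h k x hx) using 2; ring⟩
  · exact ⟨d - c, .inr fun k x hx => by rw [← cn_cn]; convert h' _ _ (h k x hx) using 2; ring⟩
  · exact ⟨c + d, .inr fun k x hx => by rw [← cn_cn]; convert h' _ _ (h k x hx) using 2; ring⟩
  · exact ⟨d - c, .inl fun k x hx => by rw [← cn_cn]; convert h' _ _ (h k x hx) using 2; ring⟩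

theorem Nn.neg (h : Nn n U m) : Nn n (fun k => U (n + 1 - k)) m := by
  obtain ⟨c, h | h⟩ := h
  · exact ⟨-c, .inl fun k x hx => by convert h _ _ hx using 2; ring⟩
  · exact ⟨1 - c, .inr fun k x hx => by convert h _ _ hx using 2; ring⟩

theorem Br.neg (h : Br n U g) : Br n (fun k => U (n + 1 - k)) g := by
  obtain ⟨u, hu, m, hm, u', hu', e⟩ := h
  exact ⟨u, I_neg.2 (I_mono hu (by omega) (by omega)), m, hm.neg, u', I_neg.2 (I_mono hu' (by omega) (by omega)), e⟩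

theorem Br.mul_left (h : Br n U g) (hx : x ∈ I U 1 n) : Br n U (x * g) := by
  obtain ⟨u, hu, m, hm, u', hu', rfl⟩ := h
  exact ⟨x * u, mul_mem hx hu, m, hm, u', hu', by group⟩

theorem nf_idx (h3 : 3 ≤ n) (i j : ℤ) : ∃ k c : ℤ, j ≤ k ∧ k < j + 2 * n ∧ i = k + 2 * n * c := by
  have hn : (0 : ℤ) < 2 * n := by omega
  exact ⟨j + (i - j) % (2 * n), (i - j) / (2 * n), by have := Int.emod_nonneg (i - j) hn.ne'; omega,
    by have := Int.emod_lt_of_pos (i - j) hn; omega, by have := Int.mul_ediv_add_emod (i - j) (2 * n); omega⟩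

theorem RG.nn_cases (h : RG n U) (hm : Nn n U m) :
    (∀ x ∈ U 1, cn x m ∈ I U 1 n) ∨ ∀ x ∈ U (1 + n), cn x m ∈ I U 1 n := by
  obtain ⟨k, h1, h2⟩ : ∃ k, (∀ x ∈ U 1, cn x m ∈ U k) ∧ ∀ x ∈ U (1 + n), cn x m ∈ U (k + n) := by
    obtain ⟨c, hm | hm⟩ := hm
    · exact ⟨_, hm 1, fun x hx => h.mem_per (hm _ x hx) 0 (by ring)⟩
    · exact ⟨_, hm 1, fun x hx => h.mem_per (hm _ x hx) 1 (by ring)⟩
  obtain ⟨q, c, e1, e2, rfl⟩ := nf_idx h.three k 1
  by_cases e : q ≤ n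
  · exact .inl fun x hx => mem_I (k := q) (h.mem_per (h1 x hx) (-c) (by ring)) e1 e
  · exact .inr fun x hx => mem_I (k := q - n) (h.mem_per (h2 x hx) (-c - 1) (by ring)) (by omega) (by omega)

theorem RK.nn_mu (h : RK n S) (ha : a ∈ S.U i) (a1 : a ≠ 1) : Nn n S.U (S.mu a) :=
  ⟨i, .inr fun _ _ hx => (h.act_mu ha a1).mU hx⟩

theorem RK.br_mu (h : RK n S) (ha : a ∈ S.U 1) (a1 : a ≠ 1) (hg : Br n S.U g) : Br n S.U (S.mu a * g) := by
  have h3 := h.three
  obtain ⟨u, hu, m, hm, u', hu', rfl⟩ := hg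
  obtain ⟨x, hx, r, hr, e⟩ := h.bot (inv_mem hu) (by omega)
  obtain rfl : u = r⁻¹ * x⁻¹ := by rw [← mul_inv_rev, ← e, inv_inv]
  have A := (h.act_mu ha a1).inv (f' := fun k => 2 * 1 + n - k) fun _ => by ring
  have hr' : cn r⁻¹ (S.mu a)⁻¹ ∈ I S.U 1 n := I_mono (A.I_neg (inv_mem hr)) (by omega) (by omega)
  replace hx := inv_mem hx
  generalize x⁻¹ = y at hx
  by_cases y1 : y = 1
  · exact ⟨_, hr', _, (h.nn_mu ha a1).mul hm, u', hu', by rw [y1]; unfold cn; group⟩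
  rcases h.nn_cases hm with H | H
  · exact ⟨_, hr', _, (h.nn_mu ha a1).mul hm, _, mul_mem (H y hx) hu', by unfold cn; group⟩
  · exact ⟨_, mul_mem hr' (mem_I (A.mU (inv_mem (h.ka_mem hx y1))) (by omega) (by omega)), _,
      ((h.nn_mu ha a1).mul (h.nn_mu hx y1)).mul hm, _, mul_mem (H _ (inv_mem (h.la_mem hx y1))) hu', by
        unfold cn Sys.mu; group⟩

variable [Finite G]

theorem RK.br (h : RK n S) (g : G) : Br n S.U g := by
  have h3 := h.three
  let M : Submonoid G :=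
    { carrier := {g | ∀ y, Br n S.U y → Br n S.U (g * y)}
      one_mem' := fun y hy => by rwa [one_mul]
      mul_mem' := fun ha hb y hy => by rw [mul_assoc]; exact ha _ (hb y hy) }
  let L : Subgroup G :=
    { M with
      inv_mem' := fun {x} hx => by
        have : x⁻¹ = x ^ (orderOf x - 1) := by
          rw [inv_eq_iff_mul_eq_one, ← pow_succ', Nat.sub_add_cancel (orderOf_pos x), pow_orderOf_eq_one]
        exact this ▸ M.pow_mem hx _ }
  have rfl' : ∀ {i a}, a ∈ S.U i → a ≠ 1 → S.mu a ∈ L → ∀ j, S.U j ≤ L → S.U (2 * i + n - j) ≤ L := by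
    intro i a ha a1 hL j hj x hx
    rw [← cn_inv_cn x (S.mu a)]
    exact cn_mem (hj ((h.mu_iff ha a1 j _).1 (by rwa [cn_inv_cn]))) hL
  obtain ⟨a, ha, a1⟩ := h.exists_ne 1
  obtain ⟨b, hb, b1⟩ := h.exists_ne n
  have r1 := rfl' ha a1 fun y hy => h.br_mu ha a1 hy
  have r2 := rfl' hb b1 fun y hy => by
    have := ((h.rf (n + 1)).br_mu (a := b) (by simpa [Sys.rf] using hb) b1 hy.neg).neg
    simpa [Sys.rf, Sys.mu] using this
  have up : ∀ j, S.U j ≤ L → S.U (j + 2) ≤ L := fun j hj => by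
    have := r1 _ (r2 j hj)
    rwa [← h.per, show 2 * 1 + n - (2 * n + n - j) + 2 * n = j + 2 by ring] at this
  have dn : ∀ j, S.U (j + 2) ≤ L → S.U j ≤ L := fun j hj => by
    have := r2 _ (r1 _ hj)
    rwa [show 2 * n + n - (2 * 1 + n - (j + 2)) = j + 2 * n by ring, h.per] at this
  have base : ∀ j : ℤ, 1 ≤ j → j ≤ n → S.U j ≤ L := fun j h1 h2 x hx y hy => hy.mul_left (mem_I hx h1 h2)
  have all : ∀ j : ℤ, S.U j ≤ L ∧ S.U (j + 1) ≤ L := fun j => by
    induction j using Int.induction_on with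
    | zero => exact ⟨dn 0 (base _ (by omega) (by omega)), base _ (by omega) (by omega)⟩
    | succ j ih => exact ⟨ih.2, by rw [add_assoc]; exact up _ ih.1⟩
    | pred j ih => exact ⟨dn _ (by rw [show -(j : ℤ) - 1 + 2 = -j + 1 by ring]; exact ih.2), by
        rw [sub_add_cancel]; exact ih.1⟩
  have : g ∈ L := (h.gen.ge.trans (iSup_le fun j => (all j).1)) trivial
  simpa using this 1 ⟨1, one_mem _, 1, Nn.one, 1, one_mem _, by simp⟩

theorem RG.nn_id (h : RG n U) (hm : m ∈ I U 1 n) {f : ℤ → ℤ} (hf : ∀ k, ∀ x ∈ U k, cn x m ∈ U (f k)) {c : ℤ}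
    (e : (∀ k, f k = k + 2 * c) ∨ ∀ k, f k = 2 * c + n - k) : ∃ t, ∀ k, f k = k + 2 * n * t := by
  have h3 := h.three
  have key : ∀ k t : ℤ, 1 ≤ k → k ≤ n → f k = 2 * n * t ∨ f k = n + 1 + 2 * n * t → False := by
    intro k t h1 h2 e
    obtain ⟨x, hx, x1⟩ := h.exists_ne k
    have e1 := cn_mem (mem_I hx h1 h2) hm
    rcases e with e | e
    · exact cn_ne x1 m (h.lo (i := 0) (h.mem_per (hf k x hx) (-t) (by rw [e]; ring)) e1 (by omega) (by omega))
    · exact cn_ne x1 m (h.hi (j := n + 1) (h.mem_per (hf k x hx) (-t) (by rw [e]; ring)) e1 (by omega) (by omega))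
  rcases e with e | e
  · obtain ⟨d, t, h1, h2, e1⟩ := nf_idx h3 (2 * c) 0
    by_cases d0 : d = 0
    · exact ⟨t, fun k => by rw [e, e1, d0, zero_add]⟩
    by_cases d1 : d ≤ n
    · exact (key (n + 1 - d) t (by omega) (by omega) (.inr (by rw [e, e1]; ring))).elim
    · exact (key (2 * n - d) (t + 1) (by omega) (by omega) (.inl (by rw [e, e1]; ring))).elim
  · obtain ⟨d, t, h1, h2, e1⟩ := nf_idx h3 (2 * c + n) 1
    by_cases d1 : d ≤ n
    · exact (key d t h1 d1 (.inl (by rw [e, e1]; ring))).elim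
    · have : d ≠ n + 1 := fun e2 => by
        rw [e2, mul_assoc] at e1
        omega
      exact (key (d - n - 1) t (by omega) (by omega) (.inr (by rw [e, e1]; ring))).elim

theorem RG.eq_one_of_nm (h : RG n U) (hm : m ∈ I U 1 n) (e : ∀ k, ∀ x ∈ U k, cn x m ∈ U k) : m = 1 := by
  have h3 := h.three
  have key : ∀ d : ℕ, d ≤ n → m ∈ I U 1 (n - d) := fun d hd => by
    induction d with
    | zero => simpa using hm
    | succ d ih =>
      obtain ⟨r, hr, a, ha, e1⟩ := h.top (ih (by omega)) (by omega)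
      have : a = 1 := h.norm_eq_one (i := -d) (h.mem_per ha 0 (by ring)) fun x hx => by
        rw [show a = r⁻¹ * m by rw [e1, inv_mul_cancel_left], ← cn_cn]
        exact I_cn (cn_mem hx (inv_mem (I_mono hr (by omega) (by omega)))) fun q _ _ y hy =>
          mem_I (e q y hy) (by assumption) (by assumption)
      rw [e1, this, mul_one]
      exact I_mono hr le_rfl (by omega)
  exact I_empty (key n le_rfl) (by omega)

theorem RG.ker_le [Finite G'] {U' : ℤ → Subgroup G'} (h : RG n U) (h' : RG n U') (φ : G →* G')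
    (mem : ∀ k, ∀ x ∈ U k, φ x ∈ U' k) (sj : ∀ k, ∀ y ∈ U' k, ∃ x ∈ U k, φ x = y)
    (inj : ∀ i : ℤ, ∀ x ∈ I U i (i + n - 1), φ x = 1 → x = 1) : φ.ker ≤ Subgroup.center G := by
  have h3 := h.three
  intro g hg
  obtain ⟨S, rfl, hS⟩ := h.exists_RK
  obtain ⟨u, hu, m, hm, u', hu', rfl⟩ := hS.br g
  have mI : ∀ {x}, x ∈ I S.U 1 n → φ x ∈ I U' 1 n := fun hx =>
    I_ind (P := fun x => φ x ∈ I U' 1 n) hx (fun k e1 e2 a ha => mem_I (mem k a ha) e1 e2)
      (by rw [map_one]; exact one_mem _) fun _ _ e1 e2 => by rw [map_mul]; exact mul_mem e1 e2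
  have cφ : ∀ x y, φ (cn x y) = cn (φ x) (φ y) := fun x y => by simp [cn]
  rw [MonoidHom.mem_ker, map_mul, map_mul] at hg
  have e1 : φ m ∈ I U' 1 n := by
    rw [show φ m = (φ u)⁻¹ * (φ u * φ m * φ u') * (φ u')⁻¹ by group, hg, mul_one]
    exact mul_mem (inv_mem (mI hu)) (inv_mem (mI hu'))
  obtain ⟨f, hf, c, e⟩ : ∃ f : ℤ → ℤ, (∀ k, ∀ x ∈ S.U k, cn x m ∈ S.U (f k)) ∧
      ∃ c : ℤ, (∀ k, f k = k + 2 * c) ∨ ∀ k, f k = 2 * c + n - k := by
    obtain ⟨c, hm | hm⟩ := hm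
    · exact ⟨_, hm, c, .inl fun _ => rfl⟩
    · exact ⟨_, hm, c, .inr fun _ => rfl⟩
  have hf' : ∀ k, ∀ y ∈ U' k, cn y (φ m) ∈ U' (f k) := fun k y hy => by
    obtain ⟨x, hx, rfl⟩ := sj k y hy
    rw [← cφ]
    exact mem _ _ (hf k x hx)
  obtain ⟨t, ht⟩ := h'.nn_id e1 hf' e
  have e2 : φ m = 1 := h'.eq_one_of_nm e1 fun k y hy => h'.mem_per (hf' k y hy) (-t) (by rw [ht]; ring)
  have e3 : u * u' = 1 := inj 1 _ (I_mono (mul_mem hu hu') le_rfl (by omega)) (by rwa [e2, mul_one, ← map_mul] at hg)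
  have e4 : m ∈ Subgroup.center G := by
    have : (⊤ : Subgroup G) ≤ Subgroup.centralizer {m} := h.gen.ge.trans (iSup_le fun k x hx => by
      have := inj k _ (mem_I (mul_mem (inv_mem hx) (h.mem_per (hf k x hx) (-t) (by rw [ht]; ring))) le_rfl
        (by omega)) (by rw [map_mul, map_inv, cφ, e2, cn_one, inv_mul_cancel])
      exact Subgroup.mem_centralizer_singleton_iff.2 (cn_eq_iff.1 (inv_mul_eq_one.1 this).symm))
    exact Subgroup.mem_center_iff.2 fun x => Subgroup.mem_centralizer_singleton_iff.1 (this (Subgroup.mem_top x))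
  rwa [Subgroup.mem_center_iff.1 e4 u, mul_assoc, e3, mul_one]

theorem I_subgroupOf {H : Type*} [Group H] {D : ℤ → Subgroup H} {E : Subgroup H} (hE : ∀ k, D k ≤ E) {x : E} :
    x ∈ I (fun k => (D k).subgroupOf E) i j ↔ x.1 ∈ I D i j := by
  refine ⟨fun hx => I_ind (P := fun x : E => x.1 ∈ I D i j) hx (fun k e1 e2 a ha => mem_I (k := k) ha e1 e2)
    (one_mem _) fun _ _ => mul_mem, fun hx => ?_⟩
  obtain ⟨y, hy, e⟩ := I_ind (P := fun x => ∃ y ∈ I (fun k => (D k).subgroupOf E) i j, y.1 = x) hx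
    (fun k e1 e2 a ha => ⟨⟨a, hE k ha⟩, mem_I (k := k) ha e1 e2, rfl⟩) ⟨1, one_mem _, rfl⟩
    (by rintro _ _ ⟨a, ha, rfl⟩ ⟨b, hb, rfl⟩; exact ⟨a * b, mul_mem ha hb, rfl⟩)
  rwa [← Subtype.ext e]

namespace Diag

variable [Finite G'] {D : ℤ → Subgroup (G × G')} (hD : Diag n S S' D) {p q : G × G'}
include hD

omit [Finite G] [Finite G'] in
theorem win (i : ℤ) : Win n S S' D i :=
  ⟨fun _ _ => hD.le, fun _ _ => hD.on1, fun _ _ => hD.on2, hD.gr i⟩

omit [Finite G] [Finite G'] in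
theorem per' (i c : ℤ) : D (i + 2 * n * c) = D i := by
  induction c using Int.induction_on with
  | zero => simp
  | succ c ih => rw [show i + 2 * n * (c + 1 : ℤ) = i + 2 * n * c + 2 * n by ring, hD.per, ih]
  | pred c ih => rw [← hD.per, show i + 2 * n * (-c - 1 : ℤ) + 2 * n = i + 2 * n * (-c) by ring, ih]

variable (h : RK n S) (h' : RK n S')
include h h'

theorem la (hp : p ∈ D i) (p1 : p ≠ 1) : (S.la p.1, S'.la p.2) ∈ D (i + n) := by
  obtain ⟨a1, a1'⟩ := (hD.win i).ne1 h hp p1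
  have e1 := inv_mem (hD.ka (inv_mem hp) (inv_ne_one.2 p1))
  rwa [Prod.fst_inv, Prod.snd_inv, (h.ka_inv (hD.le hp).1 a1).1, (h'.ka_inv (hD.le hp).2 a1').1, Prod.inv_mk,
    inv_inv, inv_inv] at e1

theorem mu0 (hp : p ∈ D i) (p1 : p ≠ 1) (hq : q ∈ D j) (h1 : i ≤ j) (h2 : j < i + n) :
    cn q (S.mu p.1, S'.mu p.2) ∈ D (2 * i + n - j) := by
  have h3 := h.three
  have W := hD.win i
  obtain ⟨a1, a1'⟩ := W.ne1 h hp p1
  have n1 : ∀ {p}, p ∈ D i → p ∈ Subgroup.normalizer (I D (i + 1) (i + n - 1) : Set (G × G')) := fun hp =>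
    nm_of fun _ => hD.lo hp
  have n2 : ∀ {p}, p ∈ D (i + n) → p ∈ Subgroup.normalizer (I D (i + 1) (i + n - 1) : Set (G × G')) := fun hp =>
    nm_of fun _ => hD.hi hp
  have hm : (S.mu p.1, S'.mu p.2) ∈ Subgroup.normalizer (I D (i + 1) (i + n - 1) : Set (G × G')) :=
    mul_mem (mul_mem (n2 (hD.ka hp p1)) (n1 hp)) (n2 (hD.la h h' hp p1))
  have e1 := (h.act_mu (hD.le hp).1 a1).mU (hD.le hq).1
  rcases h1.eq_or_lt with rfl | h1
  · have e2 := (h'.act_mu (hD.le hp).2 a1').mU (hD.le hq).2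
    rw [show 2 * i + n - i = i + n by ring] at e1 e2 ⊢
    obtain ⟨y, hy⟩ := hD.on1 e1
    have := (W.nm_gr h h' (p := (_, y)⁻¹ * cn q (S.mu p.1, S'.mu p.2)) (mul_mem (inv_mem e1) e1)
      (mul_mem (inv_mem (hD.le hy).2) e2) (mul_mem (inv_mem (n2 hy)) (cn_mem (n1 hq) hm))).1 (inv_mul_cancel _)
    rwa [show y = cn q.2 (S'.mu p.2) from inv_mul_eq_one.1 this] at hy
  · exact I_self (W.res (I_mono (nm_cn hm (mem_I hq (by omega) (by omega))) (by omega) le_rfl)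
      (mem_I e1 le_rfl le_rfl) (by omega) (by omega)) le_rfl le_rfl

theorem mu (hp : p ∈ D i) (p1 : p ≠ 1) (hq : q ∈ D j) : cn q (S.mu p.1, S'.mu p.2) ∈ D (2 * i + n - j) := by
  obtain ⟨k, c, h1, h2, rfl⟩ := nf_idx h.three j i
  rw [hD.per'] at hq
  rw [← hD.per' _ c, show 2 * i + n - (k + 2 * n * c) + 2 * n * c = 2 * i + n - k by ring]
  by_cases e : k < i + n
  · exact hD.mu0 h h' hp p1 hq h1 e
  obtain ⟨a1, a1'⟩ := (hD.win i).ne1 h hp p1
  have := hD.mu0 h h' (hD.la h h' hp p1) (fun e => h.la_ne (hD.le hp).1 a1 (congrArg Prod.fst e)) hq (by omega)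
    (by omega)
  rwa [h.mu_la (hD.le hp).1 a1, h'.mu_la (hD.le hp).2 a1', show 2 * (i + n) + n - k = 2 * i + n - k + 2 * n by ring,
    hD.per] at this

theorem rg : RG n fun k => (D k).subgroupOf (⨆ k, D k) where
  three := h.three
  per i := by rw [hD.per]
  ne i e := by
    obtain ⟨x, hx, x1⟩ := h.exists_ne i
    obtain ⟨y, hy⟩ := hD.on1 hx
    have : (⟨(x, y), le_iSup D i hy⟩ : ↥(⨆ k, D k)) ∈ (D i).subgroupOf (⨆ k, D k) := hy
    rw [e] at this
    exact x1 (congrArg (fun z : ↥(⨆ k, D k) => z.1.1) this)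
  comm {i j} h1 h2 a ha b hb := (I_subgroupOf (le_iSup D)).2 ((hD.win i).res
    (mul_mem (mul_mem (mul_mem (inv_mem (mem_I (U := D) ha le_rfl (by omega)))
      (inv_mem (mem_I (U := D) hb (by omega) (by omega)))) (mem_I (U := D) ha le_rfl (by omega)))
      (mem_I (U := D) hb (by omega) (by omega)))
    (h.cm_mem (hD.le ha).1 (hD.le hb).1 (by omega) (by omega)) (by omega) (by omega))
  mu i a ha a1 := by
    have a1' : a.1 ≠ 1 := fun e => a1 (Subtype.ext e)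
    exact ⟨⟨_, le_iSup D _ (hD.ka ha a1')⟩, hD.ka ha a1', ⟨_, le_iSup D _ (hD.la h h' ha a1')⟩, hD.la h h' ha a1',
      fun j x hx => hD.mu h h' ha a1' hx⟩
  opp i := eq_bot_iff.2 fun a ha => by
    have h3 := h.three
    have e := (I_subgroupOf (le_iSup D)).1 ha.2
    exact Subtype.ext (Prod.ext (h.hi (hD.le ha.1).1 ((hD.win i).fst e le_rfl le_rfl) (by omega) le_rfl)
      (h'.hi (hD.le ha.1).2 ((hD.win i).snd e le_rfl le_rfl) (by omega) le_rfl))
  gen := by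
    rw [eq_top_iff]
    rintro ⟨x, hx⟩ -
    refine Subgroup.iSup_induction' D (C := fun x hx => (⟨x, hx⟩ : ↥(⨆ k, D k)) ∈ ⨆ k, (D k).subgroupOf (⨆ k, D k))
      (fun k x hx => ?_) (one_mem _) (fun _ _ _ _ => mul_mem) hx
    exact Subgroup.mem_iSup_of_mem k hx

end Diag

theorem Diag.exists_hom [Finite G'] {S' : Sys G'} {D : ℤ → Subgroup (G × G')} (hD : Diag n S S' D) (h : RK n S)
    (h' : RK n S') (hz : Subgroup.center G = ⊥) :
    ∃ π : G' →* G, Surjective π ∧ π.ker ≤ Subgroup.center G' := by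
  let φ : ↥(⨆ k, D k) →* G := (MonoidHom.fst G G').comp (Subgroup.subtype _)
  let ψ : ↥(⨆ k, D k) →* G' := (MonoidHom.snd G G').comp (Subgroup.subtype _)
  have o1 : ∀ k, ∀ y ∈ S.U k, ∃ x ∈ (D k).subgroupOf (⨆ k, D k), φ x = y := fun k y hy => by
    obtain ⟨z, hz⟩ := hD.on1 hy
    exact ⟨⟨_, le_iSup D k hz⟩, hz, rfl⟩
  have o2 : ∀ k, ∀ y ∈ S'.U k, ∃ x ∈ (D k).subgroupOf (⨆ k, D k), ψ x = y := fun k y hy => by
    obtain ⟨z, hz⟩ := hD.on2 hy
    exact ⟨⟨_, le_iSup D k hz⟩, hz, rfl⟩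
  have s1 : Surjective φ := MonoidHom.range_eq_top.1 (eq_top_iff.2 (h.gen.ge.trans (iSup_le fun k y hy => by
    obtain ⟨x, -, e⟩ := o1 k y hy
    exact ⟨x, e⟩)))
  have s2 : Surjective ψ := MonoidHom.range_eq_top.1 (eq_top_iff.2 (h'.gen.ge.trans (iSup_le fun k y hy => by
    obtain ⟨x, -, e⟩ := o2 k y hy
    exact ⟨x, e⟩)))
  have k1 := (hD.rg h h').ker_le h.toRG φ (fun k x hx => (hD.le hx).1) o1 fun i x hx e =>
    Subtype.ext (Prod.ext e ((hD.gr i ((I_subgroupOf (le_iSup D)).1 hx)).1 e))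
  have k2 := (hD.rg h h').ker_le h'.toRG ψ (fun k x hx => (hD.le hx).2) o2 fun i x hx e =>
    Subtype.ext (Prod.ext ((hD.gr i ((I_subgroupOf (le_iSup D)).1 hx)).2 e) e)
  have i2 : Injective ψ := (injective_iff_map_eq_one ψ).2 fun x e => by
    have : φ x ∈ Subgroup.center G := Subgroup.mem_center_iff.2 fun y => by
      obtain ⟨y, rfl⟩ := s1 y
      rw [← map_mul, Subgroup.mem_center_iff.1 (k2 e) y, map_mul]
    exact Subtype.ext (Prod.ext (hz.le this) e)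
  let ε := MulEquiv.ofBijective ψ ⟨i2, s2⟩
  refine ⟨φ.comp ε.symm.toMonoidHom, s1.comp ε.symm.surjective, fun x hx => ?_⟩
  obtain ⟨x, rfl⟩ := ε.surjective x
  have e : φ x = 1 := by simpa using hx
  refine Subgroup.mem_center_iff.2 fun y => ?_
  obtain ⟨y, rfl⟩ := ε.surjective y
  rw [← map_mul, Subgroup.mem_center_iff.1 (k1 e) y, map_mul]

end Cfsg.Lib.MO
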