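import Cfsg.Agent.MO.IsoA
import Cfsg.Agent.MO.IsoB

/-!
# Root group data of rank two: the isomorphism theorem
-/

set_option autoImplicit false

namespace Cfsg.Lib.MO

open Function

variable {G G' : Type*} [Group G] [Group G'] [Finite G] [Finite G'] {n : ℕ} {U : ℤ → Subgroup G}
  {U' : ℤ → Subgroup G'} (h : RG n U) (h' : RG n U') {P : Type*} [Group P] (ι : P →* G) (ι' : P →* G')
  (hι : Injective ι) (hι' : Injective ι') (A : ℤ → Subgroup P) (hA : ∀ k : ℤ, 1 ≤ k → k ≤ n → (A k).map ι = U k)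
  (hA' : ∀ k : ℤ, 1 ≤ k → k ≤ n → (A k).map ι' = U' k) (hz : Subgroup.center G = ⊥)
include h h' hι hι' hA hA' hz

theorem RG.exists_hom : ∃ π : G' →* G, Surjective π ∧ π.ker ≤ Subgroup.center G' := by
  obtain ⟨S, rfl, hS⟩ := h.exists_RK
  obtain ⟨S', rfl, hS'⟩ := h'.exists_RK
  obtain ⟨D, hD⟩ := hS.exists_diag hS' ι ι' hι hι' A hA hA'
  exact hD.exists_hom hS hS' hz

theorem RG.iso (hz' : Subgroup.center G' = ⊥) : Nonempty (G ≃* G') := by
  obtain ⟨π, h1, h2⟩ := h.exists_hom h' ι ι' hι hι' A hA hA' hz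
  exact ⟨(MulEquiv.ofBijective π ⟨(MonoidHom.ker_eq_bot_iff π).1 (le_bot_iff.1 (hz' ▸ h2)), h1⟩).symm⟩

end Cfsg.Lib.MO
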