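import Cfsg.Agent.MO.D8

/-!
# Root group data of rank two: extending an isomorphism of the unipotent groups to all root groups
-/

set_option autoImplicit false

namespace Cfsg.Lib.MO

open Function

variable {G G' : Type*} [Group G] [Group G'] {S : Sys G} {S' : Sys G'} {n : ℕ}
variable {D D' : ℤ → Subgroup (G × G')} {i j k l : ℤ} {p q : G × G'}

theorem nm_of {H : Type*} [Group H] [Finite H] {R : Subgroup H} {g : H} (e : ∀ x ∈ R, cn x g ∈ R) :
    g ∈ Subgroup.normalizer (R : Set H) := by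
  refine inv_mem_iff.1 (Subgroup.mem_normalizer_fintype fun x hx => ?_)
  simpa [cn] using e x hx

theorem nm_cn {H : Type*} [Group H] {R : Subgroup H} {g x : H} (hg : g ∈ Subgroup.normalizer (R : Set H))
    (hx : x ∈ R) : cn x g ∈ R := by
  simpa [cn] using (Subgroup.mem_normalizer_iff.1 (inv_mem hg) x).1 hx

theorem cn_fst (p q : G × G') : (cn p q).1 = cn p.1 q.1 := rfl
theorem cn_snd (p q : G × G') : (cn p q).2 = cn p.2 q.2 := rfl

theorem RK.cent [Finite G] (h : RK n S) {y : G} (hy : y ∈ S.U (i + n)) (e : ∀ t ∈ S.U (i + 1), cn t y = t) :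
    y = 1 := by
  by_contra y1
  have h3 := h.three
  obtain ⟨t, ht, t1⟩ := h.exists_ne (i + 1)
  have hk : S.ka y ∈ S.U i := h.mem_per (h.ka_mem hy y1) (-1) (by ring)
  have hl : S.la y ∈ S.U i := h.mem_per (h.la_mem hy y1) (-1) (by ring)
  have e1 := RK.star' (S := S) (h.adj hk ht rfl).symm
  rw [e t ht] at e1
  have e2 : cn t (S.la y) = cn t (S.mu y) := by
    conv_lhs => rw [e1]
    rw [cn_inv_cn]
  rw [cn_of_comm (h.adj hl ht rfl).symm] at e2
  have e3 : t ∈ S.U (i + n - 1) := e2 ▸ h.mem_per ((h.act_mu hy y1).mU ht) (-1) (by ring)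
  exact t1 (h.U_disj ht e3 (by omega) (by omega))

/-- A family of graphs on a window of `n` consecutive indices. -/
structure Win (n : ℕ) (S : Sys G) (S' : Sys G') (D : ℤ → Subgroup (G × G')) (i : ℤ) : Prop where
  le : ∀ {k p}, i ≤ k → k ≤ i + n - 1 → p ∈ D k → p.1 ∈ S.U k ∧ p.2 ∈ S'.U k
  on1 : ∀ {k x}, i ≤ k → k ≤ i + n - 1 → x ∈ S.U k → ∃ y, (x, y) ∈ D k
  on2 : ∀ {k y}, i ≤ k → k ≤ i + n - 1 → y ∈ S'.U k → ∃ x, (x, y) ∈ D k
  gr : ∀ {p}, p ∈ I D i (i + n - 1) → (p.1 = 1 ↔ p.2 = 1)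

namespace Win

variable (W : Win n S S' D i)
include W

theorem fst (hp : p ∈ I D k l) (h1 : i ≤ k) (h2 : l ≤ i + n - 1) : p.1 ∈ I S.U k l :=
  I_ind (P := fun p => p.1 ∈ I S.U k l) hp
    (fun _ e1 e2 _ ha => mem_I (W.le (by omega) (by omega) ha).1 e1 e2) (one_mem _) fun _ _ => mul_mem

theorem snd (hp : p ∈ I D k l) (h1 : i ≤ k) (h2 : l ≤ i + n - 1) : p.2 ∈ I S'.U k l :=
  I_ind (P := fun p => p.2 ∈ I S'.U k l) hp
    (fun _ e1 e2 _ ha => mem_I (W.le (by omega) (by omega) ha).2 e1 e2) (one_mem _) fun _ _ => mul_mem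

theorem lift {x : G} (hx : x ∈ I S.U k l) (h1 : i ≤ k) (h2 : l ≤ i + n - 1) : ∃ y, (x, y) ∈ I D k l := by
  refine I_ind (P := fun x => ∃ y, (x, y) ∈ I D k l) hx (fun m e1 e2 a ha => ?_) ⟨1, one_mem _⟩ ?_
  · obtain ⟨y, hy⟩ := W.on1 (by omega) (by omega) ha
    exact ⟨y, mem_I hy e1 e2⟩
  · rintro a b ⟨y, hy⟩ ⟨z, hz⟩
    exact ⟨y * z, mul_mem hy hz⟩

theorem ext1 (hp : p ∈ I D i (i + n - 1)) (hq : q ∈ I D i (i + n - 1)) (e : p.1 = q.1) : p = q :=
  Prod.ext e (inv_mul_eq_one.1 ((W.gr (mul_mem (inv_mem hp) hq)).1 (inv_mul_eq_one.2 e)))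

theorem ext2 (hp : p ∈ I D i (i + n - 1)) (hq : q ∈ I D i (i + n - 1)) (e : p.2 = q.2) : p = q :=
  Prod.ext (inv_mul_eq_one.1 ((W.gr (mul_mem (inv_mem hp) hq)).2 (inv_mul_eq_one.2 e))) e

theorem res (hp : p ∈ I D i (i + n - 1)) (hx : p.1 ∈ I S.U k l) (h1 : i ≤ k) (h2 : l ≤ i + n - 1) :
    p ∈ I D k l := by
  obtain ⟨y, hy⟩ := W.lift hx h1 h2
  rwa [W.ext1 hp (I_mono hy h1 h2) rfl]

theorem tr (h : RK n S) (h' : RK n S') (c : ℤ) (e0 : j = i + 2 * n * c)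
    (e : ∀ k, i ≤ k → k ≤ i + n - 1 → D' (k + 2 * n * c) = D k) : Win n S S' D' j := by
  have e1 : ∀ k, j ≤ k → k ≤ j + n - 1 → D' k = D (k - 2 * n * c) := fun k _ _ => by
    rw [← e _ (by omega) (by omega), sub_add_cancel]
  refine ⟨fun h1 h2 hp => ?_, fun h1 h2 hx => ?_, fun h1 h2 hx => ?_, fun hp => W.gr ?_⟩
  · rw [e1 _ h1 h2] at hp
    obtain ⟨a, b⟩ := W.le (by omega) (by omega) hp
    exact ⟨h.mem_per a c (by ring), h'.mem_per b c (by ring)⟩
  · rw [e1 _ h1 h2]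
    exact W.on1 (by omega) (by omega) (h.mem_per hx (-c) (by ring))
  · rw [e1 _ h1 h2]
    exact W.on2 (by omega) (by omega) (h'.mem_per hx (-c) (by ring))
  · exact I_le (fun k h1 h2 _ ha => mem_I (e1 k h1 h2 ▸ ha) (by omega) (by omega)) hp

theorem ne1 (h : RK n S) (hp : p ∈ D i) (p1 : p ≠ 1) : p.1 ≠ 1 ∧ p.2 ≠ 1 := by
  have h3 := h.three
  have := W.gr (mem_I hp le_rfl (by omega))
  exact ⟨fun e => p1 (Prod.ext e (this.1 e)), fun e => p1 (Prod.ext (this.2 e) e)⟩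

theorem lo (h : RK n S) (hp : p ∈ D i) (hq : q ∈ I D (i + 1) (i + n - 1)) : cn q p ∈ I D (i + 1) (i + n - 1) := by
  have h3 := h.three
  exact W.res (cn_mem (I_mono hq (by omega) le_rfl) (mem_I hp le_rfl (by omega)))
    (h.cn_U (W.le le_rfl (by omega) hp).1 (W.fst hq (by omega) le_rfl) le_rfl (by omega) (by omega) (by omega))
    (by omega) le_rfl

theorem hi (h : RK n S) (hp : p ∈ D (i + n - 1)) (hq : q ∈ I D i (i + n - 2)) : cn q p ∈ I D i (i + n - 2) := by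
  have h3 := h.three
  exact W.res (cn_mem (I_mono hq le_rfl (by omega)) (mem_I hp (by omega) le_rfl))
    (h.cn_U (W.le (by omega) le_rfl hp).1 (W.fst hq le_rfl (by omega)) (by omega) (by omega) (by omega) (by omega))
    le_rfl (by omega)

variable [Finite G] [Finite G'] (h : RK n S) (h' : RK n S')
include h h'

theorem nm_gr (h1 : p.1 ∈ S.U (i + n)) (h2 : p.2 ∈ S'.U (i + n))
    (hp : p ∈ Subgroup.normalizer (I D (i + 1) (i + n - 1) : Set (G × G'))) : p.1 = 1 ↔ p.2 = 1 := by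
  have h3 := h.three
  have key : ∀ q ∈ D (i + 1), q ∈ I D i (i + n - 1) ∧ cn q p ∈ I D i (i + n - 1) := fun q hq =>
    ⟨mem_I hq (by omega) (by omega), I_mono (nm_cn hp (mem_I hq le_rfl (by omega))) (by omega) le_rfl⟩
  refine ⟨fun e => h'.cent h2 fun t ht => ?_, fun e => h.cent h1 fun t ht => ?_⟩
  · obtain ⟨s, hs⟩ := W.on2 (by omega) (by omega) ht
    exact congrArg Prod.snd (W.ext1 (key _ hs).2 (key _ hs).1 (by rw [cn_fst, e, cn_one]))
  · obtain ⟨s, hs⟩ := W.on1 (by omega) (by omega) ht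
    exact congrArg Prod.fst (W.ext2 (key _ hs).2 (key _ hs).1 (by rw [cn_snd, e, cn_one]))

theorem nm_ka (hp : p ∈ D i) (p1 : p ≠ 1) :
    (S.ka p.1, S'.ka p.2) ∈ Subgroup.normalizer (I D (i + 1) (i + n - 1) : Set (G × G')) := by
  have h3 := h.three
  obtain ⟨a1, a1'⟩ := W.ne1 h hp p1
  obtain ⟨ha, ha'⟩ := W.le le_rfl (by omega) hp
  refine nm_of fun q hq => I_cn hq fun j e1 e2 q hq => ?_
  obtain ⟨hy, hy'⟩ := W.le (by omega) e2 hq
  have hk := h.ka_mem ha a1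
  have hk' := h'.ka_mem ha' a1'
  obtain ⟨r, hr, er⟩ := h.cn_bot hy (mem_I hk (i := j + 1) (by omega) le_rfl) (by omega)
  obtain ⟨r', hr'⟩ := W.lift hr (by omega) le_rfl
  have hw : q * (r, r') ∈ I D (i + 1) (i + n - 1) := mul_mem (mem_I hq e1 e2) (I_mono hr' (by omega) le_rfl)
  have e3 : (cn (q * (r, r')) p).1 ∈ I S.U (2 * i + n - j) (i + n - 1) := by
    rw [cn_fst, Prod.fst_mul, ← er, RK.star]
    exact h.cn_U (inv_mem (h.la_mem ha a1)) (mem_I ((h.act_mu ha a1).mU hy) le_rfl (by omega)) (by omega)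
      (by omega) (by omega) (by omega)
  have e4 := W.snd (W.res (I_mono (W.lo h hp hw) (by omega) le_rfl) e3 (by omega) le_rfl) (by omega) le_rfl
  have e5 := ((h'.act_mu ha' a1').inv (f' := fun k => 2 * i + n - k) fun _ => by ring).I_neg
    (h'.cn_U (h'.la_mem ha' a1') e4 (by omega) (by omega) (by omega) (by omega))
  have e6 : cn (cn (cn (q * (r, r')) p).2 (S'.la p.2)) (S'.mu p.2)⁻¹ = cn (q.2 * r') (S'.ka p.2)⁻¹ := by
    rw [cn_snd, Prod.snd_mul]; unfold cn Sys.mu; group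
  obtain ⟨s, hs, es⟩ := h'.cn_bot hy' (mem_I (inv_mem hk') (i := j + 1) (by omega) le_rfl) (by omega)
  have hs' := h'.cn_U (inv_mem hk') (W.snd hr' (by omega) le_rfl) (by omega) (by omega) (by omega) (by omega)
  rw [e6, cn_mul, es, mul_assoc] at e5
  have e7 : s * cn r' (S'.ka p.2)⁻¹ = 1 := h'.disj (i := i + 1) (j := j) (by
    simpa using mul_mem (inv_mem (mem_I hy' e1 le_rfl)) (I_mono e5 (by omega) (by omega))) (mul_mem hs hs')
    (by omega) (by omega) (by omega)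
  have e8 : cn (q.2 * r') (S'.ka p.2)⁻¹ = q.2 := by rw [cn_mul, es, mul_assoc, e7, mul_one]
  have e9 : cn q (S.ka p.1, S'.ka p.2) = q * (r, r') := Prod.ext er (by
    rw [cn_snd]
    conv_lhs => rw [← e8]
    rw [cn_inv_cn]; rfl)
  rwa [e9]

theorem step : ∃ E : Subgroup (G × G'), (∀ p ∈ D i, p ≠ 1 → (S.ka p.1, S'.ka p.2) ∈ E) ∧
    Win n S S' (update D (i + n) E) (i + 1) := by
  have h3 := h.three
  let E := (S.U (i + n)).prod (S'.U (i + n)) ⊓ Subgroup.normalizer (I D (i + 1) (i + n - 1) : Set (G × G'))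
  have hE : ∀ p ∈ D i, p ≠ 1 → (S.ka p.1, S'.ka p.2) ∈ E := fun p hp p1 =>
    ⟨⟨h.ka_mem (W.le le_rfl (by omega) hp).1 (W.ne1 h hp p1).1,
      h'.ka_mem (W.le le_rfl (by omega) hp).2 (W.ne1 h hp p1).2⟩, W.nm_ka h h' hp p1⟩
  have cs : ∀ k, i + 1 ≤ k → k ≤ i + 1 + n - 1 →
      (k ≤ i + n - 1 ∧ update D (i + n) E k = D k) ∨ (k = i + n ∧ update D (i + n) E k = E) := fun k _ _ => by
    by_cases e : k = i + n
    · exact .inr ⟨e, by rw [e, update_self]⟩
    · exact .inl ⟨by omega, update_of_ne e _ _⟩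
  refine ⟨E, hE, fun {k p} h1 h2 hp => ?_, fun {k x} h1 h2 hx => ?_, fun {k x} h1 h2 hx => ?_, fun {p} hp => ?_⟩
  · rcases cs k h1 h2 with ⟨e, e'⟩ | ⟨rfl, e'⟩ <;> rw [e'] at hp
    · exact W.le (by omega) e hp
    · exact hp.1
  · rcases cs k h1 h2 with ⟨e, e'⟩ | ⟨rfl, e'⟩ <;> rw [e']
    · exact W.on1 (by omega) e hx
    · by_cases x1 : x = 1
      · exact ⟨1, x1 ▸ one_mem _⟩
      obtain ⟨y, hy⟩ := W.on1 le_rfl (by omega) (h.mem_per (h.la_mem hx x1) (-1) (by ring))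
      have := hE _ hy fun e => h.la_ne hx x1 (congrArg Prod.fst e)
      rw [(h.ka_la hx x1).1] at this
      exact ⟨_, this⟩
  · rcases cs k h1 h2 with ⟨e, e'⟩ | ⟨rfl, e'⟩ <;> rw [e']
    · exact W.on2 (by omega) e hx
    · by_cases x1 : x = 1
      · exact ⟨1, x1 ▸ one_mem _⟩
      obtain ⟨y, hy⟩ := W.on2 le_rfl (by omega) (h'.mem_per (h'.la_mem hx x1) (-1) (by ring))
      have := hE _ hy fun e => h'.la_ne hx x1 (congrArg Prod.snd e)
      rw [(h'.ka_la hx x1).1] at this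
      exact ⟨_, this⟩
  · obtain ⟨r, hr, e, he, rfl⟩ : ∃ r ∈ I D (i + 1) (i + n - 1), ∃ e ∈ E, p = r * e := by
      refine I_ind (P := fun p => ∃ r ∈ I D (i + 1) (i + n - 1), ∃ e ∈ E, p = r * e) hp (fun k h1 h2 a ha => ?_)
        ⟨1, one_mem _, 1, one_mem _, by simp⟩ ?_
      · rcases cs k h1 h2 with ⟨e, e'⟩ | ⟨rfl, e'⟩ <;> rw [e'] at ha
        · exact ⟨a, mem_I ha h1 e, 1, one_mem _, by simp⟩
        · exact ⟨1, one_mem _, a, ha, by simp⟩
      · rintro _ _ ⟨r, hr, e, he, rfl⟩ ⟨r', hr', e', he', rfl⟩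
        exact ⟨r * cn r' e⁻¹, mul_mem hr (nm_cn (inv_mem he.2) hr'), e * e', mul_mem he he', by unfold cn; group⟩
    have g1 := W.gr (I_mono hr (by omega) le_rfl)
    have g2 := W.nm_gr h h' he.1.1 he.1.2 he.2
    refine ⟨fun e1 => ?_, fun e1 => ?_⟩
    · obtain ⟨a, b⟩ := h.top_inj he.1.1 (one_mem _) (W.fst hr (by omega) le_rfl) (one_mem _) (by omega)
        (by omega) (e1.trans (mul_one 1).symm)
      rw [Prod.snd_mul, g1.1 a, g2.1 b, mul_one]
    · obtain ⟨a, b⟩ := h'.top_inj he.1.2 (one_mem _) (W.snd hr (by omega) le_rfl) (one_mem _) (by omega)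
        (by omega) (e1.trans (mul_one 1).symm)
      rw [Prod.fst_mul, g1.2 a, g2.2 b, mul_one]

end Win

variable [Finite G] [Finite G']

theorem Win.iter (h : RK n S) (h' : RK n S') (W : Win n S S' D 1) (N : ℕ) :
    ∃ D : ℤ → Subgroup (G × G'), (∀ i : ℤ, 1 ≤ i → i ≤ N + 1 → Win n S S' D i) ∧
      ∀ i : ℤ, 1 ≤ i → i ≤ N → ∀ p ∈ D i, p ≠ 1 → (S.ka p.1, S'.ka p.2) ∈ D (i + n) := by
  have h3 := h.three
  induction N with
  | zero => exact ⟨D, fun i _ _ => by rwa [show i = 1 by omega], fun i _ _ => by omega⟩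
  | succ N ih =>
    obtain ⟨D, hW, hk⟩ := ih
    obtain ⟨E, hE, W'⟩ := (hW (N + 1) (by omega) le_rfl).step h h'
    refine ⟨update D (N + 1 + n) E, fun i h1 h2 => ?_, fun i h1 h2 p hp p1 => ?_⟩
    · by_cases e : i = N + 1 + 1
      · rwa [e]
      · exact (hW i h1 (by omega)).tr h h' 0 (by ring) fun k _ _ => by
          rw [mul_zero, add_zero, update_of_ne (by omega)]
    · rw [update_of_ne (by omega)] at hp
      by_cases e : i = N + 1
      · subst e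
        rw [update_self]
        exact hE p hp p1
      · rw [update_of_ne (by omega)]
        exact hk i h1 (by omega) p hp p1

theorem Win.diag (h : RK n S) (h' : RK n S') (W : Win n S S' D 1) : ∃ D, Diag n S S' D := by
  have h3 := h.three
  obtain ⟨D, hW, hk⟩ := W.iter h h' (3 * n)
  have up : ∀ k : ℤ, 1 ≤ k → k ≤ n → D k ≤ D (k + 2 * n) := fun k h1 h2 p hp => by
    by_cases p1 : p = 1
    · exact p1 ▸ one_mem _
    have W := hW k h1 (by omega)
    obtain ⟨a1, a1'⟩ := W.ne1 h hp p1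
    obtain ⟨ha, ha'⟩ := W.le le_rfl (by omega) hp
    have e1 := inv_mem (hk k h1 (by omega) _ (inv_mem hp) (inv_ne_one.2 p1))
    rw [Prod.fst_inv, Prod.snd_inv, (h.ka_inv ha a1).1, (h'.ka_inv ha' a1').1, Prod.inv_mk, inv_inv, inv_inv] at e1
    have e2 := hk (k + n) (by omega) (by omega) _ e1 fun e => h.la_ne ha a1 (congrArg Prod.fst e)
    rwa [(h.ka_la ha a1).1, (h'.ka_la ha' a1').1, show k + n + n = k + 2 * n by ring] at e2
  have per : ∀ k : ℤ, 1 ≤ k → k ≤ n → D (k + 2 * n) = D k := fun k h1 h2 => le_antisymm (fun p hp => by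
    have W := hW (k + 2 * n) (by omega) (by omega)
    obtain ⟨y, hy⟩ := (hW k h1 (by omega)).on1 le_rfl (by omega)
      (h.mem_per (W.le le_rfl (by omega) hp).1 (-1) (by ring))
    rwa [W.ext1 (mem_I hp le_rfl (by omega)) (mem_I (up k h1 h2 hy) le_rfl (by omega)) rfl]) (up k h1 h2)
  have hn : (0 : ℤ) < 2 * n := by omega
  let D' : ℤ → Subgroup (G × G') := fun k => D (1 + (k - 1) % (2 * n))
  have eD : ∀ k c : ℤ, 1 ≤ k → k ≤ 3 * n → D' (k + 2 * n * c) = D k := fun k c h1 h2 => by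
    simp only [D']
    rw [show k + 2 * n * c - 1 = k - 1 + 2 * n * c by ring, Int.add_mul_emod_self_left]
    by_cases e : k ≤ 2 * n
    · rw [Int.emod_eq_of_lt (by omega) (by omega), add_sub_cancel]
    · rw [show k - 1 = k - 1 - 2 * n + 2 * n by ring, Int.add_emod_right, Int.emod_eq_of_lt (by omega) (by omega),
        ← per _ (by omega) (by omega)]
      congr 1; ring
  have nf : ∀ i : ℤ, ∃ k c : ℤ, 1 ≤ k ∧ k ≤ 2 * n ∧ i = k + 2 * n * c := fun i =>
    ⟨1 + (i - 1) % (2 * n), (i - 1) / (2 * n), by have := Int.emod_nonneg (i - 1) hn.ne'; omega,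
      by have := Int.emod_lt_of_pos (i - 1) hn; omega, by have := Int.mul_ediv_add_emod (i - 1) (2 * n); omega⟩
  have WW : ∀ i, Win n S S' D' i := fun i => by
    obtain ⟨k, c, h1, h2, e⟩ := nf i
    exact (hW k h1 (by omega)).tr h h' c e fun m _ _ => eD m c (by omega) (by omega)
  refine ⟨D', fun {k p} => (WW k).le le_rfl (by omega), fun {k x} => (WW k).on1 le_rfl (by omega),
    fun {k x} => (WW k).on2 le_rfl (by omega), fun i p => (WW i).gr, fun i => ?_, fun {i p} hp p1 => ?_,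
    fun {i p q} => (WW i).lo h, fun {i p q} hp hq => ?_⟩
  · obtain ⟨k, c, h1, h2, rfl⟩ := nf i
    rw [eD k c h1 (by omega), show k + 2 * n * c + 2 * n = k + 2 * n * (c + 1) by ring, eD k _ h1 (by omega)]
  · obtain ⟨k, c, h1, h2, rfl⟩ := nf i
    rw [eD k c h1 (by omega)] at hp
    rw [show k + 2 * n * c + n = k + n + 2 * n * c by ring, eD _ c (by omega) (by omega)]
    exact hk k h1 (by omega) p hp p1
  · exact I_mono ((WW (i + 1)).hi h (by rwa [show i + 1 + n - 1 = i + n by ring]) (I_mono hq le_rfl (by omega)))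
      le_rfl (by omega)

theorem RK.exists_diag {S' : Sys G'} (h : RK n S) (h' : RK n S') {P : Type*} [Group P] (ι : P →* G)
    (ι' : P →* G') (hι : Injective ι) (hι' : Injective ι') (A : ℤ → Subgroup P)
    (hA : ∀ k : ℤ, 1 ≤ k → k ≤ n → (A k).map ι = S.U k) (hA' : ∀ k : ℤ, 1 ≤ k → k ≤ n → (A k).map ι' = S'.U k) :
    ∃ D, Diag n S S' D := by
  refine Win.diag (D := fun k => (A k).map (ι.prod ι')) h h' ⟨?_, fun {k x} h1 h2 hx => ?_,
    fun {k x} h1 h2 hx => ?_, fun {p} hp => ?_⟩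
  · rintro k _ h1 h2 ⟨a, ha, rfl⟩
    exact ⟨hA k h1 (by omega) ▸ ⟨a, ha, rfl⟩, hA' k h1 (by omega) ▸ ⟨a, ha, rfl⟩⟩
  · rw [← hA k h1 (by omega)] at hx
    obtain ⟨a, ha, rfl⟩ := hx
    exact ⟨ι' a, a, ha, rfl⟩
  · rw [← hA' k h1 (by omega)] at hx
    obtain ⟨a, ha, rfl⟩ := hx
    exact ⟨ι a, a, ha, rfl⟩
  · obtain ⟨a, rfl⟩ : p ∈ (ι.prod ι').range := I_le (fun k _ _ => Subgroup.map_le_range _ _) hp
    exact (map_eq_one_iff ι hι).trans (map_eq_one_iff ι' hι').symm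

end Cfsg.Lib.MO
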