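import Cfsg.Agent.MO.Defs
import Mathlib.Algebra.Group.Subgroup.Finite
import Mathlib.Algebra.Group.Subgroup.Pointwise
import Mathlib.Data.Set.Card
import Mathlib.Tactic.Linarith
import Mathlib.Tactic.Ring

/-!
# Root group data of rank two: products of root groups
-/

set_option autoImplicit false

namespace Cfsg.Lib.MO

variable {G : Type*} [Group G] {n : ℕ} {U : ℤ → Subgroup G} {S : Sys G}
variable {i j k l m c : ℤ} {a b g r s t x y : G}

theorem cn_mul (x y g : G) : cn (x * y) g = cn x g * cn y g := by unfold cn; group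
theorem cn_inv (x g : G) : cn x⁻¹ g = (cn x g)⁻¹ := by unfold cn; group
@[simp] theorem one_cn (g : G) : cn 1 g = 1 := by unfold cn; group
@[simp] theorem cn_one (x : G) : cn x 1 = x := by unfold cn; group
theorem cn_cn (x g h : G) : cn (cn x g) h = cn x (g * h) := by unfold cn; group
@[simp] theorem cn_cn_inv (x g : G) : cn (cn x g) g⁻¹ = x := by unfold cn; group
@[simp] theorem cn_inv_cn (x g : G) : cn (cn x g⁻¹) g = x := by unfold cn; group
theorem cn_conj (x g h : G) : cn (cn x g) h = cn (cn x h) (cn g h) := by unfold cn; group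
theorem cn_inj (h : cn x g = cn y g) : x = y := by simpa using congrArg (cn · g⁻¹) h
theorem cn_ne (h : x ≠ 1) (g : G) : cn x g ≠ 1 := fun e => h (cn_inj (e.trans (one_cn g).symm))
theorem cn_eq_iff : cn x g = x ↔ x * g = g * x := by
  unfold cn; rw [mul_assoc, inv_mul_eq_iff_eq_mul]
theorem cn_of_comm (h : x * g = g * x) : cn x g = x := cn_eq_iff.2 h
theorem cn_eq (x g : G) : cn x g = x * cm x g := by unfold cn cm; group
theorem cm_eq (x g : G) : cm x g = x⁻¹ * cn x g := by unfold cn cm; group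
theorem cm_eq' (x g : G) : cm x g = (cn g x)⁻¹ * g := by unfold cn cm; group
theorem cm_inv (x g : G) : (cm x g)⁻¹ = cm g x := by unfold cm; group
theorem cn_cm (x y g : G) : cn (cm x y) g = cm (cn x g) (cn y g) := by unfold cn cm; group
theorem cm_mul_left (x y g : G) : cm (x * y) g = cn (cm x g) y * cm y g := by unfold cn cm; group
theorem cm_mul_right (x g h : G) : cm x (g * h) = cm x h * cn (cm x g) h := by unfold cn cm; group
theorem cm_eq_one : cm x g = 1 ↔ x * g = g * x := by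
  rw [cm_eq, inv_mul_eq_one, eq_comm, cn_eq_iff]
theorem mul_eq_cm (x g : G) : x * g = g * x * cm x g := by unfold cm; group
theorem cn_mem {H : Subgroup G} (hx : x ∈ H) (hg : g ∈ H) : cn x g ∈ H :=
  H.mul_mem (H.mul_mem (H.inv_mem hg) hx) hg
theorem comm_cn (h : x * y = y * x) (g : G) : cn x g * cn y g = cn y g * cn x g := by
  rw [← cn_mul, h, cn_mul]
theorem comm_inv (h : x * y = y * x) : x * y⁻¹ = y⁻¹ * x := (Commute.inv_right h).eq
theorem comm_mul {z : G} (h : x * y = y * x) (h' : x * z = z * x) : x * (y * z) = y * z * x :=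
  (Commute.mul_right h h').eq

theorem mem_I (ha : a ∈ U k) (h1 : i ≤ k) (h2 : k ≤ j) : a ∈ I U i j :=
  (le_iSup₂_of_le (f := fun k (_ : k ∈ Set.Icc i j) => U k) k ⟨h1, h2⟩ le_rfl : U k ≤ I U i j) ha

theorem I_le {H : Subgroup G} (h : ∀ k, i ≤ k → k ≤ j → U k ≤ H) : I U i j ≤ H :=
  iSup₂_le fun k hk => h k hk.1 hk.2

theorem I_mono (hx : x ∈ I U i j) (h1 : k ≤ i) (h2 : j ≤ l) : x ∈ I U k l :=
  I_le (fun _ e1 e2 _ ha => mem_I ha (h1.trans e1) (e2.trans h2)) hx

theorem I_empty (hx : x ∈ I U i j) (h : j < i) : x = 1 :=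
  I_le (H := ⊥) (fun _ e1 e2 => absurd (e1.trans e2) h.not_ge) hx

theorem I_self (hx : x ∈ I U i j) (h1 : k ≤ i) (h2 : j ≤ k) : x ∈ U k :=
  I_le (fun q e1 e2 => by rw [show q = k by omega]) hx

theorem I_ind {P : G → Prop} (hx : x ∈ I U i j) (mem : ∀ k, i ≤ k → k ≤ j → ∀ a ∈ U k, P a) (one : P 1)
    (mul : ∀ a b, P a → P b → P (a * b)) : P x := by
  have e : I U i j = ⨆ k : Set.Icc i j, U k := iSup_subtype'
  rw [e] at hx
  exact Subgroup.iSup_induction _ (C := P) hx (fun k => mem k k.2.1 k.2.2) one mul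

theorem I_comm (hx : x ∈ I U i j) (h : ∀ k, i ≤ k → k ≤ j → ∀ a ∈ U k, y * a = a * y) : y * x = x * y :=
  I_ind (P := fun x => y * x = x * y) hx h (by simp) fun _ _ => comm_mul

theorem I_cn {U' : ℤ → Subgroup G} (hx : x ∈ I U i j)
    (h : ∀ q, i ≤ q → q ≤ j → ∀ a ∈ U q, cn a g ∈ I U' k l) : cn x g ∈ I U' k l :=
  I_ind (P := fun x => cn x g ∈ I U' k l) hx h (by simpa using one_mem _)
    fun _ _ h1 h2 => by rw [cn_mul]; exact mul_mem h1 h2

theorem I_neg : x ∈ I (fun k => U (c - k)) i j ↔ x ∈ I U (c - j) (c - i) :=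
  ⟨fun h => I_le (fun q _ _ _ ha => mem_I (k := c - q) ha (by omega) (by omega)) h,
   fun h => I_le (fun q _ _ _ ha => mem_I (k := c - q) (by simpa using ha) (by omega) (by omega)) h⟩

theorem I_add : x ∈ I (fun k => U (k + c)) i j ↔ x ∈ I U (i + c) (j + c) :=
  ⟨fun h => I_le (fun q _ _ _ ha => mem_I (k := q + c) ha (by omega) (by omega)) h,
   fun h => I_le (fun q _ _ _ ha => mem_I (k := q - c) (by simpa using ha) (by omega) (by omega)) h⟩

theorem I_rf : x ∈ I (S.rf c).U i j ↔ x ∈ I S.U (c - j) (c - i) := I_neg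
theorem I_sh : x ∈ I (S.sh c).U i j ↔ x ∈ I S.U (i + c) (j + c) := I_add
theorem rf_rf (S : Sys G) (c : ℤ) : (S.rf c).rf c = S := by simp [Sys.rf]

namespace RG

variable (h : RG n U)
include h

theorem per' (i c : ℤ) : U (i + 2 * n * c) = U i := by
  induction c using Int.induction_on with
  | zero => simp
  | succ c ih => rw [show i + 2 * n * (c + 1 : ℤ) = i + 2 * n * c + 2 * n by ring, h.per, ih]
  | pred c ih => rw [← h.per, show i + 2 * n * (-c - 1 : ℤ) + 2 * n = i + 2 * n * (-c) by ring, ih]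

theorem mem_per (ha : a ∈ U i) (c : ℤ) (e : j = i + 2 * n * c) : a ∈ U j := by rwa [e, h.per']

theorem I_per (hx : x ∈ I U i j) (c : ℤ) (e1 : k = i + 2 * n * c) (e2 : l = j + 2 * n * c) : x ∈ I U k l :=
  I_le (fun q _ _ _ ha => mem_I (h.mem_per ha c rfl) (by omega) (by omega)) hx

theorem exists_ne (i : ℤ) : ∃ a ∈ U i, a ≠ 1 := (U i).bot_or_exists_ne_one.resolve_left (h.ne i)

theorem cm_mem (ha : a ∈ U i) (hb : b ∈ U j) (h1 : i < j) (h2 : j < i + n) : cm a b ∈ I U (i + 1) (j - 1) := by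
  have h3 : 0 ≤ i + 2 * n * |i| := by have := h.three; have := neg_abs_le i; have := abs_nonneg i; nlinarith
  obtain ⟨p, hp⟩ := Int.eq_ofNat_of_zero_le h3
  obtain ⟨q, hq⟩ := Int.eq_ofNat_of_zero_le (a := j + 2 * n * |i|) (by omega)
  exact h.I_per (h.comm (i := p) (j := q) (by omega) (by omega) a (h.mem_per ha _ hp.symm) b
    (h.mem_per hb _ hq.symm)) (-|i|) (by rw [← hp]; ring) (by rw [← hq]; ring)

theorem cm_mem' (ha : a ∈ U i) (hb : b ∈ U j) (h1 : i < j) (h2 : j < i + n) : cm b a ∈ I U (i + 1) (j - 1) := by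
  rw [← cm_inv]; exact inv_mem (h.cm_mem ha hb h1 h2)

theorem adj (ha : a ∈ U i) (hb : b ∈ U j) (e : j = i + 1) : a * b = b * a :=
  cm_eq_one.1 (I_empty (h.cm_mem ha hb (by omega) (by have := h.three; omega)) (by omega))

theorem cn_U (ha : a ∈ U c) (hx : x ∈ I U k l) (h1 : k ≤ c + 1) (h2 : c ≤ l + 1) (h3 : l < c + n)
    (h4 : c < k + n) : cn x a ∈ I U k l := I_cn hx fun q e1 e2 y hy => by
  rcases lt_trichotomy q c with e | rfl | e
  · rw [cn_eq]
    exact mul_mem (mem_I hy e1 e2) (I_mono (h.cm_mem hy ha e (by omega)) (by omega) (by omega))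
  · exact mem_I (cn_mem hy ha) e1 e2
  · rw [cn_eq]
    exact mul_mem (mem_I hy e1 e2) (I_mono (h.cm_mem' ha hy e (by omega)) (by omega) (by omega))

theorem cn_I (hg : g ∈ I U i j) (hx : x ∈ I U k l) (h1 : k ≤ i + 1) (h2 : j ≤ l + 1) (h3 : l < i + n)
    (h4 : j < k + n) : cn x g ∈ I U k l :=
  I_ind (P := fun g => ∀ x ∈ I U k l, cn x g ∈ I U k l) hg
    (fun _ _ _ _ ha _ hx => h.cn_U ha hx (by omega) (by omega) (by omega) (by omega))
    (fun _ hx => by simpa using hx) (fun _ _ e1 e2 _ hx => by rw [← cn_cn]; exact e2 _ (e1 _ hx)) x hx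

theorem split (hx : x ∈ I U i j) (m : ℤ) (hj : j < i + n) :
    ∃ r ∈ I U i m, ∃ s ∈ I U (m + 1) j, x = r * s := by
  have bot : ∀ {i x}, x ∈ I U i j → j < i + n → ∃ a ∈ U i, ∃ r ∈ I U (i + 1) j, x = a * r := by
    intro i x hx hj
    refine I_ind (P := fun x => ∃ a ∈ U i, ∃ r ∈ I U (i + 1) j, x = a * r) hx (fun q e1 e2 a ha => ?_)
      ⟨1, one_mem _, 1, one_mem _, by simp⟩ ?_
    · rcases e1.eq_or_lt with rfl | e
      · exact ⟨a, ha, 1, one_mem _, by simp⟩
      · exact ⟨1, one_mem _, a, mem_I ha e e2, by simp⟩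
    · rintro _ _ ⟨a, ha, r, hr, rfl⟩ ⟨a', ha', r', hr', rfl⟩
      by_cases e : i ≤ j + 1
      · exact ⟨a * a', mul_mem ha ha', cn r a' * r', mul_mem (h.cn_U ha' hr le_rfl e hj (by
          have := h.three; omega)) hr', by unfold cn; group⟩
      · rw [I_empty hr (by omega)]
        exact ⟨a * a', mul_mem ha ha', r', hr', by group⟩
  by_cases e : m < i
  · exact ⟨1, one_mem _, x, I_mono hx (by omega) le_rfl, by simp⟩
  obtain ⟨d, rfl⟩ : ∃ d : ℕ, m = i + d := ⟨(m - i).toNat, by omega⟩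
  clear e
  induction d with
  | zero =>
    obtain ⟨a, ha, r, hr, e⟩ := bot hx hj
    exact ⟨a, mem_I ha le_rfl (by simp), r, by simpa using hr, e⟩
  | succ d ih =>
    obtain ⟨r, hr, s, hs, rfl⟩ := ih
    obtain ⟨a, ha, s', hs', rfl⟩ := bot hs (by omega)
    exact ⟨r * a, mul_mem (I_mono hr le_rfl (by omega)) (mem_I ha (by omega) (by omega)), s',
      I_mono hs' (by omega) le_rfl, by group⟩

theorem bot (hx : x ∈ I U i j) (hj : j < i + n) : ∃ a ∈ U i, ∃ r ∈ I U (i + 1) j, x = a * r := by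
  obtain ⟨a, ha, r, hr, e⟩ := h.split hx i hj
  exact ⟨a, I_self ha le_rfl le_rfl, r, hr, e⟩

theorem top (hx : x ∈ I U i j) (hj : j < i + n) : ∃ r ∈ I U i (j - 1), ∃ a ∈ U j, x = r * a := by
  obtain ⟨r, hr, a, ha, e⟩ := h.split hx (j - 1) hj
  exact ⟨r, hr, a, I_self ha (by omega) le_rfl, e⟩

theorem cn_top (ht : t ∈ U m) (hg : g ∈ I U i (m - 1)) (hm : m < i + n) :
    ∃ r ∈ I U (i + 1) (m - 1), cn t g = r * t := by
  refine (I_ind (P := fun g => g ∈ I U i (m - 1) ∧ ∃ r ∈ I U (i + 1) (m - 1), cn t g = r * t) hg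
    (fun q e1 e2 a ha => ⟨mem_I ha e1 e2, cm a t⁻¹, I_mono (h.cm_mem ha (inv_mem ht) (by omega) (by omega))
      (by omega) le_rfl, by unfold cn cm; group⟩) ⟨one_mem _, 1, one_mem _, by simp⟩ ?_).2
  rintro a b ⟨ha, r, hr, e⟩ ⟨hb, r', hr', e'⟩
  exact ⟨mul_mem ha hb, cn r b * r', mul_mem (h.cn_I hb hr le_rfl (by omega) (by omega) (by omega)) hr', by
    rw [← cn_cn, e, cn_mul, e', mul_assoc]⟩

theorem cn_bot (ht : t ∈ U m) (hg : g ∈ I U (m + 1) j) (hm : j < m + n) :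
    ∃ r ∈ I U (m + 1) (j - 1), cn t g = t * r := by
  refine (I_ind (P := fun g => g ∈ I U (m + 1) j ∧ ∃ r ∈ I U (m + 1) (j - 1), cn t g = t * r) hg
    (fun q e1 e2 a ha => ⟨mem_I ha e1 e2, cm t a, I_mono (h.cm_mem ht ha (by omega) (by omega))
      le_rfl (by omega), cn_eq _ _⟩) ⟨one_mem _, 1, one_mem _, by simp⟩ ?_).2
  rintro a b ⟨ha, r, hr, e⟩ ⟨hb, r', hr', e'⟩
  exact ⟨mul_mem ha hb, r' * cn r b, mul_mem hr' (h.cn_I hb hr (by omega) (by omega) (by omega) (by omega)), by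
    rw [← cn_cn, e, cn_mul, e', mul_assoc]⟩

theorem hi (ha : a ∈ U j) (hI : a ∈ I U k l) (h1 : l < j) (h2 : j ≤ k + n) : a = 1 := by
  have := h.opp (j - n)
  rw [show j - n + n = j by ring] at this
  exact (this.le ⟨ha, I_mono hI (by omega) (by omega)⟩ :)

omit h in
theorem refl_iff [Finite G] (e : ∀ j, ∀ x ∈ U j, cn x g ∈ U (c - j)) (j : ℤ) (x : G) :
    cn x g ∈ U (c - j) ↔ x ∈ U j := by
  refine ⟨fun hx => ?_, e j x⟩
  let f : U j → U j := fun y => ⟨cn (cn y g) g, by simpa using e _ _ (e j y y.2)⟩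
  have hf : Function.Injective f := fun y z e => Subtype.ext (cn_inj (cn_inj (congrArg Subtype.val e)))
  obtain ⟨y, hy⟩ := Finite.surjective_of_injective hf ⟨cn (cn x g) g, by simpa using e _ _ hx⟩
  rw [← cn_inj (cn_inj (congrArg Subtype.val hy))]
  exact y.2

variable [Finite G]

theorem lo (ha : a ∈ U i) (hI : a ∈ I U k l) (h1 : i < k) (h2 : l ≤ i + n) : a = 1 := by
  obtain ⟨b, hb, b1⟩ := h.exists_ne i
  obtain ⟨p, -, q, -, e⟩ := h.mu i b hb b1
  by_contra a1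
  exact cn_ne a1 (p * b * q) (h.hi (e i a ha) (k := 2 * i + n - l) (l := 2 * i + n - k)
    (I_cn hI fun _ _ _ y hy => mem_I (e _ y hy) (by omega) (by omega)) (by omega) (by omega))

theorem inf_lo (hx : x ∈ I U i j) (hx' : x ∈ I U k l) (h1 : j < i + n) (h2 : l ≤ i + n) : x ∈ I U k j := by
  by_cases e : k ≤ i
  · exact I_mono hx e le_rfl
  obtain ⟨d, rfl⟩ : ∃ d : ℕ, k = i + d := ⟨(k - i).toNat, by omega⟩
  clear e
  induction d with
  | zero => simpa using hx
  | succ d ih =>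
    obtain ⟨a, ha, r, hr, rfl⟩ := h.bot (ih (I_mono hx' (by omega) le_rfl)) (by omega)
    have : a = 1 := h.lo ha (k := i + d + 1) (l := i + d + n) (by
      simpa using mul_mem (I_mono hx' (by omega) (by omega)) (inv_mem (I_mono hr le_rfl (by omega)))) (by omega) le_rfl
    rw [this, one_mul]
    exact I_mono hr (by omega) le_rfl

theorem inf_hi (hx : x ∈ I U i j) (hx' : x ∈ I U k l) (h1 : j < i + n) (h2 : j ≤ k + n) : x ∈ I U i l := by
  by_cases e : j ≤ l
  · exact I_mono hx le_rfl e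
  obtain ⟨d, rfl⟩ : ∃ d : ℕ, l = j - d := ⟨(j - l).toNat, by omega⟩
  clear e
  induction d with
  | zero => simpa using hx
  | succ d ih =>
    obtain ⟨r, hr, a, ha, rfl⟩ := h.top (ih (I_mono hx' le_rfl (by omega))) (by omega)
    have : a = 1 := h.hi ha (k := j - d - n) (l := j - d - 1) (by
      simpa using mul_mem (inv_mem (I_mono hr (by omega) le_rfl)) (I_mono hx' (by omega) (by omega))) (by omega) (by omega)
    rw [this, mul_one]
    exact I_mono hr le_rfl (by omega)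

theorem disj (hx : x ∈ I U i j) (hx' : x ∈ I U k l) (h1 : j < k) (h2 : j < i + n) (h3 : l ≤ i + n) : x = 1 :=
  I_empty (h.inf_lo hx hx' h2 h3) h1

theorem U_disj (ha : a ∈ U i) (ha' : a ∈ U j) (h1 : i < j) (h2 : j ≤ i + n) : a = 1 :=
  h.lo ha (mem_I ha' le_rfl le_rfl) h1 h2

theorem I_inj {r' s' : G} (hr : r ∈ I U i j) (hr' : r' ∈ I U i j) (hs : s ∈ I U k l) (hs' : s' ∈ I U k l)
    (h1 : j < k) (h2 : j < i + n) (h3 : l ≤ i + n) (e : r * s = r' * s') : r = r' ∧ s = s' := by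
  have e1 : r'⁻¹ * r = s' * s⁻¹ := by rw [inv_mul_eq_iff_eq_mul, ← mul_assoc, ← e, mul_inv_cancel_right]
  have e2 := h.disj (mul_mem (inv_mem hr') hr) (e1 ▸ mul_mem hs' (inv_mem hs)) h1 h2 h3
  obtain rfl : r' = r := inv_mul_eq_one.1 e2
  exact ⟨rfl, mul_left_cancel e⟩

theorem bot_inj {a' r' : G} (ha : a ∈ U i) (ha' : a' ∈ U i) (hr : r ∈ I U k l) (hr' : r' ∈ I U k l)
    (h1 : i < k) (h2 : l ≤ i + n) (e : a * r = a' * r') : a = a' ∧ r = r' :=
  h.I_inj (mem_I ha le_rfl le_rfl) (mem_I ha' le_rfl le_rfl) hr hr' h1 (by have := h.three; omega) h2 e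

theorem top_inj {a' r' : G} (ha : a ∈ U j) (ha' : a' ∈ U j) (hr : r ∈ I U k l) (hr' : r' ∈ I U k l)
    (h1 : l < j) (h2 : j ≤ k + n) (e : r * a = r' * a') : r = r' ∧ a = a' := by
  have e1 : r'⁻¹ * r = a' * a⁻¹ := by rw [inv_mul_eq_iff_eq_mul, ← mul_assoc, ← e, mul_inv_cancel_right]
  have e2 := h.hi (mul_mem ha' (inv_mem ha)) (e1 ▸ mul_mem (inv_mem hr') hr) h1 h2
  obtain rfl : a' = a := mul_inv_eq_one.1 e2
  exact ⟨mul_right_cancel e, rfl⟩

/-- An element with known bottom and top components. -/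
theorem both (ha : a ∈ U i) (hb : b ∈ U j) (hr : r ∈ I U (i + 1) l) (hs : s ∈ I U k (j - 1))
    (h1 : i < j) (h2 : j ≤ l) (h3 : k ≤ i) (h4 : l ≤ k + n) (h5 : l < i + n) (h6 : j < k + n)
    (e : a * r = s * b) : ∃ d ∈ I U (i + 1) (j - 1), r = d * b := by
  have hx : a * r ∈ I U i j := h.inf_hi (mul_mem (mem_I ha le_rfl (by omega)) (I_mono hr (by omega) le_rfl))
    (e ▸ mul_mem (I_mono hs le_rfl (by omega)) (mem_I hb (by omega) le_rfl)) h5 h4
  have hr' : r ∈ I U (i + 1) j := h.inf_lo (i := i) (by simpa using mul_mem (inv_mem (mem_I ha le_rfl h1.le)) hx)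
    hr (by omega) (by omega)
  obtain ⟨d, hd, b', hb', rfl⟩ := h.top hr' (by omega)
  rw [← mul_assoc] at e
  exact ⟨d, hd, by rw [(h.top_inj hb' hb (mul_mem (mem_I ha h3 (by omega)) (I_mono hd (by omega) le_rfl)) hs
    (by omega) (by omega) e).2]⟩

theorem neg (c : ℤ) : RG n fun k => U (c - k) where
  three := h.three
  per i := by rw [← h.per, show c - (i + 2 * n) + 2 * n = c - i by ring]
  ne i := h.ne _
  comm {i j} h1 h2 a ha b hb := I_neg.2 (I_mono (h.cm_mem' hb ha (by omega) (by omega)) (by omega) (by omega))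
  mu i a ha a1 := by
    obtain ⟨p, hp, q, hq, e⟩ := h.mu _ a ha a1
    exact ⟨p, h.mem_per hp (-1) (by ring), q, h.mem_per hq (-1) (by ring), fun j x hx =>
      h.mem_per (e _ x hx) (-1) (by ring)⟩
  opp i := eq_bot_iff.2 fun a ha => h.lo ha.1 (I_neg.1 ha.2) (by omega) (by omega)
  gen := eq_top_iff.2 (h.gen.ge.trans (iSup_le fun k => le_iSup_of_le (c - k) (by simp)))

omit [Finite G] in
theorem add (c : ℤ) : RG n fun k => U (k + c) where
  three := h.three
  per i := by rw [← h.per (i + c), show i + 2 * n + c = i + c + 2 * n by ring]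
  ne i := h.ne _
  comm {i j} h1 h2 a ha b hb := I_add.2 (I_mono (h.cm_mem ha hb (by omega) (by omega)) (by omega) (by omega))
  mu i a ha a1 := by
    obtain ⟨p, hp, q, hq, e⟩ := h.mu _ a ha a1
    exact ⟨p, h.mem_per hp 0 (by ring), q, h.mem_per hq 0 (by ring), fun j x hx =>
      h.mem_per (e _ x hx) 0 (by ring)⟩
  opp i := eq_bot_iff.2 fun a ha => h.hi ha.1 (I_add.1 ha.2) (by omega) (by omega)
  gen := eq_top_iff.2 (h.gen.ge.trans (iSup_le fun k => le_iSup_of_le (k - c) (by simp)))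

theorem idx (ha : a ∈ U i) (ha' : a ∈ U j) (a1 : a ≠ 1) : ∃ c, j = i + 2 * n * c := by
  have h3 := h.three
  have hn : (0 : ℤ) < 2 * n := by omega
  have e := Int.mul_ediv_add_emod (j - i) (2 * n)
  have e1 := Int.emod_nonneg (j - i) hn.ne'
  have e2 := Int.emod_lt_of_pos (j - i) hn
  have hb : a ∈ U (i + (j - i) % (2 * n)) := h.mem_per ha' (-((j - i) / (2 * n))) (by linarith)
  refine ⟨(j - i) / (2 * n), by_contra fun ne => a1 ?_⟩
  by_cases e3 : (j - i) % (2 * n) ≤ n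
  · exact h.U_disj ha hb (by omega) (by omega)
  · exact h.U_disj hb (h.mem_per ha 1 rfl) (by omega) (by omega)

theorem card_eq (i j : ℤ) : Nat.card (U i) = Nat.card (U (2 * j + n - i)) := by
  obtain ⟨b, hb, b1⟩ := h.exists_ne j
  obtain ⟨p, -, q, -, e⟩ := h.mu j b hb b1
  generalize p * b * q = g at e
  exact Nat.card_congr ⟨fun y => ⟨cn y g, e i y y.2⟩, fun y => ⟨cn y g⁻¹,
    (refl_iff (c := 2 * j + n) e i _).1 (by simpa using y.2)⟩, fun y => by simp, fun y => by simp⟩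

end RG

end Cfsg.Lib.MO
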