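import Cfsg.Agent.MO.Mu
import Cfsg.Agent.Oct.Cox

/-!
# The octagon group has root groups of rank two
-/

set_option autoImplicit false
set_option linter.unusedSectionVars false
set_option maxRecDepth 100000

namespace Cfsg.Lib.MO

open Function Cfsg.Lib.Oct Cfsg.Lib.Oct.Cx Cfsg.Lib.Trans Cfsg.Lib.Chev

universe u

variable {G : Type u} [Group G] [Finite G]

set_option synthInstance.maxSize 4096 in
set_option synthInstance.maxHeartbeats 200000 in
theorem oc_cone : ∀ (r : ZMod 16) (d : Fin 8), d ≠ 0 → r ≠ r + (d : ℕ) ∧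
    (¬ ∀ w : W8, Po (w • r) ↔ ¬ Po (w • (r + (d : ℕ)))) ∧ ∀ k : ZMod 16, ¬ k = r → ¬ k = r + (d : ℕ) →
      (∀ w : W8, Po (w • r) → Po (w • (r + (d : ℕ))) → Po (w • k)) →
        ∃ e : Fin 8, 0 < e ∧ e < d ∧ k = r + (e : ℕ) := by
  decide +kernel

theorem oc_refl : ∀ i : ZMod 16, ∃ (w : W8) (b : Bool), w • tW b • (cond b 8 1 : ZMod 16) = i ∧
    w • (cond b 8 1 : ZMod 16) = i + 8 ∧ ∀ j : ZMod 16, (w * tW b * w⁻¹)⁻¹ • j = 2 * i + 8 - j := by
  decide +kernel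

theorem oc_opp : ∀ i : ZMod 16, ∃ (w : W8) (b : Bool), w • (i + 8) = tW b • (cond b 8 1 : ZMod 16) ∧
    ∀ e : Fin 8, Po (w • (i + (e : ℕ))) := by
  decide +kernel

section

variable {K : Type*} [Field K] [TwF K] {ρ : Oct.RK K} (O : Oc ρ G)

omit [Finite G] in
theorem oc_lifts (w : W8) : (grd O).Lifts (φ O w) w := show (φ O w)⁻¹ * φ O w ∈ T O by simp

omit [Finite G] in
theorem oc_neg {b : Bool} {a : G} (ha : a ∈ X O (tW b • (cond b 8 1 : ZMod 16))) (hS : a ∈ O.S) : a = 1 := by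
  by_contra a1
  obtain ⟨u, hu, m, ⟨t, ht⟩, u', hu', e⟩ := (grd O).rank_one b a ha a1
  have k : ∀ {x}, x ∈ (grd O).X (C16.simple b) → x ∈ O.S := fun hx =>
    (U_eq O).le (GRD.mem_U (Y := grd O) trivial (C16.pos_simple b) hx)
  have hm : m ∈ O.S := by
    rwa [e, Subgroup.mul_mem_cancel_right _ (k hu'), Subgroup.mul_mem_cancel_left _ (k hu)] at hS
  have e1 : φ O (tW b) * O.η t = m := by
    rw [ht]; exact mul_inv_cancel_left _ _
  exact (by decide : ∀ b, tW b ≠ 1) b (eq_one_of_norm O (t := t) (e1 ▸ Subgroup.le_normalizer hm))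

omit [Finite G] in
theorem oc_gen [Finite K] : O.GG ≤ spanX (X O) Set.univ := by
  have hX : ∀ {k a}, a ∈ X O k → a ∈ spanX (X O) Set.univ := fun ha => mem_spanX _ (Set.mem_univ _) ha
  have hι : ∀ u, O.ι u ∈ spanX (X O) Set.univ := fun u =>
    spanX_mono _ (fun _ _ => trivial) ((U_eq O).ge ⟨u, rfl⟩)
  have hm : O.m ∈ spanX (X O) Set.univ := by
    have h2 := hX ((X9 O).ge (conj_mem_cj.2 ⟨UU.x1 1, by simp, rfl⟩))
    rwa [mxm, Subgroup.mul_mem_cancel_right _ (hι _), Subgroup.mul_mem_cancel_left _ (hι _)] at h2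
  obtain ⟨β, hβ⟩ : ∃ β, O.h β * O.n ∈ spanX (X O) Set.univ := by
    have h0 : UU.x8 (1 : K) ∈ UU.U8 K := by simp
    have h2 := hX ((X0 O).ge (conj_mem_cj.2 ⟨_, h0, rfl⟩))
    rw [(O.rk _ h0 (by simp)).2.2, Subgroup.mul_mem_cancel_right _ (hι _), mul_assoc,
      Subgroup.mul_mem_cancel_left _ (hι _)] at h2
    exact ⟨_, h2⟩
  have hh : ∀ γ, O.h γ ∈ spanX (X O) Set.univ := fun γ => by
    obtain ⟨c, hc⟩ := exists_σ (γ : K)
    obtain ⟨δ, rfl⟩ : ∃ δ : Kˣ, ↑δ = c := ⟨Units.mk0 c fun e => γ.ne_zero (by rw [← hc, e, map_zero]), rfl⟩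
    obtain rfl : γ = σu δ := Units.ext hc.symm
    have h1 := conj_mem_of_spanX (g := O.η (1, δ))
      (fun k _ a ha => hX (mem_normalizer_conj (T_norm O k ⟨_, rfl⟩) ha)) hβ
    have h2 : O.η (1, δ) * O.h β * (O.η (1, δ))⁻¹ = O.h β := by
      rw [O.hη, ← map_mul, mul_comm, map_mul, mul_inv_cancel_right]
    rw [← conj_mul, h2, O.ηn, ← mul_assoc, ← map_mul, mul_comm β, map_mul, mul_assoc] at h1
    exact (Subgroup.mul_mem_cancel_right _ hβ).1 h1
  have hC : O.C ≤ spanX (X O) Set.univ := O.C_le hι hh ((Subgroup.mul_mem_cancel_left _ (hh β)).1 hβ)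
  exact sup_le hC (cj_le_of_mem_of_le hm hC)

end

theorem oc_rg {K : Type*} [Field K] [TwF K] [Finite K] {ρ : Oct.RK K} (O : Oc ρ G) (hO : O.GG = ⊤) :
    RG 8 fun k : ℤ => Cx.X O (k : ZMod 16) where
  three := by norm_num
  per i := by
    congr 1
    push_cast
    rw [show (16 : ZMod 16) = 0 by decide, add_zero]
  ne i h := by
    obtain ⟨w, b, e, -⟩ := oc_refl (i : ZMod 16)
    obtain ⟨a, ha, a1⟩ := (grd O).nontriv b
    have h1 : φ O w * a * (φ O w)⁻¹ ∈ X O (w • tW b • (cond b 8 1 : ZMod 16)) :=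
      (grd O).conj (oc_lifts O w) trivial ha
    rw [e, h] at h1
    exact a1 (conj_eq_one_iff.1 h1)
  comm {i j} h1 h2 a ha b hb := by
    obtain ⟨d, rfl⟩ : ∃ d : Fin 8, j = i + d := ⟨⟨j - i, by omega⟩, by simp only; omega⟩
    obtain ⟨e1, e2, e3⟩ := oc_cone (i : ZMod 16) d (by rintro rfl; simp at h1)
    refine spanX_le_iff.2 (fun k hk x hx => ?_)
      (Cx.comm O _ trivial _ trivial e1 e2 a (by simpa using ha) b (by simpa using hb))
    obtain ⟨e, h3, h4, rfl⟩ := e3 k hk.2.1 hk.2.2.1 fun w => (hk.2.2.2 w).1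
    have h5 : (0 : ℕ) < e := h3
    have h6 : (e : ℕ) < d := h4
    exact mem_I (k := i + (e : ℕ)) (by simpa using hx) (by omega) (by omega)
  mu i a ha a1 := by
    obtain ⟨w, b, e, e1, e2⟩ := oc_refl (i : ZMod 16)
    have hw := oc_lifts O w
    have h1 : (φ O w)⁻¹ * a * φ O w ∈ X O (tW b • (cond b 8 1 : ZMod 16)) := by
      have := GRD.inv_conj hw trivial ha
      rwa [← e, inv_smul_smul] at this
    obtain ⟨u, hu, m, hm, u', hu', e3⟩ := (grd O).rank_one b _ h1 fun h => a1 (by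
      simpa using (conj_eq_one_iff (a := (φ O w)⁻¹)).1 (by simpa using h))
    have k : ∀ {x}, x ∈ (grd O).X (C16.simple b) → φ O w * x⁻¹ * (φ O w)⁻¹ ∈ X O ((i + (8 : ℕ) : ℤ) : ZMod 16) :=
      fun hx => by
        have h2 : _ ∈ X O (w • (cond b 8 1 : ZMod 16)) := (grd O).conj hw trivial (inv_mem hx)
        rw [e1] at h2
        simpa using h2
    refine ⟨_, k hu, _, k hu', fun j x hx => ?_⟩
    have h3 : _ ∈ X O ((w * tW b * w⁻¹)⁻¹ • (j : ZMod 16)) := GRD.inv_conj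
      ((grd O).lifts_mul ((grd O).lifts_mul hw hm) ((grd O).lifts_inv hw)) trivial hx
    rw [e2] at h3
    rw [show φ O w * u⁻¹ * (φ O w)⁻¹ * a * (φ O w * u'⁻¹ * (φ O w)⁻¹) = φ O w * m * (φ O w)⁻¹ by
      rw [show m = u⁻¹ * ((φ O w)⁻¹ * a * φ O w) * u'⁻¹ by rw [e3]; group]; group]
    simpa using h3
  opp i := by
    obtain ⟨w, b, e, e1⟩ := oc_opp (i : ZMod 16)
    have hw := oc_lifts O w
    refine eq_bot_iff.2 fun a ⟨h1, h2⟩ => (conj_eq_one_iff (a := φ O w)).1 (oc_neg O (b := b) ?_ ?_)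
    · rw [← e]
      exact (grd O).conj hw trivial (show a ∈ X O _ by simpa using h1)
    · refine I_le (H := O.S.comap (MulAut.conj (φ O w)).toMonoidHom) (fun q h3 h4 x hx => ?_) h2
      obtain ⟨d, rfl⟩ : ∃ d : Fin 8, q = i + (d : ℕ) := ⟨⟨(q - i).toNat, by omega⟩, by simp only; omega⟩
      exact (U_eq O).le (GRD.mem_U (Y := grd O) trivial (e1 d)
        ((grd O).conj hw trivial (show x ∈ X O _ by simpa using hx)))
  gen := eq_top_iff.2 (hO.ge.trans ((oc_gen O).trans (spanX_le_iff.2 fun k _ =>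
    le_iSup_of_le (k.cast : ℤ) (by simp))))

end Cfsg.Lib.MO
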