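import Cfsg.Agent.MO.Kit

/-!
# Root group data of rank two: the maps `κ`, `λ`, `μ`
-/

set_option autoImplicit false

namespace Cfsg.Lib.MO

variable {G : Type*} [Group G] {n : ℕ} {U : ℤ → Subgroup G} {S : Sys G}
variable {i j k l m c : ℤ} {a b g r s t v x y : G}

/-- Conjugation by `g` takes the root group `j` to the root group `f j`. -/
def Act (S : Sys G) (g : G) (f : ℤ → ℤ) : Prop :=
  ∀ j x, (cn x g ∈ S.U (f j) ↔ x ∈ S.U j) ∧ (cn x g ∈ S.V (f j) ↔ x ∈ S.V j)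

theorem Act.mU {f : ℤ → ℤ} (h : Act S g f) (hx : x ∈ S.U j) : cn x g ∈ S.U (f j) := (h j x).1.2 hx
theorem Act.mV {f : ℤ → ℤ} (h : Act S g f) (hx : x ∈ S.V j) : cn x g ∈ S.V (f j) := (h j x).2.2 hx
theorem Act.mul {f f' : ℤ → ℤ} {g' : G} (h : Act S g f) (h' : Act S g' f') : Act S (g * g') fun j => f' (f j) :=
  fun j x => by rw [← cn_cn]; exact ⟨(h' _ _).1.trans (h _ _).1, (h' _ _).2.trans (h _ _).2⟩
theorem Act.inv {f f' : ℤ → ℤ} (h : Act S g f) (e : ∀ j, f (f' j) = j) : Act S g⁻¹ f' := fun j x => by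
  have := h (f' j) (cn x g⁻¹)
  rw [cn_inv_cn, e] at this
  exact ⟨this.1.symm, this.2.symm⟩
theorem Act.one (S : Sys G) : Act S 1 fun j => j := fun j x => by simp
theorem Act.congr {f f' : ℤ → ℤ} (h : Act S g f) (e : ∀ j, f j = f' j) : Act S g f' := funext e ▸ h
theorem Act.I_neg (h : Act S g fun j => c - j) (hx : x ∈ I S.U i j) : cn x g ∈ I S.U (c - j) (c - i) :=
  I_cn hx fun q _ _ _ ha => mem_I (k := c - q) (h.mU ha) (by omega) (by omega)
theorem Act.I_add (h : Act S g fun j => j + c) (hx : x ∈ I S.U i j) : cn x g ∈ I S.U (i + c) (j + c) :=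
  I_cn hx fun q _ _ _ ha => mem_I (k := q + c) (h.mU ha) (by omega) (by omega)
theorem Act.I_id (h : Act S g fun j => j) (hx : x ∈ I S.U i j) : cn x g ∈ I S.U i j :=
  I_cn hx fun q _ _ _ ha => mem_I (k := q) (h.mU ha) (by omega) (by omega)

variable [Finite G]

namespace RG

variable (h : RG n U)
include h

theorem norm_eq_one (ha : a ∈ U (i + n)) (e : ∀ x ∈ I U i (i + n - 1), cn x a ∈ I U i (i + n - 1)) : a = 1 := by
  by_contra a1
  obtain ⟨p, hp, q, hq, e1⟩ := h.mu _ a ha a1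
  obtain ⟨x, hx, x1⟩ := h.exists_ne i
  have h3 := h.three
  have hp' : p ∈ I U i (i + n - 1) := mem_I (h.mem_per hp (-1) (by ring)) le_rfl (by omega)
  have hq' : q ∈ I U i (i + n - 1) := mem_I (h.mem_per hq (-1) (by ring)) le_rfl (by omega)
  refine cn_ne x1 (p * a * q) (h.hi (j := i + n) (h.mem_per (e1 i x hx) (-1) (by ring)) (k := i) (l := i + n - 1) ?_
    (by omega) le_rfl)
  rw [← cn_cn, ← cn_cn]
  exact cn_mem (e _ (cn_mem (mem_I hx le_rfl (by omega)) hp')) hq'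

theorem mu_uniq {p q p' q' : G} (ha : a ∈ U i) (hp : p ∈ U (i + n)) (hq : q ∈ U (i + n)) (hp' : p' ∈ U (i + n))
    (hq' : q' ∈ U (i + n)) (e : ∀ j, ∀ x ∈ U j, cn x (p * a * q) ∈ U (2 * i + n - j))
    (e' : ∀ j, ∀ x ∈ U j, cn x (p' * a * q') ∈ U (2 * i + n - j)) : p = p' ∧ q = q' := by
  have h3 := h.three
  have r1 : ∀ {g : G}, (∀ j, ∀ x ∈ U j, cn x g ∈ U (2 * i + n - j)) → ∀ x ∈ I U i (i + n - 1),
      cn x g ∈ I U (i + 1) (i + n) := fun e x hx =>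
    I_cn hx fun _ _ _ y hy => mem_I (e _ y hy) (by omega) (by omega)
  have r2 : ∀ {g : G}, (∀ j, ∀ x ∈ U j, cn x g ∈ U (2 * i + n - j)) → ∀ x ∈ I U (i + 1) (i + n),
      cn x g⁻¹ ∈ I U i (i + n - 1) := fun e x hx => I_cn hx fun j _ _ y hy =>
    mem_I ((refl_iff e (2 * i + n - j) _).1 (by simpa using hy)) (by omega) (by omega)
  have m1 : ∀ {g : G}, g ∈ U (i + n) → g ∈ I U (i + 1) (i + n) := fun hg => mem_I hg (by omega) le_rfl
  have e1 : p * p'⁻¹ = 1 := h.norm_eq_one (mul_mem hp (inv_mem hp')) fun x hx => by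
    have := r2 e' _ (cn_mem (r1 e x hx) (m1 (mul_mem (inv_mem hq) hq')))
    rwa [cn_cn, cn_cn, show p * a * q * (q⁻¹ * q' * (p' * a * q')⁻¹) = p * p'⁻¹ by group] at this
  obtain rfl : p = p' := mul_inv_eq_one.1 e1
  refine ⟨rfl, inv_mul_eq_one.1 (h.norm_eq_one (mul_mem (inv_mem hq) hq') fun x hx => I_cn hx fun j _ _ y hy => ?_)⟩
  have := e' _ _ ((refl_iff e (2 * i + n - j) (cn y (p * a * q)⁻¹)).1 (by rwa [cn_inv_cn, sub_sub_cancel]))
  rw [cn_cn, show (p * a * q)⁻¹ * (p * a * q') = q⁻¹ * q' by group] at this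
  exact mem_I this (by omega) (by omega)

theorem exists_RK : ∃ S : Sys G, S.U = U ∧ RK n S := by
  classical
  have key : ∀ a : G, ∃ p q : G, ∀ i, a ∈ U i → a ≠ 1 → p ∈ U (i + n) ∧ q ∈ U (i + n) ∧
      ∀ j, ∀ x ∈ U j, cn x (p * a * q) ∈ U (2 * i + n - j) := fun a => by
    by_cases e : ∃ i, a ∈ U i ∧ a ≠ 1
    · obtain ⟨i, ha, a1⟩ := e
      obtain ⟨p, hp, q, hq, e⟩ := h.mu i a ha a1
      refine ⟨p, q, fun j hj _ => ?_⟩
      obtain ⟨c, rfl⟩ := h.idx ha hj a1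
      exact ⟨h.mem_per hp c (by ring), h.mem_per hq c (by ring), fun k x hx =>
        h.mem_per (e k x hx) (2 * c) (by ring)⟩
    · exact ⟨1, 1, fun i ha a1 => absurd ⟨i, ha, a1⟩ e⟩
  choose ka la hk using key
  let V : ℤ → Subgroup G := fun i =>
    { carrier := {v | v ∈ U i ∧ ∀ j, 2 * |j - i| ≤ n → ∀ x ∈ U j, v * x = x * v}
      one_mem' := ⟨one_mem _, by simp⟩
      mul_mem' := fun ha hb => ⟨mul_mem ha.1 hb.1, fun j e x hx =>
        (comm_mul (ha.2 j e x hx).symm (hb.2 j e x hx).symm).symm⟩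
      inv_mem' := fun ha => ⟨inv_mem ha.1, fun j e x hx => (comm_inv (ha.2 j e x hx).symm).symm⟩ }
  exact ⟨⟨U, V, ka, la⟩, rfl, h, fun ha a1 => (hk _ _ ha a1).1, fun ha a1 => (hk _ _ ha a1).2.1,
    fun ha a1 => refl_iff (hk _ _ ha a1).2.2, Iff.rfl⟩

end RG

namespace RK

variable (h : RK n S)
include h

omit [Finite G] in
theorem V_le (hv : v ∈ S.V i) : v ∈ S.U i := (h.mem_V.1 hv).1

omit [Finite G] in
theorem V_comm (hv : v ∈ S.V i) (hx : x ∈ S.U j) (e : 2 * |j - i| ≤ n) : v * x = x * v := (h.mem_V.1 hv).2 j e x hx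

omit [Finite G] in
theorem V_per (hv : v ∈ S.V i) (c : ℤ) (e : j = i + 2 * n * c) : v ∈ S.V j :=
  h.mem_V.2 ⟨h.mem_per (h.V_le hv) c e, fun k e1 x hx => h.V_comm hv (h.mem_per hx (-c) rfl) (by
    rwa [show k + 2 * n * -c - i = k - j by rw [e]; ring])⟩

omit [Finite G] in
theorem act_of {f : ℤ → ℤ} {ε : ℤ} (hε : ε = 1 ∨ ε = -1) (hf : ∀ j, f j = ε * j + c)
    (e : ∀ j x, cn x g ∈ S.U (f j) ↔ x ∈ S.U j) : Act S g f := fun j x => by
  refine ⟨e j x, ?_⟩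
  rw [h.mem_V, h.mem_V, e]
  refine and_congr_right fun _ => ⟨fun H k hk y hy => ?_, fun H k hk y hy => ?_⟩
  · have := H (f k) (by
      rw [hf, hf]; rcases hε with rfl | rfl
      · simpa using hk
      · rwa [show -1 * k + c - (-1 * j + c) = -(k - j) by ring, abs_neg]) _ ((e k y).2 hy)
    rw [← cn_mul, ← cn_mul] at this
    exact cn_inj this
  · have e1 : f (ε * (k - c)) = k := by rw [hf]; rcases hε with rfl | rfl <;> ring
    have := comm_cn (H (ε * (k - c)) (by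
      rw [hf] at hk; rcases hε with rfl | rfl
      · rwa [show 1 * (k - c) - j = k - (1 * j + c) by ring]
      · rwa [show -1 * (k - c) - j = -(k - (-1 * j + c)) by ring, abs_neg]) (cn y g⁻¹)
      ((e _ _).1 (by rwa [cn_inv_cn, e1]))) g
    rwa [cn_inv_cn] at this

omit [Finite G] in
theorem act_mu (ha : a ∈ S.U i) (a1 : a ≠ 1) : Act S (S.mu a) fun j => 2 * i + n - j :=
  h.act_of (c := 2 * i + n) (.inr rfl) (fun _ => by ring) (h.mu_iff ha a1)

omit [Finite G] in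
theorem act_per {f f' : ℤ → ℤ} (hg : Act S g f) (c : ℤ) (e : ∀ j, f' j = f j + 2 * n * c) : Act S g f' :=
  fun j x => by
    rw [← (hg j x).1, ← (hg j x).2]
    exact ⟨⟨fun H => h.mem_per H (-c) (by rw [e]; ring), fun H => h.mem_per H c (e j)⟩,
      ⟨fun H => h.V_per H (-c) (by rw [e]; ring), fun H => h.V_per H c (e j)⟩⟩

omit [Finite G] in
theorem exists_act (i : ℤ) : ∃ g, Act S g fun j => 2 * i + n - j := by
  obtain ⟨a, ha, a1⟩ := h.exists_ne i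
  exact ⟨_, h.act_mu ha a1⟩

theorem rf (c : ℤ) : RK n (S.rf c) where
  toRG := h.toRG.neg c
  ka_mem ha a1 := h.mem_per (h.ka_mem ha a1) (-1) (by ring)
  la_mem ha a1 := h.mem_per (h.la_mem ha a1) (-1) (by ring)
  mu_iff {i a} ha a1 j x := by
    have := h.mu_iff ha a1 (c - j) x
    rwa [← h.per' _ (-1), show 2 * (c - i) + n - (c - j) + 2 * n * -1 = c - (2 * i + n - j) by ring] at this
  mem_V {i v} := h.mem_V.trans (and_congr_right fun _ => ⟨fun H j e x hx => H (c - j) (by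
    rwa [show c - j - (c - i) = -(j - i) by ring, abs_neg]) x hx, fun H j e x hx => H (c - j) (by
    rwa [show c - j - i = -(j - (c - i)) by ring, abs_neg]) x (by simpa [Sys.rf] using hx)⟩)

omit [Finite G] in
theorem sh (c : ℤ) : RK n (S.sh c) where
  toRG := h.toRG.add c
  ka_mem ha a1 := h.mem_per (h.ka_mem ha a1) 0 (by ring)
  la_mem ha a1 := h.mem_per (h.la_mem ha a1) 0 (by ring)
  mu_iff {i a} ha a1 j x := by
    have := h.mu_iff ha a1 (j + c) x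
    rwa [show 2 * (i + c) + n - (j + c) = 2 * i + n - j + c by ring] at this
  mem_V {i v} := h.mem_V.trans (and_congr_right fun _ => ⟨fun H j e x hx => H (j + c) (by
    rwa [show j + c - (i + c) = j - i by ring]) x hx, fun H j e x hx => H (j - c) (by
    rwa [show j - c - i = j - (i + c) by ring]) x (by simpa [Sys.sh] using hx)⟩)

theorem uniq {p q : G} (ha : a ∈ S.U i) (a1 : a ≠ 1) (hp : p ∈ S.U (i + n)) (hq : q ∈ S.U (i + n))
    (e : ∀ j, ∀ x ∈ S.U j, cn x (p * a * q) ∈ S.U (2 * i + n - j)) : S.ka a = p ∧ S.la a = q :=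
  h.mu_uniq ha (h.ka_mem ha a1) (h.la_mem ha a1) hp hq (fun j x => (h.mu_iff ha a1 j x).2) e

theorem ka_inv (ha : a ∈ S.U i) (a1 : a ≠ 1) : S.ka a⁻¹ = (S.la a)⁻¹ ∧ S.la a⁻¹ = (S.ka a)⁻¹ :=
  h.uniq (inv_mem ha) (inv_ne_one.2 a1) (inv_mem (h.la_mem ha a1)) (inv_mem (h.ka_mem ha a1)) fun j x hx => by
    rw [show (S.la a)⁻¹ * a⁻¹ * (S.ka a)⁻¹ = (S.mu a)⁻¹ by unfold Sys.mu; group]
    exact ((h.act_mu ha a1).inv (f' := fun j => 2 * i + n - j) fun _ => by ring).mU hx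

theorem mu_inv (ha : a ∈ S.U i) (a1 : a ≠ 1) : S.mu a⁻¹ = (S.mu a)⁻¹ := by
  unfold Sys.mu; rw [(h.ka_inv ha a1).1, (h.ka_inv ha a1).2]; group

theorem ka_cn {f : ℤ → ℤ} {ε : ℤ} (hε : ε = 1 ∨ ε = -1) (hf : ∀ j, f j = ε * j + c) (hg : Act S g f)
    (ha : a ∈ S.U i) (a1 : a ≠ 1) : S.ka (cn a g) = cn (S.ka a) g ∧ S.la (cn a g) = cn (S.la a) g := by
  have e1 : ∀ {y}, y ∈ S.U (i + n) → cn y g ∈ S.U (f i + n) := fun hy => by
    rcases hε with rfl | rfl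
    · exact h.mem_per (hg.mU hy) 0 (by rw [hf, hf]; ring)
    · exact h.mem_per (hg.mU hy) 1 (by rw [hf, hf]; ring)
  refine h.uniq (hg.mU ha) (cn_ne a1 g) (e1 (h.ka_mem ha a1)) (e1 (h.la_mem ha a1)) fun j x hx => ?_
  have e2 : f (ε * (j - c)) = j := by rw [hf]; rcases hε with rfl | rfl <;> ring
  have := hg.mU ((h.act_mu ha a1).mU ((hg (ε * (j - c)) (cn x g⁻¹)).1.1 (by rwa [cn_inv_cn, e2])))
  rw [cn_conj, cn_inv_cn] at this
  rw [← cn_mul, ← cn_mul]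
  rcases hε with rfl | rfl
  · exact h.mem_per this 0 (by rw [hf, hf]; ring)
  · exact h.mem_per this 1 (by rw [hf, hf]; ring)

theorem mu_cn {f : ℤ → ℤ} {ε : ℤ} (hε : ε = 1 ∨ ε = -1) (hf : ∀ j, f j = ε * j + c) (hg : Act S g f)
    (ha : a ∈ S.U i) (a1 : a ≠ 1) : S.mu (cn a g) = cn (S.mu a) g := by
  unfold Sys.mu; rw [(h.ka_cn hε hf hg ha a1).1, (h.ka_cn hε hf hg ha a1).2, cn_mul, cn_mul]

theorem mu_cn_neg (hg : Act S g fun j => c - j) (ha : a ∈ S.U i) (a1 : a ≠ 1) : S.mu (cn a g) = cn (S.mu a) g :=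
  h.mu_cn (c := c) (.inr rfl) (fun _ => by ring) hg ha a1

theorem mu_cn_add (hg : Act S g fun j => j + c) (ha : a ∈ S.U i) (a1 : a ≠ 1) : S.mu (cn a g) = cn (S.mu a) g :=
  h.mu_cn (c := c) (.inl rfl) (fun _ => by ring) hg ha a1

theorem mu_cn_id (hg : Act S g fun j => j) (ha : a ∈ S.U i) (a1 : a ≠ 1) : S.mu (cn a g) = cn (S.mu a) g :=
  h.mu_cn (c := 0) (.inl rfl) (fun _ => by ring) hg ha a1

theorem la_ne (ha : a ∈ S.U i) (a1 : a ≠ 1) : S.la a ≠ 1 := fun e => by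
  have h3 := h.three
  obtain ⟨x, hx, x1⟩ := h.exists_ne (i + n)
  have e1 := (h.act_mu ha a1).mU hx
  have e2 : cn x (S.mu a * a⁻¹) ∈ I S.U i (i + n - 1) := by
    rw [← cn_cn]
    exact cn_mem (mem_I e1 (by omega) (by omega)) (inv_mem (mem_I ha le_rfl (by omega)))
  rw [Sys.mu, e, mul_one, mul_inv_cancel_right] at e2
  exact cn_ne x1 _ (h.hi (cn_mem hx (h.ka_mem ha a1)) e2 (by omega) le_rfl)

theorem ka_ne (ha : a ∈ S.U i) (a1 : a ≠ 1) : S.ka a ≠ 1 := by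
  have := h.la_ne (inv_mem ha) (inv_ne_one.2 a1)
  rwa [(h.ka_inv ha a1).2, inv_ne_one] at this

theorem ka_la (ha : a ∈ S.U i) (a1 : a ≠ 1) : S.ka (S.la a) = a ∧ S.la (S.la a) = cn (S.ka a) (S.mu a) :=
  h.uniq (h.la_mem ha a1) (h.la_ne ha a1) (h.mem_per ha 1 (by ring))
    (h.mem_per ((h.act_mu ha a1).mU (h.ka_mem ha a1)) 1 (by ring)) fun j x hx => by
      rw [show a * S.la a * cn (S.ka a) (S.mu a) = S.mu a by unfold cn Sys.mu; group]
      exact h.mem_per ((h.act_mu ha a1).mU hx) 1 (by ring)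

theorem mu_la (ha : a ∈ S.U i) (a1 : a ≠ 1) : S.mu (S.la a) = S.mu a := by
  rw [Sys.mu, (h.ka_la ha a1).1, (h.ka_la ha a1).2]; unfold cn Sys.mu; group

theorem la_ka (ha : a ∈ S.U i) (a1 : a ≠ 1) : S.ka (S.ka a) = cn (S.la a) (S.mu a)⁻¹ ∧ S.la (S.ka a) = a :=
  h.uniq (h.ka_mem ha a1) (h.ka_ne ha a1)
    (h.mem_per (((h.act_mu ha a1).inv (f' := fun j => 2 * i + n - j) fun _ => by ring).mU (h.la_mem ha a1)) 1
      (by ring)) (h.mem_per ha 1 (by ring)) fun j x hx => by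
      rw [show cn (S.la a) (S.mu a)⁻¹ * S.ka a * a = S.mu a by unfold cn Sys.mu; group]
      exact h.mem_per ((h.act_mu ha a1).mU hx) 1 (by ring)

theorem mu_ka (ha : a ∈ S.U i) (a1 : a ≠ 1) : S.mu (S.ka a) = S.mu a := by
  rw [Sys.mu, (h.la_ka ha a1).1, (h.la_ka ha a1).2]; unfold cn Sys.mu; group

omit [Finite G] h in
theorem star (x a : G) : cn (cn x (S.ka a)) a = cn (cn x (S.mu a)) (S.la a)⁻¹ := by unfold cn Sys.mu; group

omit [Finite G] h in
theorem star' (e : x * S.ka a = S.ka a * x) : cn x a = cn (cn x (S.mu a)) (S.la a)⁻¹ := by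
  rw [← star, cn_of_comm e]

omit [Finite G] in
theorem mu_comm (ha : a ∈ S.U i) (a1 : a ≠ 1) (e : x * a = a * x) (e' : ∀ y ∈ S.U (i + n), x * y = y * x) :
    cn x (S.mu a) = x := cn_of_comm (comm_mul (comm_mul (e' _ (h.ka_mem ha a1)) e) (e' _ (h.la_mem ha a1)))

theorem lemA {d : G} (ht : t ∈ S.U m) (hd : d ∈ I S.U (j - n + 1) (j - 1)) (ha : a ∈ S.U j) (a1 : a ≠ 1)
    (h1 : n < 2 * (j - m)) (h2 : j < m + n) (e : t * (d * a) = d * a * t) : t = 1 := by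
  have h3 := h.three
  have hk : S.ka a ∈ S.U (j - n) := h.mem_per (h.ka_mem ha a1) (-1) (by ring)
  have hl : S.la a ∈ S.U (j - n) := h.mem_per (h.la_mem ha a1) (-1) (by ring)
  obtain ⟨p, hp, q, hq, e1⟩ := h.split (i := j - n) (j := j - 1)
    (mul_mem (I_mono hd (by omega) le_rfl) (inv_mem (mem_I hk le_rfl (by omega)))) (m - 1) (by omega)
  have e2 : cn (cn t (S.la a)) (S.mu a)⁻¹ = cn (cn t p) q := by
    rw [cn_cn t p, ← e1]
    conv_lhs => rw [← cn_of_comm e]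
    unfold cn Sys.mu; group
  have e3 : cn (cn t p) q ∈ I S.U (m + 1) (j - 1) := by
    rw [← e2]
    exact h.I_per (I_mono (((h.act_mu ha a1).inv (f' := fun k => 2 * j + n - k) fun _ => by ring).I_neg
      (h.cn_U hl (mem_I ht (i := j - n + 1) (j := m) (by omega) le_rfl) le_rfl (by omega) (by omega) (by omega)))
      (k := m + 1 + 2 * n) (l := j - 1 + 2 * n) (by omega) (by omega)) (-1) (by ring) (by ring)
  have e4 := h.cn_I (inv_mem hq) e3 (by omega) (by omega) (by omega) (by omega)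
  obtain ⟨r, hr, e5⟩ := h.cn_top ht hp (by omega)
  rw [cn_cn_inv, e5] at e4
  have e6 := h.disj (mul_mem (I_mono hr le_rfl (by omega : m - 1 ≤ m)) (mem_I ht (by omega) le_rfl)) e4
    (by omega) (by omega) (by omega)
  exact h.hi ht (eq_inv_of_mul_eq_one_right e6 ▸ inv_mem hr) (by omega) (by omega)

theorem lemA' {d : G} (ht : t ∈ S.U m) (ha : a ∈ S.U i) (hd : d ∈ I S.U (i + 1) (i + n - 1)) (a1 : a ≠ 1)
    (h1 : n < 2 * (m - i)) (h2 : m < i + n) (e : t * (a * d) = a * d * t) : t = 1 :=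
  (h.rf 0).lemA (m := -m) (j := -i) (d := d⁻¹) (a := a⁻¹) (by simpa [Sys.rf] using ht)
    (I_rf.2 (I_mono (inv_mem hd) (by omega) (by omega))) (by simpa [Sys.rf] using ha) (inv_ne_one.2 a1)
    (by omega) (by omega) (by rw [← mul_inv_rev]; exact comm_inv e)

theorem top_le (ht : t ∈ S.U m) (t1 : t ≠ 1) (hx : x ∈ I S.U i j) (h1 : j < i + n) (h2 : j < m + n)
    (h3 : n < 2 * (l + 1 - m)) (e : t * x = x * t) : x ∈ I S.U i l := by
  by_cases e1 : j ≤ l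
  · exact I_mono hx le_rfl e1
  obtain ⟨d, rfl⟩ : ∃ d : ℕ, j = l + d := ⟨(j - l).toNat, by omega⟩
  clear e1
  induction d with
  | zero => simpa using hx
  | succ d ih =>
    obtain ⟨r, hr, a, ha, rfl⟩ := h.top hx h1
    by_cases a1 : a = 1
    · exact ih (by rw [a1, mul_one]; exact I_mono hr le_rfl (by omega)) (by omega) (by omega)
    · exact absurd (h.lemA ht (I_mono hr (by omega) le_rfl) ha a1 (by omega) h2 e) t1

theorem bot_ge (ht : t ∈ S.U m) (t1 : t ≠ 1) (hx : x ∈ I S.U i j) (h1 : j < i + n) (h2 : m < i + n)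
    (h3 : n < 2 * (m + 1 - k)) (e : t * x = x * t) : x ∈ I S.U k j :=
  I_mono (I_rf.1 ((h.rf 0).top_le (m := -m) (i := -j) (j := -i) (l := -k) (by simpa [Sys.rf] using ht) t1
    (I_rf.2 (I_mono hx (by omega) (by omega))) (by omega) (by omega) (by omega) e)) (by omega) (by omega)

end RK

end Cfsg.Lib.MO
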