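import Cfsg.Agent.MO.D9
import Cfsg.Agent.Oct.ModC

/-!
# Moufang octagons: the commutation rules from the rules for base points
-/

set_option autoImplicit false

namespace Cfsg.Lib.MO

open Function Cfsg.Lib.Oct Cfsg.Lib.Chev

universe u

namespace R1

theorem lin_ker {A : Type*} [AddCommGroup A] (f : A →+ A) (hf : ∀ z, f (f z) = (2 : ℤ) • z)
    {m₁ m₂ m₃ m₄ n₁ n₂ n₃ n₄ : ℤ} {a b : A} (h1 : m₁ • a + m₂ • f a + m₃ • b + m₄ • f b = 0)
    (h2 : n₁ • a + n₂ • f a + n₃ • b + n₄ • f b = 0) {D E : ℤ}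
    (hD : D = m₁ * n₃ + 2 * m₂ * n₄ - m₃ * n₁ - 2 * m₄ * n₂)
    (hE : E = m₁ * n₄ + m₂ * n₃ - m₃ * n₂ - m₄ * n₁) :
    (D ^ 2 - 2 * E ^ 2) • a = 0 ∧ (D ^ 2 - 2 * E ^ 2) • b = 0 := by
  have h3 := congrArg f h1
  have h4 := congrArg f h2
  simp only [map_add, map_zsmul, hf, map_zero] at h3 h4
  subst hD hE
  set D := m₁ * n₃ + 2 * m₂ * n₄ - m₃ * n₁ - 2 * m₄ * n₂ with hD
  set E := m₁ * n₄ + m₂ * n₃ - m₃ * n₂ - m₄ * n₁ with hE
  constructor
  · linear_combination (norm := (rw [hD, hE]; module)) (n₃ * D - 2 * n₄ * E) • h1 +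
      (n₄ * D - n₃ * E) • h3 - (m₃ * D - 2 * m₄ * E) • h2 - (m₄ * D - m₃ * E) • h4
  · linear_combination (norm := (rw [hD, hE]; module)) (m₁ * D - 2 * m₂ * E) • h2 +
      (m₂ * D - m₁ * E) • h4 - (n₁ * D - 2 * n₂ * E) • h1 - (n₂ * D - n₁ * E) • h3

/-- The norm of the determinant of two exponent vectors. -/
def nrm (m n : Md.Mn) : ℤ :=
  ((m.1 : ℤ) * n.2.2.1 + 2 * m.2.1 * n.2.2.2 - m.2.2.1 * n.1 - 2 * m.2.2.2 * n.2.1) ^ 2 -
    2 * ((m.1 : ℤ) * n.2.2.2 + m.2.1 * n.2.2.1 - m.2.2.1 * n.2.1 - m.2.2.2 * n.1) ^ 2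

theorem nrm_eq_1' : type_of% @nrm.eq_1 := @nrm.eq_1

variable {K : Type*} [Field K] [TwF K]

theorem eq_one_of_pow {a : Kˣ} (k : ℕ) (h : a ^ 2 ^ k = 1) : a = 1 := by
  induction k with
  | zero => simpa using h
  | succ k ih =>
    refine ih (Units.ext ((σ : K →+* K).injective ((σ : K →+* K).injective ?_)))
    rw [σσ, σσ, ← Units.val_pow_eq_pow_val, ← pow_mul, ← pow_succ, h]
    simp

theorem exists_ab [Finite K] {m n : Md.Mn} (h : nrm m n ∣ 2 ^ 4) {s t : K} (hs : s ≠ 0) (ht : t ≠ 0) :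
    ∃ a b : K, a ≠ 0 ∧ b ≠ 0 ∧ Md.ev a b m = s ∧ Md.ev a b n = t := by
  let φ : Md.Mn → Kˣ × Kˣ →* Kˣ := fun m =>
    MonoidHom.fst _ _ ^ m.1 * (σu.comp (MonoidHom.fst _ _)) ^ m.2.1 * MonoidHom.snd _ _ ^ m.2.2.1 *
      (σu.comp (MonoidHom.snd _ _)) ^ m.2.2.2
  have hi : Injective ((φ m).prod (φ n)) := by
    rw [injective_iff_map_eq_one]
    rintro ⟨a, b⟩ e
    obtain ⟨c, hc⟩ := h
    have key : ∀ a : Kˣ, nrm m n • Additive.ofMul a = 0 → a = 1 := fun a ha =>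
      eq_one_of_pow 4 (by
        have : ((2 ^ 4 : ℕ) : ℤ) • Additive.ofMul a = 0 := by
          rw [Nat.cast_pow, Nat.cast_ofNat, hc, mul_comm, mul_smul, ha, smul_zero]
        rwa [natCast_zsmul] at this)
    have := lin_ker (A := Additive Kˣ) (MonoidHom.toAdditive σu)
      (fun z => by rw [two_zsmul]; exact Units.ext ((σσ _).trans (sq _)))
      (a := .ofMul a) (b := .ofMul b) (m₁ := m.1) (m₂ := m.2.1) (m₃ := m.2.2.1) (m₄ := m.2.2.2)
      (n₁ := n.1) (n₂ := n.2.1) (n₃ := n.2.2.1) (n₄ := n.2.2.2)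
      (by simp only [natCast_zsmul]; exact congrArg Prod.fst e)
      (by simp only [natCast_zsmul]; exact congrArg Prod.snd e) rfl rfl
    exact Prod.ext (key a this.1) (key b this.2)
  obtain ⟨⟨a, b⟩, e⟩ := Finite.surjective_of_injective hi (Units.mk0 s hs, Units.mk0 t ht)
  refine ⟨a, b, a.ne_zero, b.ne_zero, ?_, ?_⟩
  · simpa [φ, Md.ev] using congrArg (fun p => (p.1 : K)) e
  · simpa [φ, Md.ev] using congrArg (fun p => (p.2 : K)) e

theorem nrm_ok : ∀ j < 12, ∀ i < j, nrm (Md.mt j) (Md.mt i) ∣ 2 ^ 4 ∨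
    (j = 3 ∧ i = 1) ∨ (j = 7 ∧ i = 2) ∨ (j = 10 ∧ i = 4) ∨ (j = 11 ∧ i = 5) := by decide +kernel

set_option synthInstance.maxSize 2000 in
theorem rl_ok : ∀ j < 12, ∀ i < j, ∀ p ∈ Md.rl j i, p.1 < 12 ∧ (p.2.1 ≠ 0 ∨ p.2.2.1 ≠ 0) ∧
    (p.2.2.2.1 ≠ 0 ∨ p.2.2.2.2 ≠ 0) ∧ Md.mt p.1 =
      Md.lin 1 (Md.lin p.2.1 (Md.mt j) p.2.2.1 (Md.sg (Md.mt j))) 1
        (Md.lin p.2.2.2.1 (Md.mt i) p.2.2.2.2 (Md.sg (Md.mt i))) := by decide +kernel

variable {G : Type u} [Group G] {S : Sys G} {e f g w : ℤ → G} {x y : ℤ → K → G}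

theorem lx_one (C : Crd S e f g w x y) {k : ℕ} (hk : k < 12) : Lx x y k 1 = Lb e f g k := by
  interval_cases k <;> first | exact C.xe (by decide) | exact C.xf (by decide) | exact C.yg (by decide)

theorem lx_zero (C : Crd S e f g w x y) {k : ℕ} (hk : k < 12) : Lx x y k 0 = 1 := by
  have h : ∀ k, x k 0 = 1 := fun k => by simpa using C.add k 0 0
  interval_cases k <;> first | exact h _ | exact C.y0 _

theorem lx_tor {a b : K} {τ : G} (T : Tor x y a b τ) {k : ℕ} (hk : k < 12) (t : K) :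
    cn (Lx x y k t) τ = Lx x y k (Md.ev a b (Md.mt k) * t) := by
  interval_cases k <;> simp only [Lx, Md.ev, Md.mt, List.getD_cons_succ, List.getD_cons_zero, pow_zero,
    pow_one, mul_one, one_mul, T.x1, T.y8, T.y2, T.x8, T.y6, T.y4, T.x7, T.x2, T.x3, T.x5, T.x6, T.x4]

theorem word_zero (C : Crd S e f g w x y) {s t : K} (h : s = 0 ∨ t = 0) {l : List (ℕ × Md.Mn)}
    (hl : ∀ p ∈ l, p.1 < 12 ∧ (p.2.1 ≠ 0 ∨ p.2.2.1 ≠ 0) ∧ (p.2.2.2.1 ≠ 0 ∨ p.2.2.2.2 ≠ 0)) :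
    word (Lx x y) (Md.evs s t l) = 1 := by
  induction l with
  | nil => rfl
  | cons p l ih =>
    obtain ⟨h1, h2, h3⟩ := hl p List.mem_cons_self
    have : Md.ev s t p.2 = 0 := by
      rcases h with rfl | rfl
      · rcases h2 with h2 | h2 <;> simp [Md.ev, h2]
      · rcases h3 with h3 | h3 <;> simp [Md.ev, h3]
    change Lx x y p.1 (Md.ev s t p.2) * word (Lx x y) (Md.evs s t l) = 1
    rw [this, lx_zero C h1, ih fun q hq => hl q (List.mem_cons_of_mem _ hq), one_mul]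

theorem word_tor (C : Crd S e f g w x y) {a b s t : K} {τ : G} (T : Tor x y a b τ)
    {l : List (ℕ × Md.Mn)} (hl : ∀ p ∈ l, p.1 < 12 ∧ Md.ev a b (Md.mt p.1) = Md.ev s t p.2) :
    cn (l.map fun p => Lb e f g p.1).prod τ = word (Lx x y) (Md.evs s t l) := by
  induction l with
  | nil => exact one_cn τ
  | cons p l ih =>
    obtain ⟨h1, h2⟩ := hl p List.mem_cons_self
    rw [List.map_cons, List.prod_cons, cn_mul, ih fun q hq => hl q (List.mem_cons_of_mem _ hq),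
      ← lx_one C h1, lx_tor T h1, mul_one, h2]
    rfl

theorem rel_of [Finite K] (C : Crd S e f g w x y) (R : Rel1 e f g) {j i : ℕ} (hj : j < 12) (hi : i < j)
    (h : nrm (Md.mt j) (Md.mt i) ∣ 2 ^ 4) (s t : K) :
    Lx x y j s * Lx x y i t = Lx x y i t * (Lx x y j s * word (Lx x y) (Md.evs s t (Md.rl j i))) := by
  have hl := rl_ok j hj i hi
  by_cases h0 : s = 0 ∨ t = 0
  · rw [word_zero C h0 fun p hp => ⟨(hl p hp).1, (hl p hp).2.1, (hl p hp).2.2.1⟩, mul_one]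
    rcases h0 with rfl | rfl
    · rw [lx_zero C hj, one_mul, mul_one]
    · rw [lx_zero C (hi.trans hj), one_mul, mul_one]
  rw [not_or] at h0
  obtain ⟨a, b, ha, hb, rfl, rfl⟩ := exists_ab h h0.1 h0.2
  obtain ⟨τ, T⟩ := C.tor ha hb
  have := congrArg (cn · τ) (R j hj i hi)
  simp only [cn_mul] at this
  rwa [word_tor C T (s := Md.ev a b (Md.mt j)) (t := Md.ev a b (Md.mt i)) fun p hp => ⟨(hl p hp).1, by
      rw [(hl p hp).2.2.2, Md.ev_lin, Md.ev_lin, Md.ev_lin, Md.ev_sg, Md.ev_sg, pow_one, pow_one,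
        ← mul_assoc]
      rfl⟩,
    ← lx_one C hj, ← lx_one C (hi.trans hj), lx_tor T hj, lx_tor T (hi.trans hj), mul_one,
    mul_one] at this

theorem comm4 [Finite K] (C : Crd S e f g w x y) (R : Rel1 e f g) (s t : K) :
    x 4 s * y 4 t = y 4 t * x 4 s := by
  have h1 := rel_of C R (j := 10) (i := 0) (by decide) (by decide) (by decide +kernel) s 1
  have h2 := rel_of C R (j := 5) (i := 0) (by decide) (by decide) (by decide +kernel) t 1
  have h3 := rel_of C R (j := 10) (i := 5) (by decide) (by decide) (by decide +kernel) s t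
  have h4 := rel_of C R (j := 10) (i := 7) (by decide) (by decide) (by decide +kernel) s t
  have h5 := rel_of C R (j := 11) (i := 7) (by decide) (by decide) (by decide +kernel) s t
  simp only [Lx, Md.rl, Md.evs, Md.ev, List.map_cons, List.map_nil, word_cons, word_nil,
    List.getD_cons_succ, List.getD_cons_zero, pow_zero, pow_one, mul_one] at h1 h2 h3 h4 h5
  have h6 : x 1 1 * x 6 s * (x 4 s * y 4 t) * x 2 t = x 1 1 * x 6 s * (y 4 t * x 4 s) * x 2 t :=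
    calc _ = x 1 1 * (x 6 s * x 4 s) * (y 4 t * x 2 t) := by group
      _ = x 6 s * (x 1 1 * (y 4 t * x 2 t)) := by rw [← h1]; group
      _ = x 6 s * y 4 t * x 1 1 := by rw [← h2]; group
      _ = y 4 t * (x 6 s * x 1 1) := by rw [h3]; group
      _ = y 4 t * x 1 1 * (x 6 s * x 4 s) := by rw [h1]; group
      _ = x 1 1 * y 4 t * (x 2 t * x 6 s) * x 4 s := by rw [h2]; group
      _ = x 1 1 * (y 4 t * x 6 s) * (x 2 t * x 4 s) := by rw [← h4]; group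
      _ = _ := by rw [← h3, ← h5]; group
  exact mul_left_cancel (mul_right_cancel h6)

end R1

variable {G : Type u} {G' : Type*} [Group G] [Group G'] [Finite G] [Finite G'] {S : Sys G} {n : ℕ}

omit [Finite G] in
theorem Crd.relC {e f g w : ℤ → G} {K : Type*} [Field K] [TwF K] [Finite K] {x y : ℤ → K → G}
    (C : Crd S e f g w x y) (R : Rel1 e f g) : RelC x y := by
  intro j hj i hi s t
  have key : ∀ k : ℤ, x (2 * k + 8 - 4) s * y (2 * k + 8 - 4) t =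
      y (2 * k + 8 - 4) t * (x (2 * k + 8 - 4) s * 1) := fun k => by
    rw [mul_one, ← C.cx, ← C.cy k (by decide), ← cn_mul, ← cn_mul, R1.comm4 C R]
  rcases R1.nrm_ok j hj i hi with h | ⟨rfl, rfl⟩ | ⟨rfl, rfl⟩ | ⟨rfl, rfl⟩ | ⟨rfl, rfl⟩
  exacts [R1.rel_of C R hj hi h s t, key 2, key (-1), key 1, key 0]

end Cfsg.Lib.MO
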