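import Cfsg.Agent.MO.I2
import Cfsg.Agent.MO.D9
import Cfsg.Agent.Oct.CoxB

/-!
# Moufang octagons: the embedding of the model
-/

set_option autoImplicit false

namespace Cfsg.Lib.MO

open Cfsg.Lib.Oct Cfsg.Lib.Chev

variable {G : Type*} [Group G] {S : Sys G} {e f g w : ℤ → G}
variable {K : Type*} [Field K] [TwF K] {x y : ℤ → K → G}

theorem RelC.cn (R : RelC x y) (j i : ℕ) (s t : K) (H : j < 12 ∧ i < j := by omega) :
    cn (Lx x y j s) (Lx x y i t) = Lx x y j s * word (Lx x y) (Md.evs s t (Md.rl j i)) := by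
  rw [MO.cn, mul_assoc, R j H.1 i H.2, inv_mul_cancel_left]

theorem RelC.c58 (R : RelC x y) (s t : K) : MO.cn (x 5 s) (y 8 t) = x 5 s * x 6 (s * t) := by
  simpa [Lx, Md.rl, Md.evs, Md.ev] using R.cn 9 1 s t

theorem RelC.c38 (R : RelC x y) (s t : K) : MO.cn (x 3 s) (y 8 t) = x 3 s * (x 5 (s * σ t) * x 4 (σ s * t)) := by
  simpa [Lx, Md.rl, Md.evs, Md.ev] using R.cn 8 1 s t

theorem RelC.c38' (R : RelC x y) (s t : K) : MO.cn (x 3 s) (x 8 t) = x 3 s * x 6 (s * t) := by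
  simpa [Lx, Md.rl, Md.evs, Md.ev] using R.cn 8 3 s t

namespace Crd

variable (C : Crd S e f g w x y)
include C

theorem x0 (k : ℤ) : x k 0 = 1 := by simpa using C.add k 0 0

theorem xU (k : ℤ) (t : K) (H : k % 2 = 1 := by omega) : x k t ∈ S.U k := (C.memU (Int.odd_iff.2 H)).2 ⟨t, rfl⟩

theorem xV (k : ℤ) (t : K) (H : k % 2 = 0 := by omega) : x k t ∈ S.V k := (C.memV (Int.even_iff.2 H)).2 ⟨t, rfl⟩

theorem yU (k : ℤ) (t : K) (H : k % 2 = 0 := by omega) : y k t ∈ S.U k := C.memY (Int.even_iff.2 H) t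

theorem x_inj {k : ℤ} {s t : K} (H : x k s = x k t) : s = t := by
  have e1 := C.add k s t
  rw [H, ← C.add, CharTwo.add_self_eq_zero, C.x0] at e1
  simpa [CharTwo.add_eq_zero] using C.inj e1

end Crd

namespace O1

variable [Finite G] (h : O1 S) (B : Base S e f g w) (C : Crd S e f g w x y) (R : RelC x y)
include h C R

theorem dec8 {u : G} {s : K} (hu : u ∈ S.U 8) (H : cn (x 5 1) u = x 5 1 * x 6 s) : ∃ t, u = y 8 s * x 8 t := by
  have e1 : cn (x 5 1) (u * (y 8 s)⁻¹) = x 5 1 := by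
    rw [← cn_cn, H, ← one_mul s, ← R.c58, one_mul s, cn_cn_inv]
  have hv := h.TV (C.xU 5 1) (fun H => one_ne_zero (C.inj H)) (mul_mem hu (inv_mem (C.yU 8 s))) (cn_eq_iff.1 e1).symm
  obtain ⟨t, ht⟩ := (C.memV (by decide)).1 hv
  exact ⟨t, by rw [← h.vc (C.xV 8 t) (C.yU 8 s), ← ht, inv_mul_cancel_right]⟩

theorem y8_add (s t : K) : y 8 s * y 8 t = y 8 (s + t) * x 8 (σ s * t) := by
  obtain ⟨c, hc⟩ := h.dec8 C R (s := s + t) (mul_mem (C.yU 8 s) (C.yU 8 t)) (by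
    rw [← cn_cn, R.c58, cn_mul, R.c58, cn_of_comm (h.vc (C.xV 6 _) (C.yU 8 t)), one_mul, one_mul, add_comm, C.add,
      mul_assoc])
  have e1 := congrArg (cn (x 3 1)) hc
  rw [← cn_cn, ← cn_cn, R.c38, R.c38, cn_mul, cn_mul, cn_mul, cn_mul, R.c38, R.c58, R.c38',
    cn_of_comm (h.vc (C.xV 4 _) (C.yU 8 t)), cn_of_comm (h.vc (C.xV 8 c) (C.xU 5 _)).symm,
    cn_of_comm (h.vc (C.xV 4 _) (h.V_le (C.xV 8 c)))] at e1
  simp only [map_one, one_mul, map_add] at e1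
  rw [add_comm (σ s), add_comm s, C.add, C.add, mul_assoc (x 3 1), mul_assoc (x 3 1), mul_right_inj,
    ← mul_assoc (x 6 c), h.vI (C.xV 6 c) (mul_mem (mem_I (C.xU 5 _) le_rfl le_rfl) (mem_I (C.xU 5 _) le_rfl le_rfl)),
    ← mul_assoc, ← mul_assoc _ (x 4 t), mul_left_inj, mul_assoc (x 5 (σ t)), h.vI (C.xV 4 t) (k := 5) (l := 6)
      (mul_mem (mem_I (C.xU 5 _) le_rfl (by decide)) (mem_I (h.V_le (C.xV 6 _)) (by decide) le_rfl)),
    ← mul_assoc, mul_left_inj, ← mul_assoc, mul_right_inj] at e1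
  rw [hc, C.x_inj e1]

theorem y_add (k : ℤ) (s t : K) : y (2 * k) s * y (2 * k) t = y (2 * k) (s + t) * x (2 * k) (σ s * t) := by
  have e1 := congrArg (cn · (w k)) (h.y8_add C R s t)
  simp only [cn_mul, C.cy k (by decide : Even (8 : ℤ)), C.cx, add_sub_cancel_right] at e1
  exact e1

theorem rel : Md.Rel (Lx x y) := by
  refine ⟨fun i hi => ?_, R, fun i hi s t => ?_⟩
  · interval_cases i <;> simp [Lx, C.x0, C.y0]
  · have e1 := h.y_add C R 1 s t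
    have e2 := h.y_add C R 2 s t
    have e3 := h.y_add C R 3 s t
    have e4 := h.y8_add C R s t
    interval_cases i <;> simp [Lx, Md.rl, Md.evs, Md.ev, C.add] <;> assumption

include B in
theorem memE (k : ℤ) (u : G) : u ∈ S.U (2 * k) ↔ ∃ s t, u = y (2 * k) s * x (2 * k) t := by
  refine ⟨fun hu => ?_, ?_⟩
  · have h8 : cn u (w k)⁻¹ ∈ S.U 8 := (B.act h.toRK k (2 * k + 8) (by omega) 8 _).1.1 (by simpa using hu)
    obtain ⟨s, hs⟩ := (C.memV (by decide)).1 (h.c3 (C.xU 5 1) h8 6)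
    obtain ⟨t, ht⟩ := h.dec8 C R h8 (by rw [cn_eq, hs])
    have e1 := congrArg (cn · (w k)) ht
    simp only [cn_mul, C.cy k (by decide : Even (8 : ℤ)), C.cx, add_sub_cancel_right, cn_inv_cn] at e1
    exact ⟨s, t, e1⟩
  · rintro ⟨s, t, rfl⟩
    exact mul_mem (C.yU _ s) (h.V_le (C.xV _ t))

omit h R in
theorem memO (k : ℤ) (u : G) (H : k % 2 = 1 := by omega) : u ∈ S.U k ↔ ∃ s t, u = x k s * x k t := by
  refine ⟨fun hu => ?_, ?_⟩
  · obtain ⟨t, rfl⟩ := (C.memU (Int.odd_iff.2 H)).1 hu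
    exact ⟨0, t, by rw [C.x0, one_mul]⟩
  · rintro ⟨s, t, rfl⟩
    exact mul_mem (C.xU _ s) (C.xU _ t)

omit h C R [Finite G] in
theorem map_on {A : Subgroup (UU K)} {p q : K → UU K} (hA : Cx.On A p q) {ι : UU K →* G} {p' q' : K → G}
    (e1 : ∀ t, ι (p t) = p' t) (e2 : ∀ t, ι (q t) = q' t) {H : Subgroup G} (hH : ∀ u, u ∈ H ↔ ∃ s t, u = p' s * q' t) :
    A.map ι = H := by
  ext u
  rw [hH, Subgroup.mem_map]
  constructor
  · rintro ⟨v, hv, rfl⟩
    obtain ⟨s, t, rfl⟩ := (hA v).1 hv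
    exact ⟨s, t, by rw [map_mul, e1, e2]⟩
  · rintro ⟨s, t, rfl⟩
    exact ⟨_, (hA _).2 ⟨s, t, rfl⟩, by rw [map_mul, e1, e2]⟩

end O1

theorem O1.exists_emb [Finite G] (h : O1 S) (B : Base S e f g w) [Finite K] {x y : ℤ → K → G}
    (C : Crd S e f g w x y) (R : RelC x y) : ∃ ι : UU K →* G, Emb S ι := by
  have L := fun k (hk : k < 12) => (h.rel C R).hom_lt hk
  refine ⟨(h.rel C R).hom, ?_,
    map_on Cx.on1 (L 0 (by decide)) (L 0 (by decide)) fun u => memO C 1 u,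
    map_on Cx.on2 (L 2 (by decide)) (L 7 (by decide)) (h.memE B C R 1),
    map_on Cx.on3 (L 8 (by decide)) (L 8 (by decide)) fun u => memO C 3 u,
    map_on Cx.on4 (L 5 (by decide)) (L 11 (by decide)) (h.memE B C R 2),
    map_on Cx.on5 (L 9 (by decide)) (L 9 (by decide)) fun u => memO C 5 u,
    map_on Cx.on6 (L 4 (by decide)) (L 10 (by decide)) (h.memE B C R 3),
    map_on Cx.on7 (L 6 (by decide)) (L 6 (by decide)) fun u => memO C 7 u,
    map_on Cx.on8 (L 1 (by decide)) (L 3 (by decide)) (h.memE B C R 4)⟩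
  have := (UU.isPGroup K).isNilpotent
  refine (MonoidHom.ker_eq_bot_iff _).1 (by_contra fun h0 => Solv.PG.inf_center_ne_bot _ h0 ?_)
  refine eq_bot_iff.2 fun u ⟨h1, h2⟩ => ?_
  have h3 := UU.eq_of_mem_Z (mem_Z_of_comm fun v _ => (Subgroup.mem_center_iff.1 h2 v).symm)
  rw [h3] at h1 ⊢
  rw [C.inj (k := 4) ((L 11 (by decide) _).symm.trans h1)]
  exact one_mem _

end Cfsg.Lib.MO
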